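import Cfsg.Agent.Lib.Coprime.Action
import Cfsg.Agent.Lib.FPF.FixedPointFree

set_option autoImplicit false

/-! Fixed point counting for a Frobenius group acting coprimely. -/

namespace Cfsg.Agent.Lib.OddLocal.Wielandt

open Subgroup
open scoped BigOperators Classical

section Abstract

variable {G : Type*} [Group G] {V : Type*} [AddCommGroup V] [DistribMulAction G V]

/-- The fixed points of a subgroup, as an additive subgroup. -/
def fixA (S : Subgroup G) : AddSubgroup V where
  carrier := {v | ∀ s ∈ S, s • v = v}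
  zero_mem' := fun _ _ => smul_zero _
  add_mem' := fun ha hb s hs => by rw [smul_add, ha s hs, hb s hs]
  neg_mem' := fun ha s hs => by rw [smul_neg, ha s hs]

theorem mem_fixA {S : Subgroup G} {v : V} : v ∈ fixA (V := V) S ↔ ∀ s ∈ S, s • v = v := Iff.rfl

/-- A freely permuted projection makes the module free over the permuting group. -/
theorem card_eq_fixed_pow (E : Subgroup G) [Fintype E] (W : AddSubgroup V)
    (hW : ∀ g ∈ E, ∀ x ∈ W, g • x ∈ W) (Q : V →+ V) (hQ : ∀ x ∈ W, Q x ∈ W)
    (hsum : ∀ x ∈ W, ∑ k : E, (k : G) • Q ((k : G)⁻¹ • x) = x)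
    (hoff : ∀ k : E, k ≠ 1 → ∀ x ∈ W, Q ((k : G) • Q x) = 0) (hid : ∀ x ∈ W, Q (Q x) = Q x) :
    Nat.card W = Nat.card ↥(W ⊓ fixA E) ^ Nat.card E := by
  rw [← Nat.card_fun]
  have htrE : ∀ x ∈ W, (∑ e : E, (e : G) • x) ∈ W ⊓ fixA E := by
    intro x hx
    refine ⟨W.sum_mem fun e _ => hW _ e.2 x hx, fun s hs => ?_⟩
    rw [Finset.smul_sum]
    exact Fintype.sum_equiv (Equiv.mulLeft (⟨s, hs⟩ : E)) _ _ fun e => by simp [mul_smul]
  refine Nat.card_congr
    { toFun := fun x k => ⟨∑ e : E, (e : G) • Q ((k : G)⁻¹ • (x : V)),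
        htrE _ (hQ _ (hW _ (E.inv_mem k.2) _ x.2))⟩
      invFun := fun f => ⟨∑ k : E, (k : G) • Q (f k : V),
        W.sum_mem fun k _ => hW _ k.2 _ (hQ _ (f k).2.1)⟩
      left_inv := ?_
      right_inv := ?_ }
  · intro x
    apply Subtype.ext
    show ∑ k : E, (k : G) • Q (∑ e : E, (e : G) • Q ((k : G)⁻¹ • (x : V))) = x
    have h : ∀ k : E, Q (∑ e : E, (e : G) • Q ((k : G)⁻¹ • (x : V))) = Q ((k : G)⁻¹ • (x : V)) := by
      intro k
      have hk := hW _ (E.inv_mem k.2) _ x.2
      rw [map_sum, Finset.sum_eq_single (1 : E) (fun e _ he => hoff e he _ hk)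
        (fun h => absurd (Finset.mem_univ _) h)]
      simp [hid _ hk]
    simp only [h]
    exact hsum _ x.2
  · intro f
    funext j
    apply Subtype.ext
    show ∑ e : E, (e : G) • Q ((j : G)⁻¹ • ∑ k : E, (k : G) • Q (f k : V)) = f j
    have h : Q ((j : G)⁻¹ • ∑ k : E, (k : G) • Q (f k : V)) = Q (f j : V) := by
      rw [Finset.smul_sum, map_sum, Finset.sum_eq_single j (fun k _ hk => ?_)
        (fun h => absurd (Finset.mem_univ _) h), inv_smul_smul, hid _ (f j).2.1]
      rw [← mul_smul]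
      exact hoff (j⁻¹ * k) (fun e => hk (inv_mul_eq_one.mp e).symm) _ (f k).2.1
    rw [h]
    conv_rhs => rw [← hsum _ (f j).2.1]
    refine Finset.sum_congr rfl fun e _ => ?_
    rw [(f j).2.2 _ (E.inv_mem e.2)]

variable (r : ℕ) [NeZero r] (U : Subgroup G) [Fintype U]

/-- The unnormalized eigen-projection on functions `ZMod r → V`. -/
noncomputable def eproj (φ : U →* Multiplicative (ZMod r)) : (ZMod r → V) →+ (ZMod r → V) where
  toFun f i := ∑ u : U, (u : G) • f (i + (φ u).toAdd)
  map_zero' := by funext i; simp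
  map_add' f g := by funext i; simp [smul_add, Finset.sum_add_distrib]

theorem eproj_apply (φ : U →* Multiplicative (ZMod r)) (f : ZMod r → V) (i : ZMod r) :
    eproj r U φ f i = ∑ u : U, (u : G) • f (i + (φ u).toAdd) := rfl

theorem smul_eproj (φ : U →* Multiplicative (ZMod r)) (f : ZMod r → V) (w : U) (i : ZMod r) :
    (w : G) • eproj r U φ f i = eproj r U φ f (i - (φ w).toAdd) := by
  rw [eproj_apply, eproj_apply, Finset.smul_sum]
  refine Fintype.sum_equiv (Equiv.mulLeft w) _ _ fun u => ?_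
  simp only [Equiv.coe_mulLeft, Subgroup.coe_mul, mul_smul, map_mul, toAdd_mul]
  congr 3
  abel

/-- A nonconstant additive shift runs evenly over the cyclic group. -/
theorem sum_hom_eq_zero {r : ℕ} [hr : Fact r.Prime] {A : Type*} [Group A] [Fintype A]
    (φ : A →* Multiplicative (ZMod r)) (hφ : φ ≠ 1) (h : ZMod r → V) (h0 : ∑ i, h i = 0) (i : ZMod r) :
    ∑ a : A, h (i + (φ a).toAdd) = 0 := by
  obtain ⟨a, ha⟩ : ∃ a, φ a ≠ 1 := by
    by_contra hc
    push Not at hc
    exact hφ (MonoidHom.ext hc)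
  have hne : (φ a).toAdd ≠ 0 := ha
  have hsurj : Function.Surjective φ := fun y => by
    refine ⟨a ^ (y.toAdd * ((φ a).toAdd)⁻¹).val, Multiplicative.toAdd.injective ?_⟩
    rw [map_pow, toAdd_pow, nsmul_eq_mul, ZMod.natCast_zmod_val, mul_assoc, inv_mul_cancel₀ hne, mul_one]
  have hfib : ∀ y, (Finset.univ.filter fun a => φ a = y).card =
      (Finset.univ.filter fun a => φ a = 1).card := fun y =>
    MonoidHom.card_fiber_eq_of_mem_range φ (hsurj y) (hsurj 1)
  rw [← Finset.sum_fiberwise Finset.univ φ fun a => h (i + (φ a).toAdd)]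
  have : ∀ y, ∑ a ∈ Finset.univ.filter (fun a => φ a = y), h (i + (φ a).toAdd) =
      (Finset.univ.filter fun a => φ a = 1).card • h (i + y.toAdd) := by
    intro y
    rw [← hfib y, ← Finset.sum_const]
    exact Finset.sum_congr rfl fun a ha => by rw [(Finset.mem_filter.mp ha).2]
  simp only [this, ← Finset.smul_sum]
  rw [show ∑ y : Multiplicative (ZMod r), h (i + y.toAdd) = ∑ j, h j from
    Fintype.sum_equiv (Multiplicative.toAdd.trans (Equiv.addLeft i)) _ _ fun y => rfl, h0, smul_zero]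

variable {r} {U}

theorem eproj_sum (f : ZMod r → V) (h0 : ∑ i, f i = 0) (φ : U →* Multiplicative (ZMod r)) :
    ∑ i, eproj r U φ f i = 0 := by
  simp only [eproj_apply]
  rw [Finset.sum_comm]
  refine Finset.sum_eq_zero fun u _ => ?_
  rw [← Finset.smul_sum, show ∑ x, f (x + (φ u).toAdd) = ∑ j, f j from
    Fintype.sum_equiv (Equiv.addRight (φ u).toAdd) _ f fun i => rfl, h0, smul_zero]

theorem eproj_comp [hr : Fact r.Prime] (φ ψ : U →* Multiplicative (ZMod r)) (f : ZMod r → V)
    (h0 : ∑ i, f i = 0) :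
    eproj r U ψ (eproj r U φ f) = if ψ = φ then Nat.card U • eproj r U φ f else 0 := by
  funext i
  rw [eproj_apply]
  simp only [smul_eproj]
  split_ifs with h
  · subst h
    simp [Nat.card_eq_fintype_card, Finset.card_univ]
  · have := sum_hom_eq_zero (r := r) (ψ / φ) (fun e => h (div_eq_one.mp e)) (eproj r U φ f)
      (eproj_sum f h0 φ) i
    rw [Pi.zero_apply, ← this]
    refine Finset.sum_congr rfl fun u _ => ?_
    rw [MonoidHom.div_apply, toAdd_div, add_sub_assoc]

theorem eproj_add_eq_sum [hr : Fact r.Prime] [Fintype (U →* Multiplicative (ZMod r))] (f : ZMod r → V)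
    (h0 : ∑ i, f i = 0) (hker : ∀ u : U, (∀ φ : U →* Multiplicative (ZMod r), φ u = 1) → ∀ i, (u : G) • f i = f i) :
    ∑ φ : U →* Multiplicative (ZMod r), eproj r U φ f =
      ((Finset.univ.filter fun u : U => ∀ φ : U →* Multiplicative (ZMod r), φ u = 1).card *
        Fintype.card (U →* Multiplicative (ZMod r))) • f := by
  funext i
  rw [Finset.sum_apply, Pi.smul_apply]
  simp only [eproj_apply]
  rw [Finset.sum_comm, ← Finset.sum_filter_add_sum_filter_not Finset.univ
    (fun u : U => ∀ φ : U →* Multiplicative (ZMod r), φ u = 1)]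
  rw [Finset.sum_eq_zero (s := Finset.univ.filter fun u : U => ¬ _) fun u hu => ?_, add_zero, mul_smul,
    ← Finset.sum_const]
  · refine Finset.sum_congr rfl fun u hu => ?_
    have hu' := (Finset.mem_filter.mp hu).2
    simp only [hu', toAdd_one, add_zero, hker u hu', Finset.sum_const, Finset.card_univ]
  · rw [← Finset.smul_sum]
    have hne : (MonoidHom.eval u : (U →* Multiplicative (ZMod r)) →* Multiplicative (ZMod r)) ≠ 1 := fun e =>
      (Finset.mem_filter.mp hu).2 fun φ => DFunLike.congr_fun e φ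
    rw [show ∑ φ : U →* Multiplicative (ZMod r), f (i + (φ u).toAdd) = 0 from
      sum_hom_eq_zero _ hne f h0 i, smul_zero]

/-- Functions into `W` with vanishing sum. -/
def sumZero (r : ℕ) [NeZero r] (W : AddSubgroup V) : AddSubgroup (ZMod r → V) where
  carrier := {f | (∀ i, f i ∈ W) ∧ ∑ i, f i = 0}
  zero_mem' := ⟨fun _ => W.zero_mem, by simp⟩
  add_mem' := fun ha hb => ⟨fun i => W.add_mem (ha.1 i) (hb.1 i), by
    simp [Finset.sum_add_distrib, ha.2, hb.2]⟩
  neg_mem' := fun ha => ⟨fun i => W.neg_mem (ha.1 i), by simp [Finset.sum_neg_distrib, ha.2]⟩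

omit [DistribMulAction G V] in
theorem card_sumZero (r : ℕ) [NeZero r] (W : AddSubgroup V) [Finite W] :
    Nat.card (sumZero r W) = Nat.card W ^ (r - 1) := by
  let σ : (ZMod r → W) →+ W := ∑ i, Pi.evalAddMonoidHom (fun _ : ZMod r => W) i
  have hσ : ∀ f, σ f = ∑ i, f i := fun f => by simp [σ]
  have hsurj : Function.Surjective σ := fun w => ⟨Pi.single 0 w, by rw [hσ]; simp⟩
  have h1 := σ.ker.card_mul_index
  rw [AddSubgroup.index_ker, AddMonoidHom.range_eq_top.mpr hsurj, AddSubgroup.card_top, Nat.card_fun,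
    Nat.card_eq_fintype_card (α := ZMod r), ZMod.card] at h1
  have h2 : Nat.card (sumZero r W) = Nat.card σ.ker := Nat.card_congr
    { toFun := fun f => ⟨fun i => ⟨f.1 i, f.2.1 i⟩, by
        rw [AddMonoidHom.mem_ker, hσ]; exact Subtype.ext (by push_cast; exact f.2.2)⟩
      invFun := fun f => ⟨fun i => f.1 i, fun i => (f.1 i).2, by
        have := f.2
        rw [AddMonoidHom.mem_ker, hσ] at this
        simpa using congrArg Subtype.val this⟩
      left_inv := fun _ => rfl
      right_inv := fun _ => rfl }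
  rw [h2]
  apply Nat.eq_of_mul_eq_mul_right (m := Nat.card W) Nat.card_pos
  rw [h1, ← pow_succ, Nat.sub_add_cancel (NeZero.one_le)]

theorem exists_inv_nsmul (W : AddSubgroup V) [Finite W] {n : ℕ} (h : (Nat.card W).Coprime n) :
    ∃ c : ℕ, (Nat.card W).Coprime c ∧ ∀ w ∈ W, (c * n) • w = w := by
  obtain ⟨c, hc⟩ : ∃ c : ℕ, c * n ≡ 1 [MOD Nat.card W] := by
    refine ⟨((n : ZMod (Nat.card W))⁻¹).val, (ZMod.natCast_eq_natCast_iff _ _ _).mp ?_⟩
    push_cast
    haveI : NeZero (Nat.card W) := ⟨Nat.card_pos.ne'⟩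
    rw [ZMod.natCast_zmod_val, mul_comm, ZMod.coe_mul_inv_eq_one n h.symm]
  refine ⟨c, ((Nat.coprime_of_mul_modEq_one n hc)).symm, fun w hw => ?_⟩
  have h0 : Nat.card W • w = 0 := congrArg Subtype.val (card_nsmul_eq_zero' (x := (⟨w, hw⟩ : W)))
  conv_rhs => rw [← one_nsmul w]
  exact nsmul_eq_nsmul_iff_modEq.mpr (hc.of_dvd (addOrderOf_dvd_of_nsmul_eq_zero h0))

/-- The layer theorem: `U` elementary modulo the part acting trivially, without fixed points. -/
theorem card_layer (r : ℕ) [hr : Fact r.Prime] (U E : Subgroup G) [Fintype U] [Fintype E]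
    (hEU : ∀ e ∈ E, ∀ u ∈ U, e * u * e⁻¹ ∈ U)
    (hfpf : ∀ e ∈ E, e ≠ 1 → ∀ u ∈ U, e * u = u * e → u = 1)
    (W : AddSubgroup V) [Finite W] (hWU : ∀ u ∈ U, ∀ x ∈ W, u • x ∈ W) (hWE : ∀ e ∈ E, ∀ x ∈ W, e • x ∈ W)
    (hcop : (Nat.card W).Coprime (Nat.card U)) (hcr : (Nat.card W).Coprime r)
    (hker : ∀ u : U, (∀ φ : U →* Multiplicative (ZMod r), φ u = 1) → ∀ x ∈ W, (u : G) • x = x)
    (hzero : ∀ x ∈ W, ∑ u : U, (u : G) • x = 0) :
    Nat.card W = Nat.card ↥(W ⊓ fixA E) ^ Nat.card E := by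
  haveI : Fintype (U →* Multiplicative (ZMod r)) := Fintype.ofInjective (fun φ => ⇑φ) DFunLike.coe_injective
  let cjU : E → (U →* U) := fun e =>
    { toFun := fun u => ⟨(e : G)⁻¹ * u * e, by simpa using hEU _ (E.inv_mem e.2) _ u.2⟩
      map_one' := Subtype.ext (by simp)
      map_mul' := fun a b => Subtype.ext (by simp [mul_assoc]) }
  let cj : E → (U →* Multiplicative (ZMod r)) → (U →* Multiplicative (ZMod r)) := fun e φ => φ.comp (cjU e)
  have cj_one : ∀ φ, cj 1 φ = φ := fun φ => MonoidHom.ext fun u => by simp [cj, cjU]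
  have cj_mul : ∀ a b φ, cj (a * b) φ = cj a (cj b φ) := fun a b φ => MonoidHom.ext fun u =>
    congrArg φ (Subtype.ext (by simp [cjU, mul_assoc]))
  have cj_free : ∀ (k : E) φ, k ≠ 1 → cj k φ = φ → φ = 1 := by
    intro k φ hk hφ
    let d : U → U := fun w => w⁻¹ * cjU k w
    have hd : Function.Injective d := by
      intro a b hab
      have h1 : (a : G)⁻¹ * ((k : G)⁻¹ * a * k) = (b : G)⁻¹ * ((k : G)⁻¹ * b * k) := congrArg Subtype.val hab
      have h2 : (k : G) * ((b : G) * (a : G)⁻¹) = ((b : G) * (a : G)⁻¹) * k := by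
        calc (k : G) * ((b : G) * (a : G)⁻¹)
            = (k : G) * b * ((a : G)⁻¹ * ((k : G)⁻¹ * a * k)) * ((k : G)⁻¹ * a * k)⁻¹ := by group
          _ = (b : G) * (a : G)⁻¹ * k := by rw [h1]; group
      have := hfpf k k.2 (fun e => hk (Subtype.ext e)) _ (mul_mem b.2 (U.inv_mem a.2)) h2
      exact Subtype.ext (mul_inv_eq_one.mp this).symm
    refine MonoidHom.ext fun v => ?_
    obtain ⟨w, rfl⟩ := (Finite.injective_iff_surjective.mp hd) v
    have := DFunLike.congr_fun hφ w
    simp only [cj, MonoidHom.comp_apply] at this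
    simp [d, this]
  -- orbit representatives
  let st : Setoid (U →* Multiplicative (ZMod r)) :=
    { r := fun φ ψ => ∃ k, cj k φ = ψ
      iseqv := ⟨fun φ => ⟨1, cj_one φ⟩, fun {φ ψ} ⟨k, hk⟩ => ⟨k⁻¹, by rw [← hk, ← cj_mul, inv_mul_cancel, cj_one]⟩,
        fun {φ ψ χ} ⟨k, hk⟩ ⟨j, hj⟩ => ⟨j * k, by rw [cj_mul, hk, hj]⟩⟩ }
  let T := Finset.univ.filter fun φ => φ ≠ 1 ∧ (Quotient.mk st φ).out = φ
  have hT : ∀ t ∈ T, ∀ t' ∈ T, ∀ k k' : E, cj k t = cj k' t' → k = k' ∧ t = t' := by
    intro t ht t' ht' k k' he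
    simp only [T, Finset.mem_filter] at ht ht'
    have h1 : cj (k'⁻¹ * k) t = t' := by rw [cj_mul, he, ← cj_mul, inv_mul_cancel, cj_one]
    have h2 : t = t' := by
      rw [← ht.2.2, ← ht'.2.2]
      exact congrArg _ (Quotient.sound ⟨_, h1⟩)
    refine ⟨?_, h2⟩
    by_contra hne
    exact ht.2.1 (cj_free _ t (fun e => hne (inv_mul_eq_one.mp e).symm) (h1.trans h2.symm))
  -- the projection
  obtain ⟨c, hcc, hc⟩ := exists_inv_nsmul W hcop
  let X := sumZero r W
  haveI : Finite X := Nat.finite_of_card_ne_zero (by rw [card_sumZero]; exact (pow_pos Nat.card_pos _).ne')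
  have hXP : ∀ φ, ∀ x ∈ X, eproj r U φ x ∈ X := fun φ x hx =>
    ⟨fun i => W.sum_mem fun u _ => hWU _ u.2 _ (hx.1 _), eproj_sum x hx.2 φ⟩
  have hcX : ∀ x ∈ X, (c * Nat.card U) • x = x := fun x hx => funext fun i => by
    rw [Pi.smul_apply]; exact hc _ (hx.1 i)
  have hE : ∀ (k : E) φ (x : ZMod r → V), (k : G) • eproj r U φ x = eproj r U (cj k φ) ((k : G) • x) := by
    intro k φ x
    funext i
    rw [Pi.smul_apply, eproj_apply, eproj_apply, Finset.smul_sum]
    refine Fintype.sum_equiv (MulEquiv.ofBijective (cjU k⁻¹) ?_).toEquiv _ _ fun u => ?_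
    · refine Finite.injective_iff_bijective.mp fun a b hab => ?_
      simpa [cjU] using congrArg Subtype.val hab
    · simp [cj, cjU, ← mul_smul, mul_assoc]
  let Q : (ZMod r → V) →+ (ZMod r → V) := c • ∑ t ∈ T, eproj r U t
  have hQ : ∀ x, Q x = c • ∑ t ∈ T, eproj r U t x := fun x => by simp [Q]
  have hEX : ∀ g ∈ E, ∀ x ∈ X, g • x ∈ X := fun g hg x hx =>
    ⟨fun i => hWE g hg _ (hx.1 i), by simp [← Finset.smul_sum, hx.2]⟩
  have hQX : ∀ x ∈ X, Q x ∈ X := fun x hx => by
    rw [hQ]; exact X.nsmul_mem (X.sum_mem fun t _ => hXP t x hx) c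
  have hsumAll : ∀ x ∈ X, ∀ S : Finset (U →* Multiplicative (ZMod r)),
      c • ∑ ψ ∈ S, eproj r U ψ (c • ∑ φ ∈ S, eproj r U φ x) = c • ∑ φ ∈ S, eproj r U φ x := by
    intro x hx S
    congr 1
    refine Finset.sum_congr rfl fun ψ hψ => ?_
    rw [map_nsmul, map_sum, Finset.sum_eq_single ψ (fun φ _ hne => by
      rw [eproj_comp φ ψ x hx.2, if_neg (Ne.symm hne)]) (fun h => absurd hψ h),
      eproj_comp ψ ψ x hx.2, if_pos rfl, ← mul_smul]
    exact hcX _ (hXP ψ x hx)
  have hmain := card_eq_fixed_pow (V := ZMod r → V) E X hEX Q hQX ?_ ?_ ?_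
  · have h3 : X ⊓ fixA E = sumZero r (W ⊓ fixA E) := by
      ext f
      constructor
      · rintro ⟨⟨h1, h2⟩, h3⟩
        exact ⟨fun i => ⟨h1 i, fun s hs => congrFun (h3 s hs) i⟩, h2⟩
      · rintro ⟨h1, h2⟩
        exact ⟨⟨fun i => (h1 i).1, h2⟩, fun s hs => funext fun i => (h1 i).2 s hs⟩
    haveI : Finite ↥(W ⊓ fixA E) := Finite.of_injective _ (AddSubgroup.inclusion_injective inf_le_left)
    rw [h3, card_sumZero, card_sumZero, ← pow_mul, mul_comm, pow_mul] at hmain
    exact Nat.pow_left_injective (Nat.sub_ne_zero_of_lt hr.out.one_lt) hmain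
  · intro x hx
    have hP1 : eproj r U 1 x = 0 := funext fun i => by
      simp [eproj_apply, hzero _ (hx.1 i)]
    set M := c * ((Finset.univ.filter fun u : U => ∀ φ : U →* Multiplicative (ZMod r), φ u = 1).card *
      Fintype.card (U →* Multiplicative (ZMod r))) with hM
    have hMx : ∀ y ∈ X, c • ∑ φ, eproj r U φ y = M • y := fun y hy => by
      rw [eproj_add_eq_sum y hy.2 fun u hu i => hker u hu _ (hy.1 i), ← mul_smul, hM]
    have hlhs : ∑ k : E, (k : G) • Q ((k : G)⁻¹ • x) = M • x := by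
      rw [← hMx x hx]
      simp only [hQ, smul_comm _ c, Finset.smul_sum (r := ((_ : E) : G)), hE, smul_inv_smul]
      rw [← Finset.smul_sum]
      congr 1
      rw [← Finset.sum_product', ← Finset.sum_erase Finset.univ (a := 1) hP1]
      refine Finset.sum_bij (fun kt _ => cj kt.1 kt.2) ?_ ?_ ?_ (fun _ _ => rfl)
      · rintro ⟨k, t⟩ h
        simp only [Finset.mem_product, T, Finset.mem_filter] at h
        refine Finset.mem_erase.mpr ⟨fun e => h.2.2.1 ?_, Finset.mem_univ _⟩
        have h1 := congrArg (cj k⁻¹) e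
        rw [← cj_mul, inv_mul_cancel, cj_one] at h1
        simpa [cj] using h1
      · rintro ⟨k, t⟩ h ⟨k', t'⟩ h' e
        obtain ⟨h1, h2⟩ := hT t (Finset.mem_product.mp h).2 t' (Finset.mem_product.mp h').2 k k' e
        rw [h1, h2]
      · intro φ hφ
        obtain ⟨k, hk⟩ := Quotient.mk_out (s := st) φ
        refine ⟨(k, (Quotient.mk st φ).out), Finset.mem_product.mpr ⟨Finset.mem_univ _, ?_⟩, hk⟩
        simp only [T, Finset.mem_filter]
        refine ⟨Finset.mem_univ _, fun e => (Finset.mem_erase.mp hφ).1 ?_, by rw [Quotient.out_eq]⟩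
        rw [← hk, e]
        exact MonoidHom.ext fun u => rfl
    rw [hlhs]
    have hidm : M • (M • x) = M • x := by
      rw [← hMx _ (X.nsmul_mem hx M), ← hMx x hx]
      exact hsumAll x hx Finset.univ
    have hMcop : (Nat.card W).Coprime M := by
      refine hcc.mul_right (Nat.Coprime.mul_right ?_ ?_)
      · let K : Subgroup U := ⨅ φ : U →* Multiplicative (ZMod r), φ.ker
        have : (Finset.univ.filter fun u : U => ∀ φ : U →* Multiplicative (ZMod r), φ u = 1).card = Nat.card K := by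
          rw [Nat.card_eq_fintype_card, Fintype.card_subtype]
          congr 1
          ext u
          simp [K, Subgroup.mem_iInf]
        rw [this]
        exact hcop.coprime_dvd_right K.card_subgroup_dvd_card
      · have hp : IsPGroup r (U →* Multiplicative (ZMod r)) := fun φ => ⟨1, MonoidHom.ext fun u => by
          rw [pow_one, MonoidHom.pow_apply, MonoidHom.one_apply]
          exact Multiplicative.toAdd.injective (by simp)⟩
        obtain ⟨n, hn⟩ := IsPGroup.iff_card.mp hp
        rw [← Nat.card_eq_fintype_card, hn]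
        exact hcr.pow_right n
    funext i
    rw [Pi.smul_apply]
    have hw : M • x i - x i ∈ W := W.sub_mem (W.nsmul_mem (hx.1 i) M) (hx.1 i)
    have h0 : M • (M • x i - x i) = 0 := by
      rw [nsmul_sub, sub_eq_zero]; exact congrFun hidm i
    have h1 : Nat.card W • (M • x i - x i) = 0 := congrArg Subtype.val (card_nsmul_eq_zero' (x := (⟨_, hw⟩ : W)))
    have h2 := Nat.eq_one_of_dvd_coprimes hMcop (addOrderOf_dvd_of_nsmul_eq_zero h1) (addOrderOf_dvd_of_nsmul_eq_zero h0)
    exact sub_eq_zero.mp (AddMonoid.addOrderOf_eq_one_iff.mp h2)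
  · intro k hk x hx
    rw [hQ x, smul_comm, map_nsmul, Finset.smul_sum, map_sum, Finset.sum_eq_zero, smul_zero]
    intro t ht
    rw [hE, hQ, Finset.sum_eq_zero, smul_zero]
    intro t' ht'
    rw [eproj_comp _ _ _ (hEX k k.2 x hx).2, if_neg]
    intro e
    exact hk (hT t ht t' ht' k 1 (e.symm.trans (cj_one t').symm)).1
  · intro x hx
    rw [hQ, hQ]
    exact hsumAll x hx T

/-- The norm of a subgroup. -/
noncomputable def normHom (U : Subgroup G) [Fintype U] : V →+ V :=
  ∑ u : U, DistribMulAction.toAddMonoidHom V (u : G)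

theorem normHom_apply (U : Subgroup G) [Fintype U] (v : V) : normHom U v = ∑ u : U, (u : G) • v := by
  simp [normHom]

theorem smul_normHom (U : Subgroup G) [Fintype U] {g : G} (hg : ∀ u ∈ U, g * u * g⁻¹ ∈ U) (v : V) :
    g • normHom U v = normHom U (g • v) := by
  rw [normHom_apply, normHom_apply, Finset.smul_sum]
  let f : U → U := fun u => ⟨g * u * g⁻¹, hg u u.2⟩
  have hf : Function.Bijective f := Finite.injective_iff_bijective.mp fun a b h => by
    simpa [f] using congrArg Subtype.val h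
  exact Fintype.sum_equiv (Equiv.ofBijective f hf) _ _ fun u => by simp [f, ← mul_smul, mul_assoc]

theorem card_split (U : Subgroup G) [Fintype U] (Y : AddSubgroup V) [Finite Y]
    (hY : ∀ y ∈ Y, normHom U y ∈ Y) (hcop : (Nat.card Y).Coprime (Nat.card U)) :
    Nat.card Y = Nat.card ↥(Y ⊓ fixA U) * Nat.card ↥(Y ⊓ (normHom (V := V) U).ker) := by
  obtain ⟨c, -, hc⟩ := exists_inv_nsmul Y hcop
  let N : Y →+ ↥(Y ⊓ fixA U) :=
    { toFun := fun y => ⟨normHom U (y : V), hY _ y.2, fun s hs => by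
        rw [normHom_apply, Finset.smul_sum]
        exact Fintype.sum_equiv (Equiv.mulLeft (⟨s, hs⟩ : U)) _ _ fun u => by simp [mul_smul]⟩
      map_zero' := Subtype.ext (map_zero _)
      map_add' := fun a b => Subtype.ext (map_add _ _ _) }
  have hN : Function.Surjective N := by
    rintro ⟨v, hv, hfix⟩
    refine ⟨⟨c • v, Y.nsmul_mem hv c⟩, Subtype.ext ?_⟩
    show normHom U (c • v) = v
    rw [map_nsmul, normHom_apply, Finset.sum_congr rfl fun (u : U) _ => hfix u u.2, Finset.sum_const,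
      Finset.card_univ, ← Nat.card_eq_fintype_card, ← mul_smul]
    exact hc v hv
  have h1 := N.ker.card_mul_index
  rw [AddSubgroup.index_ker, AddMonoidHom.range_eq_top.mpr hN, AddSubgroup.card_top] at h1
  rw [← h1, mul_comm]
  congr 1
  exact Nat.card_congr
    { toFun := fun y => ⟨y.1, y.1.2, congrArg Subtype.val y.2⟩
      invFun := fun y => ⟨⟨y.1, y.2.1⟩, Subtype.ext y.2.2⟩
      left_inv := fun _ => rfl
      right_inv := fun _ => rfl }

/-- The formula for an abelian module. -/
theorem card_formula [Finite G] (E : Subgroup G) [Fintype E] (hE : E ≠ ⊥) (W : AddSubgroup V) [Finite W]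
    (hWE : ∀ e ∈ E, ∀ x ∈ W, e • x ∈ W) :
    ∀ n : ℕ, ∀ U : Subgroup G, Nat.card U = n → (∀ e ∈ E, ∀ u ∈ U, e * u * e⁻¹ ∈ U) →
      (∀ e ∈ E, e ≠ 1 → ∀ u ∈ U, e * u = u * e → u = 1) → (∀ u ∈ U, ∀ x ∈ W, u • x ∈ W) →
      (Nat.card W).Coprime (Nat.card U) →
      Nat.card ↥(W ⊓ (fixA U ⊓ fixA E)) ^ Nat.card E * Nat.card W =
        Nat.card ↥(W ⊓ fixA E) ^ Nat.card E * Nat.card ↥(W ⊓ fixA U) := by
  intro n
  induction n using Nat.strong_induction_on with
  | _ n ih =>
  intro U hn hEU hfpf hWU hcop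
  rcases eq_or_ne U ⊥ with rfl | hU
  · have : fixA (V := V) (⊥ : Subgroup G) = ⊤ := eq_top_iff.2 fun v _ s hs => by
      rw [mem_bot.mp hs, one_smul]
    rw [this, top_inf_eq, inf_top_eq]
  haveI : Fintype U := Fintype.ofFinite U
  -- the kernel is nilpotent
  obtain ⟨x, hx, hx1⟩ := (bot_or_exists_ne_one E).resolve_left hE
  obtain ⟨q, hq, hqd⟩ := Nat.exists_prime_and_dvd (mt orderOf_eq_one_iff.mp hx1)
  set e := x ^ (orderOf x / q) with he
  have heE : e ∈ E := E.pow_mem hx _
  have heo : orderOf e = q := orderOf_pow_orderOf_div (orderOf_pos x).ne' hqd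
  have hEn : E ≤ normalizer (U : Set G) := fun g hg => mem_normalizer_iff.mpr fun u =>
    ⟨fun hu => hEU g hg u hu, fun hu => by simpa [mul_assoc] using hEU _ (E.inv_mem hg) _ hu⟩
  have hnil : Group.IsNilpotent U := by
    refine FPF.isNilpotent_of_isFPF hq (Coprime.conjHom hEn ⟨e, heE⟩) (fun u hu => ?_) ?_
    · refine Subtype.ext (hfpf e heE (fun h => hq.ne_one ?_) u u.2 (mul_inv_eq_iff_eq_mul.mp ?_))
      · rw [← heo, h, orderOf_one]
      · simpa [Coprime.coe_conjHom_apply] using congrArg Subtype.val hu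
    · rw [← map_pow, show (⟨e, heE⟩ : E) ^ q = 1 from Subtype.ext (by simp [← heo, pow_orderOf_eq_one]),
        map_one]
  haveI := hnil
  haveI : Nontrivial U := (nontrivial_iff_ne_bot U).mpr hU
  -- a homomorphism onto a group of prime order
  obtain ⟨L, hL, -⟩ := (IsCoatomic.eq_top_or_exists_le_coatom (⊥ : Subgroup U)).resolve_left bot_ne_top
  haveI hLn : L.Normal := Subgroup.NormalizerCondition.normal_of_coatom L Group.normalizerCondition_of_isNilpotent hL
  haveI : Nontrivial (U ⧸ L) := QuotientGroup.nontrivial_iff.mpr hL.1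
  obtain ⟨r, hr, hrd⟩ := Nat.exists_prime_and_dvd (n := Nat.card (U ⧸ L)) Finite.one_lt_card.ne'
  haveI := Fact.mk hr
  obtain ⟨z, hz⟩ := exists_prime_orderOf_dvd_card' r hrd
  have htop : zpowers z = ⊤ := by
    have hle : L ≤ (zpowers z).comap (QuotientGroup.mk' L) := fun l hl => by
      rw [mem_comap, QuotientGroup.mk'_apply, (QuotientGroup.eq_one_iff l).mpr hl]; exact one_mem _
    rcases hle.eq_or_lt with h | h
    · exfalso
      obtain ⟨l, rfl⟩ := QuotientGroup.mk_surjective z
      have : l ∈ L := h ▸ mem_zpowers _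
      rw [(QuotientGroup.eq_one_iff l).mpr this, orderOf_one] at hz
      exact hr.ne_one hz.symm
    · rw [← map_comap_eq_self_of_surjective (QuotientGroup.mk'_surjective L) (zpowers z), hL.2 _ h,
        map_top_of_surjective _ (QuotientGroup.mk'_surjective L)]
  have hcard : Nat.card (U ⧸ L) = r := by
    rw [← card_top (G := U ⧸ L), ← htop, Nat.card_zpowers, hz]
  let φ₀ : U →* Multiplicative (ZMod r) :=
    (mulEquivOfPrimeCardEq (G' := Multiplicative (ZMod r)) hcard (by simp)).toMonoidHom.comp (QuotientGroup.mk' L)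
  -- the intersection of the kernels
  let K : Subgroup U := ⨅ φ : U →* Multiplicative (ZMod r), φ.ker
  set M := K.map U.subtype with hMdef
  have hMU : M ≤ U := map_subtype_le _
  have hKmem : ∀ u : U, u ∈ K ↔ ∀ φ : U →* Multiplicative (ZMod r), φ u = 1 := fun u => by
    simp [K, Subgroup.mem_iInf]
  have hMlt : Nat.card M < n := by
    rw [← hn, hMdef, card_map_of_injective U.subtype_injective]
    refine Coprime.card_lt_of_ne_top fun h => ?_
    obtain ⟨l, rfl⟩ := QuotientGroup.mk_surjective z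
    have h1 : φ₀ l = 1 := (hKmem l).mp (h ▸ mem_top l) φ₀
    simp only [φ₀, MonoidHom.comp_apply, QuotientGroup.mk'_apply, MulEquiv.coe_toMonoidHom,
      MulEquiv.map_eq_one_iff] at h1
    rw [h1, orderOf_one] at hz
    exact hr.ne_one hz.symm
  have hconj : ∀ g ∈ normalizer (U : Set G), ∀ m ∈ M, g * m * g⁻¹ ∈ M := by
    rintro g hg _ ⟨m, hm, rfl⟩
    refine ⟨⟨g * m * g⁻¹, (mem_normalizer_iff.mp hg m).mp m.2⟩, (hKmem _).mpr fun φ => ?_, rfl⟩
    let c : U →* U :=
      { toFun := fun u => ⟨g * u * g⁻¹, (mem_normalizer_iff.mp hg u).mp u.2⟩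
        map_one' := Subtype.ext (by simp)
        map_mul' := fun a b => Subtype.ext (by simp [mul_assoc]) }
    exact (hKmem m).mp hm (φ.comp c)
  have hih := ih _ hMlt M rfl (fun e he => hconj e (hEn he)) (fun e he h1 u hu => hfpf e he h1 u (hMU hu))
    (fun u hu => hWU u (hMU hu)) (hcop.coprime_dvd_right (card_dvd_of_le hMU))
  set W' := W ⊓ fixA M with hW'
  have hstab : ∀ g ∈ normalizer (U : Set G), (∀ x ∈ W, g • x ∈ W) → ∀ x ∈ W', g • x ∈ W' := by
    refine fun g hg hgW x hx => ⟨hgW x hx.1, fun s hs => ?_⟩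
    have := hx.2 _ (hconj g⁻¹ ((normalizer (U : Set G)).inv_mem hg) s hs)
    rw [show s • g • x = g • (g⁻¹ * s * g⁻¹⁻¹) • x by simp [← mul_smul, mul_assoc], this]
  have hW'U : ∀ u ∈ U, ∀ x ∈ W', u • x ∈ W' := fun u hu => hstab u (le_normalizer hu) (hWU u hu)
  have hW'E : ∀ e ∈ E, ∀ x ∈ W', e • x ∈ W' := fun e he => hstab e (hEn he) (hWE e he)
  haveI : Finite W' := Finite.of_injective _ (AddSubgroup.inclusion_injective inf_le_left)
  have hW'cop : (Nat.card W').Coprime (Nat.card U) :=
    hcop.coprime_dvd_left (AddSubgroup.card_dvd_of_le inf_le_left)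
  have hNW' : ∀ x ∈ W', normHom U x ∈ W' := fun x hx => by
    rw [normHom_apply]; exact W'.sum_mem fun u _ => hW'U u u.2 x hx
  set W1 := W' ⊓ (normHom (V := V) U).ker with hW1
  haveI : Finite W1 := Finite.of_injective _ (AddSubgroup.inclusion_injective inf_le_left)
  have hlayer : Nat.card W1 = Nat.card ↥(W1 ⊓ fixA E) ^ Nat.card E := by
    refine card_layer r U E hEU hfpf W1 ?_ ?_
      (hW'cop.coprime_dvd_left (AddSubgroup.card_dvd_of_le inf_le_left))
      ((hW'cop.coprime_dvd_left (AddSubgroup.card_dvd_of_le inf_le_left)).coprime_dvd_right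
        (hcard ▸ L.card_quotient_dvd_card))
      (fun u hu x hx => hx.1.2 _ ⟨u, (hKmem u).mpr hu, rfl⟩)
      (fun x hx => by rw [← normHom_apply]; exact hx.2)
    · intro u hu x hx
      refine ⟨hW'U u hu x hx.1, ?_⟩
      show normHom U (u • x) = 0
      rw [← smul_normHom U (fun v hv => mul_mem (mul_mem hu hv) (U.inv_mem hu)),
        (hx.2 : normHom U x = 0), smul_zero]
    · intro e he x hx
      refine ⟨hW'E e he x hx.1, ?_⟩
      show normHom U (e • x) = 0
      rw [← smul_normHom U (hEU e he), (hx.2 : normHom U x = 0), smul_zero]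
  haveI : Finite ↥(W' ⊓ fixA E) := Finite.of_injective _ (AddSubgroup.inclusion_injective inf_le_left)
  have hs1 := card_split U W' hNW' hW'cop
  have hs2 := card_split U (W' ⊓ fixA E) (fun y hy => ⟨hNW' y hy.1, fun e he => by
    rw [smul_normHom U (hEU e he), hy.2 e he]⟩)
    (hW'cop.coprime_dvd_left (AddSubgroup.card_dvd_of_le inf_le_left))
  have hfix : fixA (V := V) U ≤ fixA M := fun v hv s hs => hv s (hMU hs)
  have e1 : W' ⊓ fixA U = W ⊓ fixA U := by rw [hW', inf_assoc, inf_eq_right.mpr hfix]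
  have e2 : W' ⊓ fixA E ⊓ fixA U = W ⊓ (fixA U ⊓ fixA E) := by
    rw [inf_right_comm, e1, inf_assoc]
  have e3 : W' ⊓ fixA E ⊓ (normHom (V := V) U).ker = W1 ⊓ fixA E := inf_right_comm _ _ _
  have e4 : W ⊓ (fixA M ⊓ fixA E) = W' ⊓ fixA E := (inf_assoc _ _ _).symm
  rw [e4, hs2, e2, e3, mul_pow, ← hlayer] at hih
  rw [e1] at hs1
  rw [← hW1] at hs1
  rw [hs1] at hih
  have hpos : 0 < Nat.card W1 := Nat.card_pos
  apply Nat.eq_of_mul_eq_mul_right hpos
  linarith [hih]

end Abstract

section Ambient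

variable {X : Type*} [Group X] [Finite X]

/-- The action of a normalizing subgroup on the abelianization. -/
@[reducible] noncomputable def abelAction (S H : Subgroup X) (hn : S ≤ normalizer (H : Set X)) :
    DistribMulAction S (Additive (Abelianization H)) where
  smul g v := Additive.ofMul (Abelianization.map (Coprime.conjHom hn g).toMonoidHom v.toMul)
  one_smul v := by
    show Additive.ofMul (Abelianization.map (Coprime.conjHom hn 1).toMonoidHom v.toMul) = v
    rw [map_one, show (1 : MulAut H).toMonoidHom = MonoidHom.id H from rfl, Abelianization.map_id]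
    rfl
  mul_smul a b v := by
    show Additive.ofMul (Abelianization.map (Coprime.conjHom hn (a * b)).toMonoidHom v.toMul) = _
    rw [map_mul]
    show _ = Additive.ofMul (Abelianization.map (Coprime.conjHom hn a).toMonoidHom
      (Abelianization.map (Coprime.conjHom hn b).toMonoidHom v.toMul))
    rw [Abelianization.map_map_apply]
    rfl
  smul_zero g := congrArg Additive.ofMul (map_one (Abelianization.map (Coprime.conjHom hn g).toMonoidHom))
  smul_add g a b := congrArg Additive.ofMul (map_mul (Abelianization.map (Coprime.conjHom hn g).toMonoidHom) _ _)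

/-- Fixed points on the abelianization lift to fixed points. -/
theorem exists_centralizer_of_fix (S H K : Subgroup X) (hn : S ≤ normalizer (H : Set X)) (hK : K ≤ S)
    (hsolv : Group.IsSolvable H) (hcop : (Nat.card K).Coprime (Nat.card H)) :
    letI := abelAction S H hn
    ∀ v : Abelianization H, Additive.ofMul v ∈ fixA (V := Additive (Abelianization H)) (K.subgroupOf S) →
      ∃ c, ∃ hcH : c ∈ H, c ∈ centralizer (K : Set X) ∧ Abelianization.of (⟨c, hcH⟩ : H) = v := by
  letI := abelAction S H hn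
  intro v hv
  obtain ⟨h, rfl⟩ := QuotientGroup.mk_surjective v
  have hN : K ≤ normalizer ((⁅H, H⁆ : Subgroup X) : Set X) := fun k hk => by
    have hk' := hn (hK hk)
    refine mem_normalizer_iff_map_conj_eq.mpr ?_
    rw [map_commutator, mem_normalizer_iff_map_conj_eq.mp hk']
  have hcom : ⁅H, H⁆ = (_root_.commutator H).map H.subtype := by
    rw [commutator_eq_closure, ← commutator_eq_closure, map_subtype_commutator]
  obtain ⟨c, hc, hcN⟩ := Coprime.exists_centralizer_mem_coset (k := (h : X)) hN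
    (hcop.coprime_dvd_right (card_dvd_of_le (commutator_le_self H)))
    (Or.inr (Coprime.isSolvable_of_le (commutator_le_self H) hsolv)) fun a ha => by
      have h1 := hv ⟨a, hK ha⟩ (mem_subgroupOf.mpr ha)
      change Additive.ofMul (Abelianization.map _ (Abelianization.of h)) = Additive.ofMul (Abelianization.of h) at h1
      rw [Abelianization.map_of] at h1
      have h2 := QuotientGroup.eq.mp (Additive.ofMul.injective h1).symm
      rw [hcom]
      exact ⟨_, h2, rfl⟩
  have hcH : c ∈ H := by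
    have := mul_mem h.2 (commutator_le_self H hcN)
    rwa [mul_inv_cancel_left] at this
  refine ⟨c, hcH, hc, ?_⟩
  show Abelianization.of (⟨c, hcH⟩ : H) = _
  refine (QuotientGroup.eq.mpr ?_).symm
  rw [hcom] at hcN
  obtain ⟨w, hw, he⟩ := hcN
  have : w = h⁻¹ * ⟨c, hcH⟩ := Subtype.ext he
  exact this ▸ hw

theorem card_centralizer_eq (S H K : Subgroup X) (hn : S ≤ normalizer (H : Set X)) (hK : K ≤ S)
    (hsolv : Group.IsSolvable H) (hcop : (Nat.card K).Coprime (Nat.card H)) :
    letI := abelAction S H hn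
    Nat.card ↥(H ⊓ centralizer (K : Set X)) = Nat.card ↥(⁅H, H⁆ ⊓ centralizer (K : Set X)) *
      Nat.card (fixA (V := Additive (Abelianization H)) (K.subgroupOf S)) := by
  letI := abelAction S H hn
  set C := H ⊓ centralizer (K : Set X)
  let θ : C →* Abelianization H := Abelianization.of.comp (Subgroup.inclusion (inf_le_left : C ≤ H))
  have hθ : ∀ c : C, Additive.ofMul (θ c) ∈ fixA (V := Additive (Abelianization H)) (K.subgroupOf S) := by
    intro c s hs
    show Additive.ofMul (Abelianization.map (Coprime.conjHom hn s).toMonoidHom (θ c)) = _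
    simp only [θ, MonoidHom.comp_apply, Abelianization.map_of]
    congr 2
    exact Subtype.ext (mul_inv_eq_of_eq_mul (mem_centralizer_iff.mp c.2.2 _ (mem_subgroupOf.mp hs)))
  have hrange : Nat.card θ.range = Nat.card (fixA (V := Additive (Abelianization H)) (K.subgroupOf S)) := by
    refine Nat.card_congr (Equiv.subtypeEquiv Additive.ofMul fun v => ⟨?_, fun hv => ?_⟩)
    · rintro ⟨c, rfl⟩; exact hθ c
    obtain ⟨c, hcH, hc, he⟩ := exists_centralizer_of_fix S H K hn hK hsolv hcop _ hv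
    exact ⟨⟨c, hcH, hc⟩, he⟩
  have hker : Nat.card θ.ker = Nat.card ↥(⁅H, H⁆ ⊓ centralizer (K : Set X)) := by
    rw [← card_map_of_injective (K := θ.ker) C.subtype_injective]
    congr 2
    ext x
    rw [mem_map]
    constructor
    · rintro ⟨c, hc, rfl⟩
      refine ⟨?_, c.2.2⟩
      rw [← map_subtype_commutator]
      exact ⟨⟨c, c.2.1⟩, (QuotientGroup.eq_one_iff _).mp hc, rfl⟩
    · rintro ⟨hx, hx2⟩
      have hxH := commutator_le_self H hx
      refine ⟨⟨x, hxH, hx2⟩, ?_, rfl⟩
      rw [← map_subtype_commutator] at hx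
      obtain ⟨w, hw, he⟩ := hx
      have : w = ⟨x, hxH⟩ := Subtype.ext he
      exact (QuotientGroup.eq_one_iff _).mpr (show (⟨x, hxH⟩ : H) ∈ _root_.commutator H from this ▸ hw)
  have := θ.ker.card_mul_index
  rw [Subgroup.index_ker, hker, hrange] at this
  exact this.symm

/-- Fixed point formula for a Frobenius group acting coprimely on a solvable group. -/
theorem formula (U E : Subgroup X) (hE : E ≠ ⊥) (hUn : ∀ e ∈ E, ∀ u ∈ U, e * u * e⁻¹ ∈ U)
    (hfpf : ∀ e ∈ E, e ≠ 1 → ∀ u ∈ U, e * u = u * e → u = 1) :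
    ∀ n : ℕ, ∀ H : Subgroup X, Nat.card H = n → Group.IsSolvable H → U ⊔ E ≤ normalizer (H : Set X) →
      (Nat.card H).Coprime (Nat.card ↥(U ⊔ E)) →
      Nat.card ↥(H ⊓ centralizer ((U ⊔ E : Subgroup X) : Set X)) ^ Nat.card E * Nat.card H =
        Nat.card ↥(H ⊓ centralizer (E : Set X)) ^ Nat.card E * Nat.card ↥(H ⊓ centralizer (U : Set X)) := by
  intro n
  induction n using Nat.strong_induction_on with
  | _ n ih =>
  intro H hn hsolv hnorm hcop
  rcases eq_or_ne H ⊥ with rfl | hH
  · simp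
  set S := U ⊔ E
  letI := abelAction S H hnorm
  haveI := hsolv
  haveI : Nontrivial H := (nontrivial_iff_ne_bot H).mpr hH
  have hlt : Nat.card ↥⁅H, H⁆ < n := by
    rw [← hn, ← map_subtype_commutator, card_map_of_injective H.subtype_injective]
    exact Coprime.card_lt_of_ne_top (IsSolvable.commutator_lt_top_of_nontrivial H).ne
  have hnN : S ≤ normalizer ((⁅H, H⁆ : Subgroup X) : Set X) := fun k hk => by
    refine mem_normalizer_iff_map_conj_eq.mpr ?_
    rw [map_commutator, mem_normalizer_iff_map_conj_eq.mp (hnorm hk)]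
  have hdN : Nat.card ↥⁅H, H⁆ ∣ Nat.card H := card_dvd_of_le (commutator_le_self H)
  have hN := ih _ hlt _ rfl (Coprime.isSolvable_of_le (commutator_le_self H) hsolv) hnN
    (hcop.coprime_dvd_left hdN)
  have hc : ∀ K ≤ S, (Nat.card K).Coprime (Nat.card H) := fun K hK =>
    (hcop.coprime_dvd_right (card_dvd_of_le hK)).symm
  have h1 := card_centralizer_eq S H S hnorm le_rfl hsolv (hc S le_rfl)
  have h2 := card_centralizer_eq S H E hnorm le_sup_right hsolv (hc E le_sup_right)
  have h3 := card_centralizer_eq S H U hnorm le_sup_left hsolv (hc U le_sup_left)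
  have h0 := card_centralizer_eq S H ⊥ hnorm bot_le hsolv (hc ⊥ bot_le)
  have hbot : centralizer ((⊥ : Subgroup X) : Set X) = ⊤ :=
    eq_top_iff.2 fun x _ => mem_centralizer_iff.mpr fun a ha => by rw [mem_bot.mp ha, one_mul, mul_one]
  have hfbot : fixA (V := Additive (Abelianization H)) ((⊥ : Subgroup X).subgroupOf S) = ⊤ :=
    eq_top_iff.2 fun v _ s hs => by
      rw [show s = 1 from Subtype.ext (mem_bot.mp (mem_subgroupOf.mp hs)), one_smul]
  rw [hbot, inf_top_eq, inf_top_eq, hfbot, AddSubgroup.card_top] at h0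
  haveI : Fintype (E.subgroupOf S) := Fintype.ofFinite _
  haveI : Finite (Additive (Abelianization H)) := Finite.of_equiv _ Additive.ofMul
  have hA := card_formula (G := S) (V := Additive (Abelianization H)) (E.subgroupOf S)
    (fun h => hE (eq_bot_iff.2 fun x hx => mem_bot.2
      (congrArg Subtype.val (mem_bot.mp (h ▸ mem_subgroupOf.mpr hx : (⟨x, le_sup_right (a := U) hx⟩ : S) ∈ ⊥)))))
    ⊤ (fun _ _ _ _ => trivial) _ (U.subgroupOf S) rfl
    (fun e he u hu => hUn e he u hu)
    (fun e he h1 u hu h => Subtype.ext (hfpf e he (fun h' => h1 (Subtype.ext h')) u hu (congrArg Subtype.val h)))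
    (fun _ _ _ _ => trivial)
    (by
      rw [AddSubgroup.card_top, Coprime.card_subgroupOf le_sup_left]
      refine ((hcop.coprime_dvd_right (card_dvd_of_le le_sup_left)).coprime_dvd_left ?_)
      rw [Nat.card_congr (Additive.toMul (α := Abelianization H))]
      exact (_root_.commutator H).card_quotient_dvd_card)
  have hfS : fixA (V := Additive (Abelianization H)) (U.subgroupOf S) ⊓ fixA (E.subgroupOf S) =
      fixA (S.subgroupOf S) := by
    refine le_antisymm (fun v hv => ?_) (le_inf (fun v hv s hs => hv s (mem_subgroupOf.mpr s.2))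
      (fun v hv s hs => hv s (mem_subgroupOf.mpr s.2)))
    intro s _
    let st : Subgroup S :=
      { carrier := {t | t • v = v}
        one_mem' := one_smul _ v
        mul_mem' := fun {a b} (ha : a • v = v) (hb : b • v = v) => show (a * b) • v = v by rw [mul_smul, hb, ha]
        inv_mem' := fun {a} (ha : a • v = v) => show a⁻¹ • v = v by rw [inv_smul_eq_iff, ha] }
    have hle : U.subgroupOf S ⊔ E.subgroupOf S ≤ st := sup_le (fun t ht => hv.1 t ht) (fun t ht => hv.2 t ht)
    rw [← subgroupOf_sup le_sup_left le_sup_right] at hle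
    exact hle (mem_subgroupOf.mpr s.2)
  rw [top_inf_eq, top_inf_eq, top_inf_eq, hfS, AddSubgroup.card_top, Coprime.card_subgroupOf (le_sup_right : E ≤ S)] at hA
  rw [h1, h2, h3, h0, mul_pow, mul_pow, mul_mul_mul_comm, hN, hA]
  exact mul_mul_mul_comm _ _ _ _

end Ambient

end Cfsg.Agent.Lib.OddLocal.Wielandt
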