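import Cfsg.Agent.Lib.OddLocal.Wielandt
import Cfsg.Agent.Lib.Uniq.Fitting
import Cfsg.Agent.Lib.PGroupFrattini

set_option autoImplicit false

/-! A Frobenius group with cyclic fixed points of the complement has commutative kernel action. -/

namespace Cfsg.Agent.Lib.OddLocal.CyclicFix

open Subgroup
open Cfsg.Agent.Lib.OddLocal.Wielandt
open scoped BigOperators Classical Pointwise

section Abstract

variable {G : Type*} [Group G] {V : Type*} [AddCommGroup V] [DistribMulAction G V]

/-- Translation of functions. -/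
def shift {r : ℕ} (j : ZMod r) (f : ZMod r → V) : ZMod r → V := fun i => f (i + j)

theorem smul_fix_layer (r : ℕ) [hr : Fact r.Prime] (U E : Subgroup G) [Fintype U] [Fintype E]
    (hEU : ∀ e ∈ E, ∀ u ∈ U, e * u * e⁻¹ ∈ U)
    (hfpf : ∀ e ∈ E, e ≠ 1 → ∀ u ∈ U, e * u = u * e → u = 1)
    [Finite V] (hcop : (Nat.card V).Coprime (Nat.card U)) (hcr : (Nat.card V).Coprime r)
    (hker : ∀ u : U, (∀ φ : U →* Multiplicative (ZMod r), φ u = 1) → u = 1)
    (hzero : fixA (V := V) U = ⊥) (w : V) (hw : fixA (V := V) E ≤ AddSubgroup.zmultiples w)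
    (hw' : w ∈ fixA (V := V) E)
    (k l : G) (hk : ∀ u ∈ U, k * u = u * k) (hl : ∀ u ∈ U, l * u = u * l) (v : V) :
    k • l • v = l • k • v := by
  haveI : Fintype (U →* Multiplicative (ZMod r)) := Fintype.ofInjective (fun φ => ⇑φ) DFunLike.coe_injective
  set P : (U →* Multiplicative (ZMod r)) → (ZMod r → V) →+ (ZMod r → V) := eproj r U with hP
  have hPsh : ∀ φ (j : ZMod r) f, P φ (shift j f) = shift j (P φ f) := by
    intro φ j f
    funext i
    simp only [hP, shift, eproj_apply]
    exact Finset.sum_congr rfl fun u _ => by rw [add_right_comm]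
  have hcom : ∀ g : G, (∀ u ∈ U, g * u = u * g) → ∀ φ (f : ZMod r → V), g • P φ f = P φ (g • f) := by
    intro g hg φ f
    funext i
    rw [Pi.smul_apply, hP, eproj_apply, eproj_apply, Finset.smul_sum]
    exact Finset.sum_congr rfl fun u _ => by rw [← mul_smul, hg u u.2, mul_smul, Pi.smul_apply]
  let X := sumZero r (⊤ : AddSubgroup V)
  have hX : ∀ f : ZMod r → V, f ∈ X ↔ ∑ i, f i = 0 := fun f => ⟨fun h => h.2, fun h => ⟨fun _ => trivial, h⟩⟩
  let g₀ : ZMod r → V := Pi.single 0 w - Pi.single 1 w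
  -- the generator of the fixed functions
  have hgen : ∀ f : ZMod r → V, (∀ i, f i ∈ fixA (V := V) E) → ∑ i, f i = 0 →
      ∃ a : ZMod r → ℤ, f = ∑ j, a j • shift j g₀ := by
    intro f hf h0
    have hz : ∀ i, ∃ z : ℤ, z • w = f i := fun i => AddSubgroup.mem_zmultiples_iff.mp (hw (hf i))
    choose z hz using hz
    let b : ZMod r → ℤ := fun x => ∑ m ∈ Finset.range (x.val + 1), z (m : ZMod r)
    have hstep : ∀ x : ZMod r, (b x - b (x - 1)) • w = f x := by
      intro x
      rcases eq_or_ne x 0 with rfl | hx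
      · have hb : b (0 - 1) = ∑ i, z i := by
          simp only [b]
          rw [show (0 - 1 : ZMod r).val + 1 = r from ?_]
          · refine Finset.sum_bij (fun m _ => (m : ZMod r)) (fun _ _ => Finset.mem_univ _) ?_ ?_ (fun _ _ => rfl)
            · intro a ha a' ha' he
              have := congrArg ZMod.val he
              rwa [ZMod.val_cast_of_lt (Finset.mem_range.mp ha), ZMod.val_cast_of_lt (Finset.mem_range.mp ha')] at this
            · exact fun i _ => ⟨i.val, Finset.mem_range.mpr (ZMod.val_lt i), ZMod.natCast_zmod_val i⟩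
          · obtain ⟨n, hn⟩ : ∃ n, r = n + 1 := ⟨r - 1, (Nat.sub_add_cancel hr.out.one_lt.le).symm⟩
            subst hn
            rw [zero_sub, ZMod.val_neg_one]
        have h1 : b 0 = z 0 := by simp [b]
        rw [hb, h1, sub_smul, Finset.sum_smul]
        simp [hz, h0]
      · have hv : x.val = (x - 1).val + 1 := by
          rw [ZMod.val_sub (by rw [ZMod.val_one]; exact Nat.one_le_iff_ne_zero.mpr fun h => hx ((ZMod.val_eq_zero x).mp h)),
            ZMod.val_one]
          exact (Nat.sub_add_cancel (Nat.one_le_iff_ne_zero.mpr fun h => hx ((ZMod.val_eq_zero x).mp h))).symm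
        simp only [b]
        rw [← hv, Finset.sum_range_succ _ x.val, add_sub_cancel_left, ZMod.natCast_zmod_val, hz]
    refine ⟨fun j => b (-j), funext fun x => ?_⟩
    rw [Finset.sum_apply]
    have hsh : ∀ j, (b (-j) • shift j g₀) x =
        b (-j) • (if x + j = 0 then w else 0) - b (-j) • (if x + j = 1 then w else 0) := fun j => by
      simp only [Pi.smul_apply, shift, g₀, Pi.sub_apply, Pi.single_apply, zsmul_sub]
    simp only [hsh, Finset.sum_sub_distrib, smul_ite, smul_zero, add_eq_zero_iff_eq_neg', ← eq_sub_iff_add_eq',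
      Finset.sum_ite_eq', Finset.mem_univ, if_true]
    rw [zero_sub, neg_neg, show -(1 - x) = x - 1 by ring, ← sub_smul, hstep]
  -- each eigencomponent is generated by one element
  obtain ⟨c, -, hc⟩ := exists_inv_nsmul (⊤ : AddSubgroup V) (n := Nat.card U) (by rwa [AddSubgroup.card_top])
  have hcomm : ∀ φ, φ ≠ 1 → ∀ f ∈ X, k • l • P φ f = l • k • P φ f := by
    intro φ hφ
    have hsurj : ∀ f ∈ X, ∃ a : ZMod r → ℤ, P φ f = ∑ j, a j • shift j (P φ g₀) := by
      intro f hf
      set y := P φ (c • f) with hy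
      have hy0 : ∑ i, y i = 0 := eproj_sum _ (by simp [← Finset.smul_sum, (hX f).mp hf]) φ
      set tr : ZMod r → V := ∑ e : E, (e : G) • y with htr
      have htrfix : ∀ i, tr i ∈ fixA (V := V) E := fun i s hs => by
        simp only [htr, Finset.sum_apply, Pi.smul_apply, Finset.smul_sum]
        exact Fintype.sum_equiv (Equiv.mulLeft (⟨s, hs⟩ : E)) _ _ fun e => by simp [mul_smul]
      have htr0 : ∑ i, tr i = 0 := by
        simp only [htr, Finset.sum_apply, Pi.smul_apply]
        rw [Finset.sum_comm]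
        exact Finset.sum_eq_zero fun e _ => by rw [← Finset.smul_sum, hy0, smul_zero]
      obtain ⟨a, ha⟩ := hgen tr htrfix htr0
      have h1 : P φ tr = P φ f := by
        rw [htr, map_sum, Finset.sum_eq_single (1 : E) ?_ (fun h => absurd (Finset.mem_univ _) h)]
        · simp only [OneMemClass.coe_one, one_smul, hy, map_nsmul, hP]
          rw [eproj_comp φ φ f ((hX f).mp hf), if_pos rfl, ← mul_smul]
          funext i
          rw [Pi.smul_apply]
          exact hc _ trivial
        intro e _ he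
        let cjU : U →* U :=
          { toFun := fun u => ⟨(e : G)⁻¹ * u * e, by simpa using hEU _ (E.inv_mem e.2) _ u.2⟩
            map_one' := Subtype.ext (by simp)
            map_mul' := fun a b => Subtype.ext (by simp [mul_assoc]) }
        have he' : (e : G) • y = P (φ.comp cjU) ((e : G) • (c • f)) := by
          funext i
          rw [hy, Pi.smul_apply, hP, eproj_apply, eproj_apply, Finset.smul_sum]
          let F : U → U := fun u => ⟨(e : G) * u * (e : G)⁻¹, hEU e e.2 u u.2⟩
          have hF : Function.Bijective F := Finite.injective_iff_bijective.mp fun a b h => by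
            simpa [F] using congrArg Subtype.val h
          exact Fintype.sum_equiv (Equiv.ofBijective F hF) _ _ fun u => by
            simp [F, cjU, ← mul_smul, mul_assoc]
        rw [he', hP, eproj_comp _ φ _ (by simp [← Finset.smul_sum, (hX f).mp hf]), if_neg]
        intro hcon
        apply hφ
        let d : U → U := fun w => w⁻¹ * cjU w
        have hd : Function.Injective d := by
          intro a b hab
          have h1 : (a : G)⁻¹ * ((e : G)⁻¹ * a * e) = (b : G)⁻¹ * ((e : G)⁻¹ * b * e) := congrArg Subtype.val hab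
          have h2 : (e : G) * ((b : G) * (a : G)⁻¹) = ((b : G) * (a : G)⁻¹) * e := by
            calc (e : G) * ((b : G) * (a : G)⁻¹)
                = (e : G) * b * ((a : G)⁻¹ * ((e : G)⁻¹ * a * e)) * ((e : G)⁻¹ * a * e)⁻¹ := by group
              _ = (b : G) * (a : G)⁻¹ * e := by rw [h1]; group
          exact Subtype.ext (mul_inv_eq_one.mp
            (hfpf e e.2 (fun h => he (Subtype.ext h)) _ (mul_mem b.2 (U.inv_mem a.2)) h2)).symm
        refine MonoidHom.ext fun v => ?_
        obtain ⟨w, rfl⟩ := (Finite.injective_iff_surjective.mp hd) v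
        have := DFunLike.congr_fun hcon w
        simp only [MonoidHom.comp_apply] at this
        simp [d, ← this]
      exact ⟨a, by rw [← h1, ha, map_sum]; exact Finset.sum_congr rfl fun j _ => by rw [map_zsmul, hPsh]⟩
    -- two endomorphisms of a cyclic component commute
    have hg₀ : g₀ ∈ X := (hX _).mpr (by simp [g₀])
    have hrep : ∀ g : G, (∀ u ∈ U, g * u = u * g) →
        ∃ a : ZMod r → ℤ, g • P φ g₀ = ∑ j, a j • shift j (P φ g₀) := fun g hg => by
      rw [hcom g hg]
      exact hsurj _ ((hX _).mpr (by simp [← Finset.smul_sum, (hX _).mp hg₀]))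
    obtain ⟨a, ha⟩ := hrep k hk
    obtain ⟨b, hb⟩ := hrep l hl
    have hgs : ∀ (g : G) (j : ZMod r) (f : ZMod r → V), g • shift j f = shift j (g • f) := fun _ _ _ => rfl
    have hshsum : ∀ (i : ZMod r) (q : ZMod r → ℤ) (F : ZMod r → ZMod r → V),
        shift i (∑ j, q j • F j) = ∑ j, q j • shift i (F j) := fun i q F => by
      funext x; simp [shift, Finset.sum_apply]
    have hsm : ∀ (g : G) (z : ℤ) (F : ZMod r → V), g • (z • F) = z • (g • F) := fun g z F => smul_comm g z F
    have hbase : k • l • P φ g₀ = l • k • P φ g₀ := by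
      rw [ha, hb, Finset.smul_sum, Finset.smul_sum]
      simp only [hsm, hgs, ha, hb, hshsum, Finset.smul_sum]
      rw [Finset.sum_comm]
      refine Finset.sum_congr rfl fun i _ => Finset.sum_congr rfl fun j _ => ?_
      rw [smul_comm (b j) (a i)]
      congr 2
      funext x
      simp only [shift]
      rw [add_right_comm]
    intro f hf
    obtain ⟨d, hd⟩ := hsurj f hf
    rw [hd]
    simp only [Finset.smul_sum, hsm, hgs, hbase]
  -- the components span
  have hone : ∀ f ∈ X, P 1 f = 0 := fun f _ => funext fun i => by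
    have : (∑ u : U, (u : G) • f i) ∈ fixA (V := V) U := fun s hs => by
      rw [Finset.smul_sum]
      exact Fintype.sum_equiv (Equiv.mulLeft (⟨s, hs⟩ : U)) _ _ fun u => by simp [mul_smul]
    rw [hzero, AddSubgroup.mem_bot] at this
    simpa [hP, eproj_apply] using this
  set f : ZMod r → V := Pi.single 0 v - Pi.single 1 v with hf
  have hfX : f ∈ X := (hX _).mpr (by simp [hf])
  have hsum := eproj_add_eq_sum (r := r) (U := U) f ((hX f).mp hfX) fun u hu i => by rw [hker u hu]; simp
  have hcard : (Finset.univ.filter fun u : U => ∀ φ : U →* Multiplicative (ZMod r), φ u = 1).card = 1 := by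
    rw [Finset.card_eq_one]
    refine ⟨1, Finset.ext fun u => ?_⟩
    simp only [Finset.mem_filter, Finset.mem_univ, true_and, Finset.mem_singleton]
    exact ⟨hker u, fun h φ => by simp [h]⟩
  rw [hcard, one_mul] at hsum
  set N := Fintype.card (U →* Multiplicative (ZMod r))
  have h1 : k • l • (N • f) = l • k • (N • f) := by
    rw [← hsum]
    simp only [Finset.smul_sum]
    refine Finset.sum_congr rfl fun φ _ => ?_
    rcases eq_or_ne φ 1 with rfl | hφ
    · rw [← hP, hone f hfX]; simp
    · exact hcomm φ hφ f hfX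
  have h2 : N • (k • l • v - l • k • v) = 0 := by
    have := congrFun h1 0
    simp only [Pi.smul_apply, hf, Pi.sub_apply, Pi.single_eq_same,
      Pi.single_eq_of_ne (zero_ne_one (α := ZMod r)), sub_zero] at this
    rw [nsmul_sub, sub_eq_zero, ← smul_comm k N, ← smul_comm l N, ← smul_comm l N, ← smul_comm k N]
    exact this
  have hN : (Nat.card V).Coprime N := by
    have hp : IsPGroup r (U →* Multiplicative (ZMod r)) := fun φ => ⟨1, MonoidHom.ext fun u => by
      rw [pow_one, MonoidHom.pow_apply, MonoidHom.one_apply]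
      exact Multiplicative.toAdd.injective (by simp)⟩
    obtain ⟨n, hn⟩ := IsPGroup.iff_card.mp hp
    rw [show N = r ^ n by rw [← hn, Nat.card_eq_fintype_card]]
    exact hcr.pow_right n
  exact sub_eq_zero.mp (AddMonoid.addOrderOf_eq_one_iff.mp
    (Nat.eq_one_of_dvd_coprimes hN (addOrderOf_dvd_natCard _) (addOrderOf_dvd_of_nsmul_eq_zero h2)))

theorem exists_hom_ne_one {A : Type*} [Group A] [Finite A] {q : ℕ} [hq : Fact q.Prime]
    (hab : ∀ x y : A, x * y = y * x) (hexp : ∀ x : A, x ^ q = 1) {a : A} (ha : a ≠ 1) :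
    ∃ φ : A →* Multiplicative (ZMod q), φ a ≠ 1 := by
  letI : CommGroup A := { mul_comm := hab }
  obtain ⟨M, hM, hmax⟩ := (Set.toFinite {M : Subgroup A | a ∉ M}).exists_maximal ⟨⊥, by simpa using ha⟩
  haveI : M.Normal := inferInstance
  set π := QuotientGroup.mk' M
  have hne : π a ≠ 1 := fun h => hM ((QuotientGroup.eq_one_iff a).mp h)
  have hord : ∀ y : A ⧸ M, y ≠ 1 → orderOf y = q := fun y hy => by
    obtain ⟨x, rfl⟩ := QuotientGroup.mk'_surjective M y
    exact orderOf_eq_prime (by rw [← map_pow, hexp, map_one]) hy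
  have hmem : ∀ y : A ⧸ M, y ≠ 1 → π a ∈ zpowers y := fun y hy => by
    by_contra hna
    have h1 : (zpowers y).comap π ∈ {M : Subgroup A | a ∉ M} := hna
    have h2 : M ≤ (zpowers y).comap π := fun m hm => by
      rw [mem_comap, QuotientGroup.mk'_apply, (QuotientGroup.eq_one_iff m).mpr hm]; exact one_mem _
    obtain ⟨x, rfl⟩ := QuotientGroup.mk'_surjective M y
    exact hy ((QuotientGroup.eq_one_iff x).mpr (hmax h1 h2 (mem_zpowers (π x))))
  have htop : zpowers (π a) = ⊤ := eq_top_iff.2 fun y _ => by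
    rcases eq_or_ne y 1 with rfl | hy
    · exact one_mem _
    have : zpowers (π a) = zpowers y := eq_of_le_of_card_ge (zpowers_le.2 (hmem y hy))
      (by rw [Nat.card_zpowers, Nat.card_zpowers, hord y hy, hord _ hne])
    exact this ▸ mem_zpowers y
  have hcard : Nat.card (A ⧸ M) = q := by rw [← card_top (G := A ⧸ M), ← htop, Nat.card_zpowers, hord _ hne]
  let e := mulEquivOfPrimeCardEq (G' := Multiplicative (ZMod q)) hcard (by simp)
  exact ⟨e.toMonoidHom.comp π, fun h => hne (e.map_eq_one_iff.mp h)⟩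

theorem isNilpotent_kernel [Finite G] (K E : Subgroup G) (hE : E ≠ ⊥)
    (hEK : ∀ e ∈ E, ∀ u ∈ K, e * u * e⁻¹ ∈ K)
    (hfpf : ∀ e ∈ E, e ≠ 1 → ∀ u ∈ K, e * u = u * e → u = 1) : Group.IsNilpotent K := by
  obtain ⟨x, hx, hx1⟩ := (bot_or_exists_ne_one E).resolve_left hE
  obtain ⟨q, hq, hqd⟩ := Nat.exists_prime_and_dvd (mt orderOf_eq_one_iff.mp hx1)
  set e := x ^ (orderOf x / q)
  have heE : e ∈ E := E.pow_mem hx _
  have heo : orderOf e = q := orderOf_pow_orderOf_div (orderOf_pos x).ne' hqd
  have hEn : E ≤ normalizer (K : Set G) := fun g hg => mem_normalizer_iff.mpr fun u =>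
    ⟨fun hu => hEK g hg u hu, fun hu => by simpa [mul_assoc] using hEK _ (E.inv_mem hg) _ hu⟩
  refine FPF.isNilpotent_of_isFPF hq (Coprime.conjHom hEn ⟨e, heE⟩) (fun u hu => ?_) ?_
  · refine Subtype.ext (hfpf e heE (fun h => hq.ne_one ?_) u u.2 (mul_inv_eq_iff_eq_mul.mp ?_))
    · rw [← heo, h, orderOf_one]
    · simpa [Coprime.coe_conjHom_apply] using congrArg Subtype.val hu
  · rw [← map_pow, show (⟨e, heE⟩ : E) ^ q = 1 from Subtype.ext (by simp [← heo, pow_orderOf_eq_one]),
      map_one]

/-- With cyclic fixed points of the complement, a faithful kernel is commutative. -/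
theorem commute_kernel [Finite G] [Finite V] [FaithfulSMul G V] (K E : Subgroup G) (hE : E ≠ ⊥)
    (hEK : ∀ e ∈ E, ∀ u ∈ K, e * u * e⁻¹ ∈ K)
    (hfpf : ∀ e ∈ E, e ≠ 1 → ∀ u ∈ K, e * u = u * e → u = 1)
    (hcop : (Nat.card V).Coprime (Nat.card K)) (hfK : fixA (V := V) K = ⊥)
    (w : V) (hw : w ∈ fixA (V := V) E) (hwgen : fixA (V := V) E ≤ AddSubgroup.zmultiples w)
    (p n : ℕ) (hp : p.Prime) (hcardC : Nat.card (fixA (V := V) E) = p ^ n) :
    ∀ k ∈ K, ∀ l ∈ K, k * l = l * k := by
  rcases eq_or_ne K ⊥ with rfl | hK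
  · intro k hk l hl; rw [mem_bot.mp hk, mem_bot.mp hl]
  haveI := isNilpotent_kernel K E hE hEK hfpf
  haveI : Nontrivial K := (nontrivial_iff_ne_bot K).mpr hK
  obtain ⟨z, hz, hz1⟩ := (bot_or_exists_ne_one (center K)).resolve_left (Group.IsNilpotent.center_ne_bot K)
  obtain ⟨q, hq, hqd⟩ := Nat.exists_prime_and_dvd (mt orderOf_eq_one_iff.mp hz1)
  haveI := Fact.mk hq
  let U : Subgroup G :=
    { carrier := {u | u ∈ K ∧ (∀ k ∈ K, k * u = u * k) ∧ u ^ q = 1}
      one_mem' := ⟨one_mem _, fun k _ => by simp, one_pow q⟩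
      mul_mem' := fun {a b} ha hb => ⟨mul_mem ha.1 hb.1, fun k hk => by
          rw [← mul_assoc, ha.2.1 k hk, mul_assoc, hb.2.1 k hk, mul_assoc],
        by rw [(show Commute a b from hb.2.1 a ha.1).mul_pow, ha.2.2, hb.2.2, one_mul]⟩
      inv_mem' := fun {a} ha => ⟨K.inv_mem ha.1, fun k hk => (show Commute k a from ha.2.1 k hk).inv_right.eq,
        by rw [inv_pow, ha.2.2, inv_one]⟩ }
  have hUK : U ≤ K := fun u hu => hu.1
  set z' : G := ((z : K) : G) ^ (orderOf z / q) with hz'
  have hz'U : z' ∈ U := by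
    refine ⟨K.pow_mem z.2 _, fun k hk => ?_, ?_⟩
    · have := congrArg Subtype.val (mem_center_iff.mp (pow_mem hz (orderOf z / q)) ⟨k, hk⟩)
      simpa using this
    · have h := congrArg Subtype.val (pow_orderOf_eq_one z)
      rw [SubgroupClass.coe_pow, OneMemClass.coe_one] at h
      rw [hz', ← pow_mul, Nat.div_mul_cancel hqd, h]
  have hz'o : orderOf z' = q := by
    rw [hz', ← Subgroup.orderOf_coe]
    exact orderOf_pow_orderOf_div (orderOf_pos _).ne' (by rwa [Subgroup.orderOf_coe])
  have hqK : q ∣ Nat.card K := hz'o ▸ K.orderOf_dvd_natCard (hUK hz'U)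
  haveI : Fintype U := Fintype.ofFinite U
  haveI : Fintype E := Fintype.ofFinite E
  have hEU : ∀ e ∈ E, ∀ u ∈ U, e * u * e⁻¹ ∈ U := fun e he u hu => by
    refine ⟨hEK e he u hu.1, fun k hk => ?_, by rw [conj_pow, hu.2.2, mul_one, mul_inv_cancel]⟩
    have := hu.2.1 _ (by simpa using hEK _ (E.inv_mem he) k hk : e⁻¹ * k * e ∈ K)
    calc k * (e * u * e⁻¹) = e * (e⁻¹ * k * e * u) * e⁻¹ := by group
      _ = e * u * e⁻¹ * k := by rw [this]; group
  have hUcop : (Nat.card V).Coprime (Nat.card U) := hcop.coprime_dvd_right (card_dvd_of_le hUK)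
  set W0 : AddSubgroup V := fixA U with hW0
  set W1 : AddSubgroup V := (normHom (V := V) U).ker with hW1
  have hKU : ∀ k ∈ K, ∀ u ∈ U, k * u * k⁻¹ ∈ U := fun k hk u hu => by
    rw [hu.2.1 k hk, mul_inv_cancel_right]; exact hu
  have hinv0 : ∀ g : G, (∀ u ∈ U, g⁻¹ * u * g ∈ U) → ∀ x ∈ W0, g • x ∈ W0 := fun g hg x hx s hs => by
    rw [show s • g • x = g • (g⁻¹ * s * g) • x by simp [← mul_smul, mul_assoc], hx _ (hg s hs)]
  have hinv1 : ∀ g : G, (∀ u ∈ U, g * u * g⁻¹ ∈ U) → ∀ x ∈ W1, g • x ∈ W1 := fun g hg x hx => by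
    show normHom U (g • x) = 0
    rw [← smul_normHom U hg, (hx : normHom U x = 0), smul_zero]
  have hbound : ∀ W : AddSubgroup V, (∀ e ∈ E, ∀ x ∈ W, e • x ∈ W) → (∀ k ∈ K, ∀ x ∈ W, k • x ∈ W) →
      Nat.card W = Nat.card ↥(W ⊓ fixA E) ^ Nat.card E := fun W hWE hWK => by
    have := card_formula E hE W hWE _ K rfl hEK hfpf hWK (hcop.coprime_dvd_left W.card_addSubgroup_dvd_card)
    rw [hfK] at this
    simpa using this
  have hb0 := hbound W0 (fun e he => hinv0 e fun u hu => by simpa using hEU _ (E.inv_mem he) u hu)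
    (fun k hk => hinv0 k fun u hu => by simpa using hKU _ (K.inv_mem hk) u hu)
  have hb1 := hbound W1 (fun e he => hinv1 e (hEU e he)) (fun k hk => hinv1 k (hKU k hk))
  have hsV := card_split U (⊤ : AddSubgroup V) (fun _ _ => trivial) (by rwa [AddSubgroup.card_top])
  rw [AddSubgroup.card_top, top_inf_eq, top_inf_eq, ← hW0, ← hW1] at hsV
  set C : AddSubgroup V := fixA E with hC
  have hNC : ∀ y ∈ C, normHom U y ∈ C := fun y hy e he => by rw [smul_normHom U (hEU e he), hy e he]
  have hsC := card_split U C hNC (hUcop.coprime_dvd_left C.card_addSubgroup_dvd_card)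
  rw [← hW0, ← hW1, inf_comm C W0, inf_comm C W1] at hsC
  have hzero : W0 = ⊥ := by
    obtain ⟨i, hi, hA⟩ := (Nat.dvd_prime_pow hp).mp (hcardC ▸ ⟨_, hsC⟩ : Nat.card ↥(W0 ⊓ C) ∣ p ^ n)
    obtain ⟨j, hj, hB⟩ := (Nat.dvd_prime_pow hp).mp (hcardC ▸ ⟨_, hsC.trans (mul_comm _ _)⟩ : Nat.card ↥(W1 ⊓ C) ∣ p ^ n)
    have hij : n = i + j := Nat.pow_right_injective hp.two_le (by simp only; rw [← hcardC, hsC, hA, hB, pow_add])
    obtain ⟨c, -, hc⟩ := exists_inv_nsmul (⊤ : AddSubgroup V) (n := Nat.card U) (by rwa [AddSubgroup.card_top])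
    set a := c • normHom U w with ha
    have haA : a ∈ W0 ⊓ C := ⟨AddSubgroup.nsmul_mem _ (fun s hs => by
      rw [Wielandt.normHom_apply, Finset.smul_sum]
      exact Fintype.sum_equiv (Equiv.mulLeft (⟨s, hs⟩ : U)) _ _ fun u => by simp [mul_smul]) c,
      C.nsmul_mem (hNC w hw) c⟩
    have hbB : w - a ∈ W1 ⊓ C := by
      refine ⟨?_, C.sub_mem hw haA.2⟩
      show normHom U (w - a) = 0
      rw [map_sub, Wielandt.normHom_apply U a, Finset.sum_congr rfl fun (u : U) _ => haA.1 u u.2, Finset.sum_const,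
        Finset.card_univ, ← Nat.card_eq_fintype_card, ha, ← mul_smul, mul_comm, hc _ trivial, sub_self]
    have hkill : p ^ max i j • w = 0 := by
      have h1 : p ^ i • a = 0 := hA ▸ congrArg Subtype.val (card_nsmul_eq_zero' (x := (⟨a, haA⟩ : ↥(W0 ⊓ C))))
      have h2 : p ^ j • (w - a) = 0 :=
        hB ▸ congrArg Subtype.val (card_nsmul_eq_zero' (x := (⟨_, hbB⟩ : ↥(W1 ⊓ C))))
      obtain ⟨d1, hd1⟩ := pow_dvd_pow p (le_max_left i j)
      obtain ⟨d2, hd2⟩ := pow_dvd_pow p (le_max_right i j)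
      have e1 : p ^ max i j • a = 0 := by rw [hd1, mul_comm, mul_smul, h1, smul_zero]
      have e2 : p ^ max i j • (w - a) = 0 := by rw [hd2, mul_comm, mul_smul, h2, smul_zero]
      rw [smul_sub, e1, sub_zero] at e2
      exact e2
    have hwo : p ^ n ∣ p ^ max i j := by
      rw [← hcardC, show C = AddSubgroup.zmultiples w from
        le_antisymm hwgen (AddSubgroup.zmultiples_le_of_mem hw), Nat.card_zmultiples]
      exact addOrderOf_dvd_of_nsmul_eq_zero hkill
    have hle := Nat.le_of_dvd (pow_pos hp.pos _) hwo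
    have hn' : n ≤ max i j := (Nat.pow_le_pow_iff_right hp.one_lt).mp hle
    rcases le_total i j with h | h
    · rw [max_eq_right h] at hn'
      have : i = 0 := by omega
      rw [hA, this, pow_zero, one_pow] at hb0
      exact AddSubgroup.eq_bot_of_card_eq _ hb0
    · rw [max_eq_left h] at hn'
      have : j = 0 := by omega
      rw [hB, this, pow_zero, one_pow] at hb1
      rw [hb1, mul_one] at hsV
      have htop : W0 = ⊤ := AddSubgroup.eq_top_of_card_eq _ hsV.symm
      exfalso
      refine hq.ne_one (hz'o ▸ orderOf_eq_one_iff.mpr (FaithfulSMul.eq_of_smul_eq_smul fun v : V => ?_))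
      rw [one_smul]
      exact (htop ▸ AddSubgroup.mem_top v : v ∈ W0) z' hz'U
  intro k hk l hl
  refine FaithfulSMul.eq_of_smul_eq_smul fun v : V => ?_
  rw [mul_smul, mul_smul]
  refine smul_fix_layer q U E hEU (fun e he h1 u hu => hfpf e he h1 u (hUK hu)) hUcop
    (hcop.coprime_dvd_right hqK) (fun u hu => ?_) hzero w hwgen hw k l
    (fun u hu => hu.2.1 k hk) (fun u hu => hu.2.1 l hl) v
  by_contra hne
  obtain ⟨φ, hφ⟩ := exists_hom_ne_one (A := U) (fun x y => Subtype.ext (y.2.2.1 x x.2.1))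
    (fun x => Subtype.ext (by simpa using x.2.2.2)) hne
  exact hφ (hu φ)

end Abstract

section Ambient

open Cfsg.Agent.Lib.Components.MaxLocal (locCore locCore_le le_normalizer_locCore locCore_isPGroup)

variable {X : Type*} [Group X] [Finite X]

theorem normalizer_le_normalizer_locCore (p : ℕ) (M : Subgroup X) :
    normalizer (M : Set X) ≤ normalizer (locCore p M : Set X) := by
  intro g hg
  refine Lib.Coprime.mem_normalizer_of_conj_smul_eq (eq_of_le_of_card_ge ?_
    (by rw [Lib.Coprime.card_conj_smul]))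
  have h1 : MulAut.conj g • locCore p M ≤ M :=
    (pointwise_smul_le_pointwise_smul_iff.mpr (locCore_le p M)).trans (Lib.Coprime.conj_smul_eq_self hg).le
  have h2 : M ≤ normalizer (MulAut.conj g • locCore p M : Subgroup X).carrier := by
    calc M = MulAut.conj g • M := (Lib.Coprime.conj_smul_eq_self hg).symm
      _ ≤ (normalizer (locCore p M : Set X)).map (MulAut.conj g).toMonoidHom :=
          pointwise_smul_le_pointwise_smul_iff.mpr (le_normalizer_locCore p M)
      _ ≤ _ := le_normalizer_map _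
  haveI : ((MulAut.conj g • locCore p M).subgroupOf M).Normal := (normal_subgroupOf_iff_le_normalizer h1).mpr h2
  refine (map_subgroupOf_eq_of_le h1).ge.trans (map_mono (Lib.Hall.le_pCore ?_))
  exact ((locCore_isPGroup p M).map (MulAut.conj g).toMonoidHom).of_equiv (subgroupOfEquivOfLe h1).symm

/-- The derived kernel centralizes a `p`-group with cyclic fixed points of the complement. -/
theorem commutator_le_centralizer_of_isPGroup (K R P : Subgroup X) {p : ℕ} [hp : Fact p.Prime] (hP : IsPGroup p P)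
    (hR : R ≠ ⊥) (hRK : ∀ e ∈ R, ∀ u ∈ K, e * u * e⁻¹ ∈ K)
    (hfpf : ∀ e ∈ R, e ≠ 1 → ∀ u ∈ K, e * u = u * e → u = 1)
    (hn : K ⊔ R ≤ normalizer (P : Set X)) (hcop : (Nat.card ↥(K ⊔ R)).Coprime (Nat.card P))
    (hCK : P ⊓ centralizer (K : Set X) = ⊥) (hcyc : IsCyclic ↥(P ⊓ centralizer (R : Set X))) :
    ⁅K, K⁆ ≤ centralizer (P : Set X) := by
  set S := K ⊔ R with hS
  have hsolv : Group.IsSolvable P := by
    haveI := hP.isNilpotent
    infer_instance
  let actA := abelAction S P hn
  letI := actA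
  have hKS : K ≤ S := le_sup_left
  have hRS : R ≤ S := le_sup_right
  have hcopK : (Nat.card K).Coprime (Nat.card P) := hcop.coprime_dvd_left (card_dvd_of_le hKS)
  have hcopR : (Nat.card R).Coprime (Nat.card P) := hcop.coprime_dvd_left (card_dvd_of_le hRS)
  -- the acting image
  let ρ : S →* MulAut (Abelianization P) :=
    { toFun := fun a => (Coprime.conjHom hn a).abelianizationCongr
      map_one' := by
        refine MulEquiv.ext fun v => ?_
        obtain ⟨x, rfl⟩ := QuotientGroup.mk_surjective v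
        rw [map_one]
        rfl
      map_mul' := fun a b => by
        refine MulEquiv.ext fun v => ?_
        obtain ⟨x, rfl⟩ := QuotientGroup.mk_surjective v
        rw [map_mul]
        rfl }
  have hρ : ∀ (a : S) (v : Additive (Abelianization P)), a • v = Additive.ofMul (ρ a v.toMul) := fun a v => by
    induction v using Additive.rec with
    | _ v =>
      obtain ⟨x, rfl⟩ := QuotientGroup.mk_surjective v
      rfl
  let Γ := ρ.range
  letI actG : DistribMulAction Γ (Additive (Abelianization P)) :=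
    { smul := fun g v => Additive.ofMul ((g : MulAut (Abelianization P)) v.toMul)
      one_smul := fun v => rfl
      mul_smul := fun a b v => rfl
      smul_zero := fun g => congrArg Additive.ofMul (map_one (g : MulAut (Abelianization P)))
      smul_add := fun g a b => congrArg Additive.ofMul (map_mul (g : MulAut (Abelianization P)) _ _) }
  have hρ' : ∀ (a : S) (v : Additive (Abelianization P)), ρ.rangeRestrict a • v = a • v := fun a v => (hρ a v).symm
  haveI : FaithfulSMul Γ (Additive (Abelianization P)) := ⟨fun {a b} h =>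
    Subtype.ext (MulEquiv.ext fun v => Additive.ofMul.injective (h (Additive.ofMul v)))⟩
  haveI : Finite (MulAut (Abelianization P)) := Finite.of_injective (fun e => (e : Abelianization P → Abelianization P))
    DFunLike.coe_injective
  set Kb := (K.subgroupOf S).map ρ.rangeRestrict with hKb
  set Rb := (R.subgroupOf S).map ρ.rangeRestrict with hRb
  have hfix : ∀ T : Subgroup X, fixA (V := Additive (Abelianization P)) ((T.subgroupOf S).map ρ.rangeRestrict) =
      fixA (V := Additive (Abelianization P)) (T.subgroupOf S) := by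
    intro T
    ext v
    exact ⟨fun h s hs => (hρ' s v).symm.trans (h _ ⟨s, hs, rfl⟩),
      fun h g ⟨s, hs, he⟩ => he ▸ (hρ' s v).trans (h s hs)⟩
  have hfixK : fixA (V := Additive (Abelianization P)) Kb = ⊥ := by
    rw [hKb, hfix, eq_bot_iff]
    intro v hv
    obtain ⟨c, hcP, hcK, he⟩ := exists_centralizer_of_fix S P K hn hKS hsolv hcopK v.toMul hv
    have hc1 : c ∈ P ⊓ centralizer (K : Set X) := ⟨hcP, hcK⟩
    rw [hCK, mem_bot] at hc1
    subst hc1
    rw [AddSubgroup.mem_bot]
    exact Additive.toMul.injective (he.symm.trans (map_one Abelianization.of))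
  obtain ⟨⟨g, hgP, hgR⟩, hgen⟩ := hcyc.exists_generator
  set w : Additive (Abelianization P) := Additive.ofMul (Abelianization.of (⟨g, hgP⟩ : P)) with hw
  have hwfix : w ∈ fixA (V := Additive (Abelianization P)) (R.subgroupOf S) := fun s hs => by
    show Additive.ofMul (Abelianization.map (Coprime.conjHom hn s).toMonoidHom (Abelianization.of _)) = _
    rw [Abelianization.map_of]
    refine congrArg (fun t => Additive.ofMul (Abelianization.of t)) (Subtype.ext ?_)
    exact mul_inv_eq_of_eq_mul (mem_centralizer_iff.mp hgR _ (mem_subgroupOf.mp hs))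
  have hwgen : fixA (V := Additive (Abelianization P)) Rb ≤ AddSubgroup.zmultiples w := by
    rw [hRb, hfix]
    intro v hv
    obtain ⟨c, hcP, hcR, he⟩ := exists_centralizer_of_fix S P R hn hRS hsolv hcopR v.toMul hv
    obtain ⟨k, hk⟩ := hgen ⟨c, hcP, hcR⟩
    refine AddSubgroup.mem_zmultiples_iff.mpr ⟨k, ?_⟩
    have hk' : (⟨g, hgP⟩ : P) ^ k = ⟨c, hcP⟩ := Subtype.ext (by simpa using congrArg Subtype.val hk)
    rw [hw, ← ofMul_zpow, ← map_zpow, hk', he]
    rfl
  have hPab : IsPGroup p (Abelianization P) :=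
    hP.of_surjective Abelianization.of QuotientGroup.mk_surjective
  obtain ⟨a, ha⟩ := IsPGroup.iff_card.mp hPab
  obtain ⟨n, -, hn'⟩ := (Nat.dvd_prime_pow hp.out).mp
    ((fixA (V := Additive (Abelianization P)) Rb).card_addSubgroup_dvd_card.trans (dvd_of_eq ha) :
      Nat.card (fixA (V := Additive (Abelianization P)) Rb) ∣ p ^ a)
  rcases eq_or_ne P ⊥ with hPbot' | hPne
  · subst hPbot'
    exact fun x _ => mem_centralizer_iff.mpr fun y hy => by rw [mem_bot.mp hy, one_mul, mul_one]
  have hRne : Rb ≠ ⊥ := by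
    intro h
    -- otherwise every point is fixed
    obtain ⟨r, hr, hr1⟩ := (bot_or_exists_ne_one R).resolve_left hR
    have htop : fixA (V := Additive (Abelianization P)) Rb = ⊤ := eq_top_iff.2 fun v _ s hs => by
      rw [h, mem_bot] at hs
      rw [hs, one_smul]
    -- then the kernel acts without fixed points commuting with the complement, hence trivially
    have hKtriv : ∀ k ∈ K, ∀ v : Additive (Abelianization P), ∀ hk : k ∈ S, (⟨k, hk⟩ : S) • v = v := by
      intro k hk v hkS
      let d : K → K := fun u => ⟨(u : X)⁻¹ * (r * u * r⁻¹), mul_mem (K.inv_mem u.2) (hRK r hr _ u.2)⟩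
      have hd : Function.Injective d := fun x y hxy => by
        have h1 : (x : X)⁻¹ * (r * x * r⁻¹) = (y : X)⁻¹ * (r * y * r⁻¹) := congrArg Subtype.val hxy
        have h2 : r * ((x : X) * (y : X)⁻¹) = ((x : X) * (y : X)⁻¹) * r := by
          calc r * ((x : X) * (y : X)⁻¹)
              = x * ((x : X)⁻¹ * (r * x * r⁻¹)) * ((y : X)⁻¹ * (r * y * r⁻¹))⁻¹ * (y : X)⁻¹ * r := by group
            _ = (x : X) * (y : X)⁻¹ * r := by rw [h1]; group
        exact Subtype.ext (mul_inv_eq_one.mp (hfpf r hr hr1 _ (mul_mem x.2 (K.inv_mem y.2)) h2))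
      obtain ⟨u, hu⟩ := (Finite.injective_iff_surjective.mp hd) ⟨k, hk⟩
      have hr' : ∀ x : Additive (Abelianization P), (⟨r, hRS hr⟩ : S) • x = x := fun x => by
        rw [← hρ']; exact (htop ▸ AddSubgroup.mem_top x : x ∈ fixA Rb) _ ⟨_, hr, rfl⟩
      have hr'' : ∀ x : Additive (Abelianization P), (⟨r, hRS hr⟩ : S)⁻¹ • x = x := fun x => by
        rw [inv_smul_eq_iff, hr' x]
      have he : (⟨k, hkS⟩ : S) = (⟨u, hKS u.2⟩ : S)⁻¹ * (⟨r, hRS hr⟩ * ⟨u, hKS u.2⟩ * (⟨r, hRS hr⟩ : S)⁻¹) :=
        Subtype.ext (congrArg Subtype.val hu).symm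
      rw [he, mul_smul, mul_smul, mul_smul, hr'', hr', inv_smul_smul]
    have hall : ∀ v : Additive (Abelianization P), v ∈ fixA (V := Additive (Abelianization P)) Kb := fun v => by
      rw [hKb, hfix]
      exact fun s hs => hKtriv _ (mem_subgroupOf.mp hs) v s.2
    -- so the abelianization, and with it the group, is trivial
    haveI : Subsingleton (Additive (Abelianization P)) := ⟨fun x y => by
      have hx := hall x; have hy := hall y
      rw [hfixK, AddSubgroup.mem_bot] at hx hy
      rw [hx, hy]⟩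
    have hPtop : _root_.commutator P = ⊤ := eq_top_iff.2 fun x _ =>
      (QuotientGroup.eq_one_iff x).mp (Additive.ofMul.injective (Subsingleton.elim _ _) :
        Abelianization.of x = (1 : Abelianization P))
    have hPbot : P = ⊥ := by
      by_contra hne
      haveI := (nontrivial_iff_ne_bot P).mpr hne
      exact (IsSolvable.commutator_lt_top_of_nontrivial P).ne hPtop
    exact hPne hPbot
  have habel := commute_kernel Kb Rb hRne ?_ ?_ ?_ hfixK w (by rw [hRb, hfix]; exact hwfix) hwgen p n hp.out hn'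
  · have hKK : ⁅K, K⁆ ≤ K := commutator_le_self K
    refine Coprime.le_centralizer_of_frattini (hKK.trans (hKS.trans hn))
      ((hcopK.coprime_dvd_left (card_dvd_of_le hKK)).coprime_dvd_right (frattini P).card_subgroup_dvd_card) ?_
    intro c hc x hx
    have hcS : c ∈ S := hKS (hKK hc)
    have hker : (⟨c, hcS⟩ : S) ∈ ρ.ker := by
      have hle : ⁅K.subgroupOf S, K.subgroupOf S⁆ ≤ ρ.ker := by
        rw [commutator_le]
        intro k hk l hl
        rw [MonoidHom.mem_ker, map_commutatorElement, commutatorElement_eq_one_iff_mul_comm]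
        exact congrArg Subtype.val (habel _ ⟨k, hk, rfl⟩ _ ⟨l, hl, rfl⟩)
      have hmem : (⟨c, hcS⟩ : S) ∈ ⁅K.subgroupOf S, K.subgroupOf S⁆ := by
        have hm : ⁅K, K⁆ = (⁅K.subgroupOf S, K.subgroupOf S⁆).map S.subtype := by
          rw [map_commutator, map_subgroupOf_eq_of_le hKS]
        rw [hm] at hc
        obtain ⟨y, hy, he⟩ := hc
        exact (show y = ⟨c, hcS⟩ from Subtype.ext he) ▸ hy
      exact hle hmem
    have h1 := DFunLike.congr_fun (MonoidHom.mem_ker.mp hker) (Abelianization.of (⟨x, hx⟩ : P))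
    change Abelianization.of (Coprime.conjHom hn ⟨c, hcS⟩ ⟨x, hx⟩) = Abelianization.of (⟨x, hx⟩ : P) at h1
    have h2 : Coprime.conjHom hn ⟨c, hcS⟩ ⟨x, hx⟩ * (⟨x, hx⟩ : P)⁻¹ ∈ _root_.commutator P := by
      rw [← Abelianization.ker_of, MonoidHom.mem_ker, map_mul, map_inv, h1, mul_inv_cancel]
    exact ⟨_, PGroupFrattini.commutator_le_frattini hP h2, rfl⟩
  · rintro _ ⟨e, he, rfl⟩ _ ⟨u, hu, rfl⟩
    exact ⟨e * u * e⁻¹, hRK _ he _ hu, by simp [map_mul, map_inv]⟩
  · rintro _ ⟨e, he, rfl⟩ he1 _ ⟨u, hu, rfl⟩ hcom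
    -- lift through the kernel by injectivity
    have he1' : (e : X) ≠ 1 := fun h => he1 (by rw [show e = 1 from Subtype.ext h, map_one])
    let d : K → K := fun u => ⟨(u : X)⁻¹ * ((e : X) * u * (e : X)⁻¹), mul_mem (K.inv_mem u.2) (hRK _ he _ u.2)⟩
    have hd : Function.Injective d := fun x y hxy => by
      have h1 : (x : X)⁻¹ * ((e : X) * x * (e : X)⁻¹) = (y : X)⁻¹ * ((e : X) * y * (e : X)⁻¹) := congrArg Subtype.val hxy
      have h2 : (e : X) * ((x : X) * (y : X)⁻¹) = ((x : X) * (y : X)⁻¹) * e := by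
        calc (e : X) * ((x : X) * (y : X)⁻¹)
            = x * ((x : X)⁻¹ * ((e : X) * x * (e : X)⁻¹)) * ((y : X)⁻¹ * ((e : X) * y * (e : X)⁻¹))⁻¹ * (y : X)⁻¹ * e := by group
          _ = (x : X) * (y : X)⁻¹ * e := by rw [h1]; group
      exact Subtype.ext (mul_inv_eq_one.mp (hfpf _ he he1' _ (mul_mem x.2 (K.inv_mem y.2)) h2))
    let L : Set K := {k | ρ.rangeRestrict (⟨k, hKS k.2⟩ : S) = 1}
    have hLd : ∀ k ∈ L, d k ∈ L := fun k (hk : _ = 1) => by
      show ρ.rangeRestrict _ = 1
      rw [show (⟨(d k : X), hKS (d k).2⟩ : S) = (⟨k, hKS k.2⟩ : S)⁻¹ * (e * ⟨k, hKS k.2⟩ * e⁻¹) from rfl]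
      simp [map_mul, map_inv, hk]
    have hdu : d ⟨u, hu⟩ ∈ L := by
      show ρ.rangeRestrict _ = 1
      rw [show (⟨(d ⟨u, hu⟩ : X), hKS (d ⟨u, hu⟩).2⟩ : S) = u⁻¹ * (e * u * e⁻¹) from rfl]
      rw [map_mul, map_mul, map_mul, map_inv, map_inv, hcom]
      group
    have hres : Function.Injective (Set.MapsTo.restrict d L L hLd) := fun x y h =>
      Subtype.ext (hd (congrArg Subtype.val h))
    obtain ⟨⟨l, hl⟩, hle'⟩ := (Finite.injective_iff_surjective.mp hres) ⟨_, hdu⟩
    have hle : d l = d ⟨u, hu⟩ := congrArg Subtype.val hle'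
    rw [hd hle] at hl
    exact hl
  · rw [Nat.card_congr Additive.toMul]
    refine (hcopK.symm.coprime_dvd_left (_root_.commutator P).card_quotient_dvd_card).coprime_dvd_right ?_
    rw [← Coprime.card_subgroupOf hKS]
    exact card_map_dvd _ _

end Ambient

end Cfsg.Agent.Lib.OddLocal.CyclicFix
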