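import Cfsg.Agent.Lib.OddLocal.SigmaPrimeElem
set_option autoImplicit false

/-! The part `U` of the standard factorisation `M = K U M_σ`. -/

namespace Cfsg.Agent.Lib.OddLocal.UPart

open Subgroup
open scoped Pointwise commutatorElement
open Cfsg.Agent.Lib.Uniq

universe u

variable {G : Type u} [Group G] [Finite G] {M K U E : Subgroup G}

omit [Finite G] in
theorem compl_conj {m : G} (hm : m ∈ M) (hE : IsComplIn E (sigmaCore M) M) :
    IsComplIn (MulAut.conj m • E) (sigmaCore M) M := by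
  obtain ⟨h1, h2, h3, h4⟩ := hE
  have hn : MulAut.conj m • sigmaCore M = sigmaCore M :=
    Coprime.conj_smul_eq_self (OddLocal.le_normalizer_piCoreOf (sigma M) M hm)
  refine ⟨?_, h2, ?_, fun z hz => ?_⟩
  · exact (pointwise_smul_le_pointwise_smul_iff.mpr h1).trans (Coprime.conj_smul_eq_self (le_normalizer hm)).le
  · rw [← hn, ← smul_inf, h3, smul_bot]
  · obtain ⟨a, ha, b, hb, e⟩ := h4 (m⁻¹ * z * m) (M.mul_mem (M.mul_mem (M.inv_mem hm) hz) hm)
    refine ⟨m * a * m⁻¹, smul_mem_pointwise_smul a (MulAut.conj m) E ha, m * b * m⁻¹,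
      hn.le (smul_mem_pointwise_smul b (MulAut.conj m) _ hb), ?_⟩
    calc z = m * (m⁻¹ * z * m) * m⁻¹ := by group
      _ = m * a * m⁻¹ * (m * b * m⁻¹) := by rw [e]; group

/-- A `σ(M)'`-subgroup of `M` lies in a complement of `M_σ`. -/
theorem exists_compl_ge_of_sigma' (hG : IsMinSimpleOddOrder G) (hM : IsCoatom M)
    (hE : IsComplIn E (sigmaCore M) M) {Y : Subgroup G} (hYM : Y ≤ M)
    (hY : ∀ r : ℕ, r.Prime → r ∣ Nat.card Y → r ∉ sigma M) :
    ∃ E' : Subgroup G, IsComplIn E' (sigmaCore M) M ∧ Y ≤ E' := by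
  obtain ⟨m, hm, hle⟩ := exists_conj_le_compl' hG hM hE hY hYM
  refine ⟨MulAut.conj m⁻¹ • E, compl_conj (M.inv_mem hm) hE, ?_⟩
  rw [map_inv]
  exact subset_pointwise_smul_iff.mpr (by simpa using hle)

/-- A complement to `M_σ` exists. -/
theorem exists_compl (hG : IsMinSimpleOddOrder G) (hM : IsCoatom M) :
    ∃ E : Subgroup G, IsComplIn E (sigmaCore M) M := by
  haveI := solvable_of_ne_top hG hM.1
  obtain ⟨H, hH, hHi⟩ := Hall.exists_piHall (G := ↥M) {q | q ∉ sigma M}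
  refine ⟨H.map M.subtype, map_subtype_le _, map_subtype_le _, ?_, fun m hm => ?_⟩
  · refine Coprime.inf_eq_bot_of_coprime (Nat.coprime_of_dvd fun r hr h1 h2 => ?_)
    rw [card_map_of_injective M.subtype_injective] at h1
    exact hH r hr h1 (OddLocal.piCoreOf_isPi (sigma M) M r hr h2)
  · have htop : H ⊔ piCore (sigma M) ↥M = ⊤ := by
      rw [← index_eq_one, Nat.eq_one_iff_not_exists_prime_dvd]
      intro r hr hd
      haveI := Fact.mk hr
      by_cases hσ : r ∈ sigma M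
      · refine (sigmaCore_hall hG hM hσ).1 ?_
        rw [sigmaCore, relIndex, subgroupOf, comap_map_eq_self_of_injective M.subtype_injective]
        exact hd.trans (index_dvd_of_le le_sup_right)
      · exact hHi r hr hσ (hd.trans (index_dvd_of_le le_sup_left))
    obtain ⟨a, ha, b, hb, e⟩ := (Coprime.mem_sup_of_le_normalizer (A := H) (N := piCore (sigma M) ↥M)
      (by rw [normalizer_eq_top]; exact le_top)).mp (htop.ge (mem_top (⟨m, hm⟩ : M)))
    exact ⟨a, ⟨a, ha, rfl⟩, b, ⟨b, hb, rfl⟩, (congrArg Subtype.val e).symm⟩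

/-- A `τ₂(M)`-element of a complement centralizing a nonidentity element of `M_σ` lies in its Fitting subgroup. -/
theorem mem_fitting_of_tau2 (hG : IsMinSimpleOddOrder G) (hM : IsCoatom M) (hE : IsComplIn E (sigmaCore M) M)
    {u y : G} (hu : u ∈ E) (hτ : ∀ q : ℕ, q.Prime → q ∣ orderOf u → q ∈ tau2 M) (hy : y ∈ sigmaCore M)
    (hy1 : y ≠ 1) (hc : Commute u y) : u ∈ (fittingSubgroup ↥E).map E.subtype := by
  refine abelian_of_prime_pow_parts fun q k hq hqk => ?_
  rcases Nat.eq_zero_or_pos k with rfl | hk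
  · rw [pow_zero, Nat.div_one, pow_orderOf_eq_one]; exact one_mem _
  haveI := Fact.mk hq
  set z := u ^ (orderOf u / q ^ k) with hz
  have hzE : z ∈ E := E.pow_mem hu _
  have hzk : z ^ q ^ k = 1 := by rw [hz, ← pow_mul, Nat.div_mul_cancel hqk, pow_orderOf_eq_one]
  have hqτ := hτ q hq ((dvd_pow_self q hk.ne').trans hqk)
  by_cases hS : ∀ S : Sylow q G, IsMulCommutative (S : Subgroup G)
  · obtain ⟨A, hAE, hA, hAc⟩ := exists_elem_compl hG hM hE hqτ
    obtain ⟨T, -, hTE, hET, -, -, hTF, -⟩ := exists_normal_sylow hG hM hE hqτ.2.1 hS hA hAE hAc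
    exact ⟨⟨z, hzE⟩, hTF (show (⟨z, hzE⟩ : E) ∈ (T : Subgroup G).subgroupOf E from
      mem_sylow_of_normal T hTE hET hzE hzk), rfl⟩
  · obtain ⟨-, hF, -⟩ := regular_subgroup_nonabelian hG hM hE hqτ fun S => sylow_comm_dichotomy hS S
    refine hF z hzE k hzk fun e => hy1 (mem_bot.mp (e ▸ ⟨hy, ?_⟩))
    exact mem_centralizer_singleton_iff.mpr (hc.pow_left _).eq.symm

/-- A `σ(M)'`-subgroup of `M` with only `τ₂(M)`-primes centralizing a nonidentity element of `M_σ` is cyclic. -/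
theorem isCyclic_tau2 (hG : IsMinSimpleOddOrder G) (hM : IsCoatom M) {X : Subgroup G} (hXM : X ≤ M)
    (hτ : ∀ q : ℕ, q.Prime → q ∣ Nat.card X → q ∈ tau2 M) {y : G} (hy : y ∈ sigmaCore M) (hy1 : y ≠ 1)
    (hc : X ≤ centralizer ({y} : Set G)) : IsCyclic X := by
  obtain ⟨E₀, hE₀⟩ := exists_compl hG hM
  obtain ⟨E, hE, hXE⟩ := exists_compl_ge_of_sigma' hG hM hE₀ hXM fun r hr hd => (hτ r hr hd).2.1
  have hXF : X ≤ (fittingSubgroup ↥E).map E.subtype := fun x hx =>
    mem_fitting_of_tau2 hG hM hE (hXE hx) (fun q hq hd => hτ q hq (hd.trans (X.orderOf_dvd_natCard hx))) hy hy1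
      (mem_centralizer_singleton_iff.mp (hc hx))
  haveI := fitting_compl_comm hG hM hE
  haveI : IsMulCommutative ↥X := ⟨⟨fun a b => Subtype.ext (setLike_mul_comm (hXF a.2) (hXF b.2))⟩⟩
  haveI : IsZGroup ↥X := ⟨fun q hq S => by
    haveI := Fact.mk hq
    set P := (S : Subgroup X).map X.subtype
    suffices hP : IsCyclic P by
      haveI := hP
      exact isCyclic_of_surjective _
        ((S : Subgroup X).equivMapOfInjective X.subtype X.subtype_injective).symm.surjective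
    by_contra hnc
    have hPX : P ≤ X := map_subtype_le _
    have hP1 : P ≠ ⊥ := fun e => hnc (e ▸ inferInstance)
    obtain ⟨j, hj⟩ := IsPGroup.iff_card.mp (S.2.map X.subtype)
    have hj0 : j ≠ 0 := fun e => hP1 (eq_bot_of_card_eq P (by rw [hj, e, pow_zero]))
    have hqX : q ∣ Nat.card X := ((dvd_pow_self q hj0).trans hj.symm.dvd).trans (card_dvd_of_le hPX)
    obtain ⟨A, hAP, -, hA, hAc, -, -⟩ := exists_normal_pair (ne_two_of_pgroup hG (S.2.map X.subtype) hP1)
      (S.2.map X.subtype) hnc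
    have h := sigmaCore_inf_centralizer_elem hG hM (hτ q hq hqX).2.1 ((hAP.trans hPX).trans hXM) hA hAc
    exact hy1 (mem_bot.mp (h ▸ ⟨hy, mem_centralizer_iff.mpr fun a ha =>
      mem_centralizer_singleton_iff.mp (hc (hPX (hAP ha)))⟩))⟩
  haveI : Group.IsNilpotent ↥X := by
    haveI := fitting_compl_comm hG hM hE
    haveI : Group.IsNilpotent ↥((fittingSubgroup ↥E).map E.subtype) := by
      haveI := Hall.fittingSubgroup_isNilpotent (G := E)
      exact Group.nilpotent_of_mulEquiv (equivMapOfInjective _ _ E.subtype_injective)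
    exact Group.nilpotent_of_mulEquiv (subgroupOfEquivOfLe hXF)
  infer_instance

/-- Primes of `U`. -/
theorem prime_U (hG : IsMinSimpleOddOrder G) (hM : IsCoatom M) (hKU : IsSigmaDecomposition M K U) {r : ℕ}
    (hr : r.Prime) (hd : r ∣ Nat.card U) : r ∉ sigma M ∧ r ∉ kappa M := by
  obtain ⟨hUM, hWM, hbot, hdec⟩ := hKU.compl
  have hWn : K ⊔ sigmaCore M ≤ normalizer (sigmaCore M : Set G) :=
    hWM.trans (OddLocal.le_normalizer_piCoreOf (sigma M) M)
  have hcard : Nat.card U * Nat.card ↥(K ⊔ sigmaCore M) = Nat.card M := by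
    rw [← Nat.card_prod]
    refine Nat.card_congr (Equiv.ofBijective (fun z => (⟨(z.1 : G) * z.2, M.mul_mem (hUM z.1.2) (hWM z.2.2)⟩ : M))
      ⟨fun z w h => ?_, fun m => ?_⟩)
    · have h' : (z.1 : G) * z.2 = w.1 * w.2 := congrArg Subtype.val h
      have h1 : (w.1 : G)⁻¹ * z.1 ∈ U ⊓ (K ⊔ sigmaCore M) := by
        refine ⟨U.mul_mem (U.inv_mem w.1.2) z.1.2, ?_⟩
        have e : (w.1 : G)⁻¹ * z.1 = w.2 * (z.2 : G)⁻¹ := by
          calc (w.1 : G)⁻¹ * z.1 = (w.1 : G)⁻¹ * ((z.1 : G) * z.2) * (z.2 : G)⁻¹ := by group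
            _ = _ := by rw [h']; group
        rw [e]; exact (K ⊔ sigmaCore M).mul_mem w.2.2 ((K ⊔ sigmaCore M).inv_mem z.2.2)
      rw [hbot, mem_bot, inv_mul_eq_one] at h1
      refine Prod.ext (Subtype.ext h1.symm) (Subtype.ext ?_)
      rw [← h1] at h'
      exact mul_left_cancel h'
    · obtain ⟨a, ha, b, hb, e⟩ := hdec m m.2
      exact ⟨(⟨a, ha⟩, ⟨b, hb⟩), Subtype.ext e.symm⟩
  have hidx : (K ⊔ sigmaCore M).relIndex M = Nat.card U := by
    have h1 := card_mul_index ((K ⊔ sigmaCore M).subgroupOf M)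
    rw [Coprime.card_subgroupOf hWM, ← hcard, mul_comm (Nat.card U)] at h1
    exact Nat.eq_of_mul_eq_mul_left Nat.card_pos h1
  rw [← hidx] at hd
  haveI := Fact.mk hr
  exact ⟨fun h => (sigmaCore_hall hG hM h).1 (hd.trans (relIndex_dvd_of_le_left M le_sup_right)),
    fun h => hKU.hall.2.2 r hr h (hd.trans (relIndex_dvd_of_le_left M le_sup_left))⟩

/-- An element of `U` centralizing a nonidentity element of `M_σ` is a `τ₂(M)`-element. -/
theorem tau2_of_sigmaHat (hG : IsMinSimpleOddOrder G) (hM : IsCoatom M) (hKU : IsSigmaDecomposition M K U)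
    {u y : G} (hu : u ∈ U) (hy : y ∈ sigmaCore M) (hy1 : y ≠ 1) (hc : Commute u y) :
    ∀ q : ℕ, q.Prime → q ∣ orderOf u → q ∈ tau2 M := fun q hq hd => by
  haveI := Fact.mk hq
  obtain ⟨hσ, hκ⟩ := prime_U hG hM hKU hq (hd.trans (U.orderOf_dvd_natCard hu))
  exact (SigmaPrimeElem.kappa_or_tau2 hG hM hσ (M.pow_mem (hKU.compl.1 hu) _)
    (orderOf_pow_orderOf_div (orderOf_pos u).ne' hd) hy hy1 (hc.pow_left _).eq).resolve_left hκ

/-- `U M_σ` is normal in `M`. -/
theorem normal_U_sigma (hKU : IsSigmaDecomposition M K U) :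
    M ≤ normalizer ((U ⊔ sigmaCore M : Subgroup G) : Set G) := by
  have hn := OddLocal.le_normalizer_piCoreOf (sigma M) M
  have hK : K ≤ normalizer ((U ⊔ sigmaCore M : Subgroup G) : Set G) := fun k hk => by
    refine Coprime.mem_normalizer_of_conj_smul_eq ?_
    rw [smul_sup, Coprime.conj_smul_eq_self (hKU.normal hk)]
    exact congrArg (U ⊔ ·) (Coprime.conj_smul_eq_self (hn (hKU.hall.1 hk)))
  intro m hm
  obtain ⟨a, ha, b, hb, rfl⟩ := hKU.compl.2.2.2 m hm
  exact mul_mem (le_normalizer (mem_sup_left ha))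
    ((sup_le hK (le_sup_right.trans le_normalizer) : K ⊔ sigmaCore M ≤ _) hb)

end Cfsg.Agent.Lib.OddLocal.UPart
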