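import Cfsg.Agent.Lib.OddLocal.KappaData
import Cfsg.Agent.Lib.OddLocal.UPart
import Cfsg.Agent.Lib.Uniq.SigmaStructure
set_option autoImplicit false

/-! The standard factorisation `M = K U M_σ`. -/

namespace Cfsg.Agent.Lib.OddLocal.Decomposition

open Subgroup
open scoped Pointwise commutatorElement
open Cfsg.Agent.Lib.Uniq

universe u

variable {G : Type u} [Group G] [Finite G] {M K U : Subgroup G}

/-- When `K` is cyclic, `κ(M)` has no prime of `τ₃(M)`. -/
theorem kappa_not_tau3 (hG : IsMinSimpleOddOrder G) (hM : IsCoatom M) (hKc : IsCyclic K)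
    (hK : IsPiHallOf (kappa M) K M) : ∀ t ∈ kappa M, t ∉ tau3 M := by
  intro t htκ ht3
  haveI := Fact.mk ht3.1
  obtain ⟨E₀, hE₀⟩ := UPart.exists_compl hG hM
  obtain ⟨E, hE, hKE⟩ := UPart.exists_compl_ge_of_sigma' hG hM hE₀ hK.1 fun r hr hd => (hK.2.1 r hr hd).2.2.1
  obtain ⟨hEK, -⟩ := kappa_case_tau_three hG hM hE hK hKE htκ ht3
  subst hEK
  haveI := hKc
  obtain ⟨E₃, hE₃, -⟩ := exists_hall_ge hG (ne_top_of_le hM hE.1) (bot_le : ⊥ ≤ E) (tau3 M) (fun u hu hd =>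
    absurd (card_bot (G := G) ▸ hd) hu.not_dvd_one)
  have h := (tau3_struct hG hM hE hE₃).2.1
  have hb : ⁅E, E⁆ = ⊥ := commutator_eq_bot_iff_le_centralizer.mpr fun a ha => mem_centralizer_iff.mpr fun b hb =>
    congrArg Subtype.val ((IsCyclic.commGroup (α := E)).mul_comm (⟨b, hb⟩ : E) ⟨a, ha⟩)
  rw [hb, le_bot_iff] at h
  refine hE₃.2.2 t ht3.1 ht3 ?_
  rw [h, relIndex_bot_left]
  exact dvd_compl hE ht3.1 htκ.2.1 ht3.2.1

/-- `U` is a Hall subgroup of `M` for the primes outside `κ(M) ∪ σ(M)`. -/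
theorem hall_U (hG : IsMinSimpleOddOrder G) (hM : IsCoatom M) (hKU : IsSigmaDecomposition M K U) :
    IsPiHallOf {q | q.Prime ∧ q ∉ kappa M ∧ q ∉ sigma M} U M := by
  refine ⟨hKU.compl.1, fun r hr hd => ⟨hr, (UPart.prime_U hG hM hKU hr hd).2, (UPart.prime_U hG hM hKU hr hd).1⟩,
    fun r hr hrπ hd => ?_⟩
  haveI := Fact.mk hr
  have hWM : K ⊔ sigmaCore M ≤ M := hKU.compl.2.1
  have hKσ : K ≤ normalizer (sigmaCore M : Set G) := hKU.hall.1.trans (OddLocal.le_normalizer_piCoreOf (sigma M) M)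
  have hle : M ≤ normalizer ((U ⊔ sigmaCore M : Subgroup G) : Set G) := UPart.normal_U_sigma hKU
  have htop : K ⊔ (U ⊔ sigmaCore M) = M := by
    refine le_antisymm (sup_le hKU.hall.1 (sup_le hKU.compl.1 (map_subtype_le _))) fun m hm => ?_
    obtain ⟨a, ha, b, hb, rfl⟩ := hKU.compl.2.2.2 m hm
    refine mul_mem (mem_sup_right (mem_sup_left ha)) ?_
    exact (sup_le le_sup_left (le_sup_right.trans le_sup_right) : K ⊔ sigmaCore M ≤ K ⊔ (U ⊔ sigmaCore M)) hb
  have hd1 : r ∣ U.relIndex (U ⊔ sigmaCore M) * (U ⊔ sigmaCore M).relIndex M :=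
    hd.trans (dvd_of_eq (relIndex_mul_relIndex _ _ _ le_sup_left (sup_le hKU.compl.1 (map_subtype_le _))).symm)
  have hc1 := Coprime.card_sup_mul_card_inf_of_le_normalizer (A := U) (N := sigmaCore M)
    (hKU.compl.1.trans (OddLocal.le_normalizer_piCoreOf (sigma M) M))
  rcases (Nat.Prime.dvd_mul hr).mp hd1 with h | h
  · have e : U.relIndex (U ⊔ sigmaCore M) ∣ Nat.card (sigmaCore M) := by
      rw [← Hall.card_mul_relIndex' (le_sup_left : U ≤ U ⊔ sigmaCore M), mul_assoc] at hc1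
      exact Dvd.intro _ (Nat.eq_of_mul_eq_mul_left Nat.card_pos hc1)
    exact hrπ.2.2 (OddLocal.piCoreOf_isPi (sigma M) M r hr (h.trans e))
  · have h2 := Coprime.card_sup_mul_card_inf_of_le_normalizer (hKU.hall.1.trans hle)
    rw [htop, ← Hall.card_mul_relIndex' (sup_le hKU.compl.1 (map_subtype_le _) : U ⊔ sigmaCore M ≤ M),
      mul_comm (Nat.card K), mul_assoc] at h2
    exact hrπ.2.1 (hKU.hall.2.1 r hr (h.trans (Dvd.intro _ (Nat.eq_of_mul_eq_mul_left Nat.card_pos h2))))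

/-- Any `U` of a standard factorisation with `K ≠ 1` is abelian and `K` acts freely on it. -/
theorem abelian_free (hG : IsMinSimpleOddOrder G) (hM : IsCoatom M) (hKU : IsSigmaDecomposition M K U)
    (hK1 : K ≠ ⊥) :
    IsMulCommutative U ∧ ∀ k ∈ K, k ≠ 1 → U ⊓ centralizer ({k} : Set G) = ⊥ := by
  obtain ⟨-, ⟨U₀, hU₀c, hU₀, hKU₀, hfree⟩, -⟩ := kappa_structure hG hM hKU.hall hK1
  have hUH := hall_U hG hM hKU
  have hσM : sigmaCore M ≤ M := map_subtype_le _
  have hMn := OddLocal.le_normalizer_piCoreOf (sigma M) M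
  -- `U₀ ≤ U M_σ`
  haveI : ((U ⊔ sigmaCore M).subgroupOf M).Normal :=
    (normal_subgroupOf_iff_le_normalizer (sup_le hKU.compl.1 hσM)).mpr (UPart.normal_U_sigma hKU)
  have hle : U₀.subgroupOf M ≤ (U ⊔ sigmaCore M).subgroupOf M := le_of_coprime_index <| by
    rw [Coprime.card_subgroupOf hU₀.1]
    refine Nat.coprime_of_dvd fun r hr h1 h2 => ?_
    exact hUH.2.2 r hr (hU₀.2.1 r hr h1) (h2.trans (relIndex_dvd_of_le_left M le_sup_left))
  have hU₀le : U₀ ≤ U ⊔ sigmaCore M := fun z hz => hle (show (⟨z, hU₀.1 hz⟩ : M) ∈ U₀.subgroupOf M from hz)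
  have hcard : Nat.card U₀ = Nat.card U := by
    refine Nat.dvd_antisymm ?_ ?_ <;> refine (Nat.dvd_iff_prime_pow_dvd_dvd _ _).mpr fun r j hr hd => ?_ <;>
      rcases Nat.eq_zero_or_pos j with rfl | hj
    · simp
    · have hrπ := hU₀.2.1 r hr ((dvd_pow_self r hj.ne').trans hd)
      have h1 : r ^ j ∣ Nat.card U * U.relIndex M :=
        (hd.trans (card_dvd_of_le hU₀.1)).trans (Hall.card_mul_relIndex' hUH.1).symm.dvd
      exact (Nat.Coprime.dvd_mul_right ((hr.coprime_iff_not_dvd.mpr (hUH.2.2 r hr hrπ)).pow_left j)).mp h1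
    · simp
    · have hrπ := hUH.2.1 r hr ((dvd_pow_self r hj.ne').trans hd)
      have h1 : r ^ j ∣ Nat.card U₀ * U₀.relIndex M :=
        (hd.trans (card_dvd_of_le hUH.1)).trans (Hall.card_mul_relIndex' hU₀.1).symm.dvd
      exact (Nat.Coprime.dvd_mul_right ((hr.coprime_iff_not_dvd.mpr (hU₀.2.2 r hr hrπ)).pow_left j)).mp h1
  have hUσ : U ≤ normalizer (sigmaCore M : Set G) := hKU.compl.1.trans hMn
  have hcopU : (Nat.card U).Coprime (Nat.card (sigmaCore M)) := Nat.coprime_of_dvd fun r hr h1 h2 =>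
    (hUH.2.1 r hr h1).2.2 (OddLocal.piCoreOf_isPi (sigma M) M r hr h2)
  have hcopK : (Nat.card K).Coprime (Nat.card (sigmaCore M)) := Nat.coprime_of_dvd fun r hr h1 h2 =>
    (hKU.hall.2.1 r hr h1).2.2.1 (OddLocal.piCoreOf_isPi (sigma M) M r hr h2)
  have hsol : Group.IsSolvable ↥(sigmaCore M) := solvable_of_ne_top hG (ne_top_of_le hM hσM)
  obtain ⟨n, hn, hnU⟩ := Coprime.exists_conj_eq_of_le_sup hUσ hcopU (Or.inr hsol) hU₀le hcard
  obtain ⟨c, hc, hcU⟩ := Coprime.exists_centralizer_conj (A := K) (hKU.hall.1.trans hMn) hcopK (Or.inr hsol)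
    hKU.normal hKU₀ hn hnU
  have hU : U = MulAut.conj c⁻¹ • U₀ := by rw [← hcU, map_inv, inv_smul_smul]
  refine ⟨?_, fun k hk hk1 => ?_⟩
  · refine ⟨⟨fun a b => Subtype.ext ?_⟩⟩
    have ha : c * (a : G) * c⁻¹ ∈ U₀ := hcU.le (smul_mem_pointwise_smul _ (MulAut.conj c) U a.2)
    have hb : c * (b : G) * c⁻¹ ∈ U₀ := hcU.le (smul_mem_pointwise_smul _ (MulAut.conj c) U b.2)
    haveI := hU₀c
    have h := setLike_mul_comm ha hb
    calc (a : G) * b = c⁻¹ * ((c * a * c⁻¹) * (c * b * c⁻¹)) * c := by group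
      _ = b * a := by rw [h]; group
  · rw [eq_bot_iff]
    rintro u ⟨hu, huk⟩
    have hck : c * k = k * c := (mem_centralizer_iff.mp hc.2 k hk).symm
    have hcu : c * u * c⁻¹ ∈ U₀ ⊓ centralizer ({k} : Set G) := by
      refine ⟨hcU.le (smul_mem_pointwise_smul _ (MulAut.conj c) U hu), mem_centralizer_singleton_iff.mpr ?_⟩
      have h1 : u * k = k * u := mem_centralizer_singleton_iff.mp huk
      calc c * u * c⁻¹ * k = c * u * (c⁻¹ * k) := by group
        _ = c * u * (k * c⁻¹) := by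
            rw [show c⁻¹ * k = k * c⁻¹ from ((show Commute c k from hck).inv_left).eq]
        _ = c * (u * k) * c⁻¹ := by group
        _ = (c * k) * u * c⁻¹ := by rw [h1]; group
        _ = k * (c * u * c⁻¹) := by rw [hck]; group
    rw [hfree k hk hk1, mem_bot, conj_eq_one_iff] at hcu
    exact mem_bot.mpr hcu

/-- A standard factorisation exists over a cyclic Hall `κ(M)`-subgroup. -/
theorem exists_decomposition (hG : IsMinSimpleOddOrder G) (hM : IsCoatom M) (hKc : IsCyclic K)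
    (hK : IsPiHallOf (kappa M) K M) : ∃ U : Subgroup G, IsSigmaDecomposition M K U := by
  rcases eq_or_ne K ⊥ with rfl | hK1
  · obtain ⟨E, hE⟩ := UPart.exists_compl hG hM
    exact ⟨E, hKc, hK, by rwa [bot_sup_eq], bot_le⟩
  obtain ⟨-, ⟨U, -, hU, hKU, -⟩, -⟩ := kappa_structure hG hM hK hK1
  have hσM : sigmaCore M ≤ M := map_subtype_le _
  have hKσ : K ≤ normalizer (sigmaCore M : Set G) := hK.1.trans (OddLocal.le_normalizer_piCoreOf (sigma M) M)
  refine ⟨U, hKc, hK, ⟨hU.1, sup_le hK.1 hσM, ?_, fun m hm => ?_⟩, hKU⟩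
  · refine Coprime.inf_eq_bot_of_coprime (Nat.coprime_of_dvd fun r hr h1 h2 => ?_)
    rcases (Nat.Prime.dvd_mul hr).mp (h2.trans (Dvd.intro _ (Coprime.card_sup_mul_card_inf_of_le_normalizer hKσ)))
      with h | h
    · exact (hU.2.1 r hr h1).2.1 (hK.2.1 r hr h)
    · exact (hU.2.1 r hr h1).2.2 (OddLocal.piCoreOf_isPi (sigma M) M r hr h)
  · obtain ⟨e, he, s, hs, rfl⟩ := (KappaStar.compl_sigma hG hM hK hU hKU).2.2.2 m hm
    obtain ⟨a, ha, u, hu, rfl⟩ := (Coprime.mem_sup_of_le_normalizer hKU).mp he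
    refine ⟨a * u * a⁻¹, (mem_normalizer_iff.mp (hKU ha) u).mp hu, a * s, ?_, by group⟩
    exact (K ⊔ sigmaCore M).mul_mem (mem_sup_left ha) (mem_sup_right hs)

/-- `M' = U M_σ` when `K ≠ 1`. -/
theorem derived_eq (hG : IsMinSimpleOddOrder G) (hM : IsCoatom M) (hKU : IsSigmaDecomposition M K U)
    (hK1 : K ≠ ⊥) : ⁅M, M⁆ = U ⊔ sigmaCore M := by
  have hσM : sigmaCore M ≤ M := map_subtype_le _
  refine le_antisymm ?_ (sup_le ?_ (sigmaCore_le_derived hG hM))
  · rw [commutator_le]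
    intro a ha b hb
    set W := U ⊔ sigmaCore M with hW
    haveI : (W.subgroupOf M).Normal :=
      (normal_subgroupOf_iff_le_normalizer (sup_le hKU.compl.1 hσM)).mpr (UPart.normal_U_sigma hKU)
    let π := QuotientGroup.mk' (W.subgroupOf M)
    have hK : ∀ m : M, ∃ k : M, (k : G) ∈ K ∧ π m = π k := by
      intro m
      obtain ⟨u, hu, b, hb, e⟩ := hKU.compl.2.2.2 m m.2
      obtain ⟨k, hk, s, hs, rfl⟩ := (Coprime.mem_sup_of_le_normalizer
        (hKU.hall.1.trans (OddLocal.le_normalizer_piCoreOf (sigma M) M))).mp hb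
      refine ⟨⟨k, hKU.hall.1 hk⟩, hk, (QuotientGroup.eq).mpr ?_⟩
      show (m : G)⁻¹ * k ∈ W
      have hW1 : k⁻¹ * u⁻¹ * k ∈ W := by
        have h := (mem_normalizer_iff.mp (hKU.normal (K.inv_mem hk)) u⁻¹).mp (U.inv_mem hu)
        rw [inv_inv] at h
        exact mem_sup_left h
      have e2 : (m : G)⁻¹ * k = s⁻¹ * (k⁻¹ * u⁻¹ * k) := by rw [e]; group
      rw [e2]
      exact W.mul_mem (mem_sup_right ((sigmaCore M).inv_mem hs)) hW1
    obtain ⟨k₁, hk₁, h1⟩ := hK ⟨a, ha⟩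
    obtain ⟨k₂, hk₂, h2⟩ := hK ⟨b, hb⟩
    haveI := hKU.cyclic
    have hcom : k₁ * k₂ = k₂ * k₁ := Subtype.ext (show (k₁ : G) * k₂ = k₂ * k₁ from congrArg Subtype.val
      ((IsCyclic.commGroup (α := K)).mul_comm (⟨(k₁ : G), hk₁⟩ : K) ⟨(k₂ : G), hk₂⟩))
    have h : π ⁅(⟨a, ha⟩ : M), ⟨b, hb⟩⁆ = 1 := by
      rw [map_commutatorElement, h1, h2, ← map_commutatorElement, commutatorElement_eq_one_iff_mul_comm.mpr hcom,
        map_one]
    exact (QuotientGroup.eq_one_iff (N := W.subgroupOf M) ⁅(⟨a, ha⟩ : M), (⟨b, hb⟩ : M)⁆).mp h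
  · obtain ⟨hUc, hfree⟩ := abelian_free hG hM hKU hK1
    obtain ⟨k, hk, hk1⟩ := (bot_or_exists_ne_one K).resolve_left hK1
    exact (KappaStar.le_commutator_of_free hk hUc hKU.normal (hfree k hk hk1)).trans
      (commutator_mono (sup_le hKU.hall.1 hKU.compl.1) (sup_le hKU.hall.1 hKU.compl.1))

/-- `C_{M_σ}(K) ≤ M''` when `K ≠ 1`. -/
theorem fixed_le_second_derived (hG : IsMinSimpleOddOrder G) (hM : IsCoatom M) (hKU : IsSigmaDecomposition M K U)
    (hK1 : K ≠ ⊥) : sigmaCore M ⊓ centralizer (K : Set G) ≤ ⁅⁅M, M⁆, ⁅M, M⁆⁆ := by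
  classical
  have hE : IsComplIn (K ⊔ U) (sigmaCore M) M :=
    KappaStar.compl_sigma hG hM hKU.hall (hall_U hG hM hKU) hKU.normal
  set E := K ⊔ U with hEdef
  set S := sigmaCore M with hS
  have hSM : S ≤ M := map_subtype_le _
  have hMS : M ≤ normalizer (S : Set G) := OddLocal.le_normalizer_piCoreOf (sigma M) M
  have hD := derived_eq hG hM hKU hK1
  set N := ⁅⁅M, M⁆, ⁅M, M⁆⁆ ⊓ S with hN
  have hNS : N ≤ S := inf_le_right
  have hMN : M ≤ normalizer (N : Set G) := fun m hm => inf_normalizer_le_normalizer_inf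
    ⟨by
      refine Coprime.mem_normalizer_of_conj_smul_eq ?_
      show (⁅⁅M, M⁆, ⁅M, M⁆⁆).map (MulAut.conj m).toMonoidHom = _
      rw [map_commutator, map_commutator]
      show ⁅⁅MulAut.conj m • M, MulAut.conj m • M⁆, ⁅MulAut.conj m • M, MulAut.conj m • M⁆⁆ = _
      rw [Coprime.conj_smul_eq_self (le_normalizer hm)], hMS hm⟩
  haveI : (N.subgroupOf M).Normal := (normal_subgroupOf_iff_le_normalizer (hNS.trans hSM)).mpr hMN
  set π := QuotientGroup.mk' (N.subgroupOf M)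
  set V := (S.subgroupOf M).map π
  set A := (E.subgroupOf M).map π
  have hcomm : ∀ a b : M, (a : G) ∈ ⁅M, M⁆ → (b : G) ∈ S → π a * π b = π b * π a := by
    intro a b ha hb
    rw [← commutatorElement_eq_one_iff_mul_comm, ← map_commutatorElement]
    refine (QuotientGroup.eq_one_iff _).mpr ?_
    refine ⟨commutator_mem_commutator ha (sigmaCore_le_derived hG hM hb), ?_⟩
    show (a : G) * b * (a : G)⁻¹ * (b : G)⁻¹ ∈ S
    exact S.mul_mem ((mem_normalizer_iff.mp (hMS a.2) b).mp hb) (S.inv_mem hb)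
  haveI : IsMulCommutative V := by
    refine ⟨⟨?_⟩⟩
    rintro ⟨_, a, ha, rfl⟩ ⟨_, b, hb, rfl⟩
    exact Subtype.ext (hcomm a b (sigmaCore_le_derived hG hM ha) hb)
  have hAV : A ≤ normalizer (V : Set (↥M ⧸ N.subgroupOf M)) := by
    haveI : (S.subgroupOf M).Normal := (normal_subgroupOf_iff_le_normalizer hSM).mpr hMS
    haveI : V.Normal := Subgroup.Normal.map inferInstance π (QuotientGroup.mk'_surjective _)
    rw [normalizer_eq_top]; exact le_top
  have hcop : (Nat.card A).Coprime (Nat.card V) := by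
    refine Nat.Coprime.coprime_dvd_left (card_map_dvd _ π) (Nat.Coprime.coprime_dvd_right (card_map_dvd _ π) ?_)
    rw [Coprime.card_subgroupOf hE.1, Coprime.card_subgroupOf hSM]
    exact coprime_sigmaCore_compl hG hM hE
  have hbot := Coprime.inf_centralizer_inf_commutator hAV hcop
  rintro y ⟨hy, hyK⟩
  have hEy : ∀ e ∈ E, ∀ he : e ∈ M, π ⟨e, he⟩ * π ⟨y, hSM hy⟩ = π ⟨y, hSM hy⟩ * π ⟨e, he⟩ := by
    intro e he heM
    obtain ⟨k, hk, u, hu, rfl⟩ := (Coprime.mem_sup_of_le_normalizer hKU.normal).mp he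
    have hk' : π ⟨k, hKU.hall.1 hk⟩ * π ⟨y, hSM hy⟩ = π ⟨y, hSM hy⟩ * π ⟨k, hKU.hall.1 hk⟩ := by
      rw [← map_mul, ← map_mul]
      exact congrArg π (Subtype.ext (mem_centralizer_iff.mp hyK k hk))
    have hu' := hcomm ⟨u, hKU.compl.1 hu⟩ ⟨y, hSM hy⟩ (hD.ge (mem_sup_left hu)) hy
    rw [show (⟨k * u, heM⟩ : M) = ⟨k, hKU.hall.1 hk⟩ * ⟨u, hKU.compl.1 hu⟩ from rfl, map_mul]
    exact ((show Commute _ _ from hk').mul_left (show Commute _ _ from hu')).eq
  have h1 : π ⟨y, hSM hy⟩ ∈ (V ⊓ centralizer (A : Set (↥M ⧸ N.subgroupOf M))) ⊓ ⁅V, A⁆ := by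
    refine ⟨⟨mem_map_of_mem π hy, mem_centralizer_iff.mpr ?_⟩, ?_⟩
    · rintro _ ⟨a, ha, rfl⟩
      exact hEy a ha a.2
    · rw [← map_commutator]
      refine mem_map_of_mem π ?_
      have h := (commutator_sigmaCore_compl hG hM hE).ge hy
      have heq : (⁅S.subgroupOf M, E.subgroupOf M⁆).map M.subtype = ⁅S, E⁆ := by
        rw [map_commutator, map_subgroupOf_eq_of_le hSM, map_subgroupOf_eq_of_le hE.1]
      rw [← heq] at h
      obtain ⟨w, hw, hwk⟩ := h
      rwa [show (⟨y, hSM hy⟩ : M) = w from Subtype.ext hwk.symm]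
  rw [hbot, mem_bot] at h1
  exact ((QuotientGroup.eq_one_iff (⟨y, hSM hy⟩ : M)).mp h1).1

/-- `C_M(k) = K K*` for nonidentity `k ∈ K`. -/
theorem centralizer_kappa (hG : IsMinSimpleOddOrder G) (hM : IsCoatom M) (hKc : IsCyclic K)
    (hK : IsPiHallOf (kappa M) K M) :
    sigmaCore M ⊓ centralizer (K : Set G) ≠ ⊥ ∧
      (K ≠ ⊥ → ∀ k ∈ K, k ≠ 1 →
        M ⊓ centralizer ({k} : Set G) = K ⊔ (sigmaCore M ⊓ centralizer (K : Set G))) := by
  haveI := hKc
  refine ⟨?_, fun hK1 k hk hk1 => ?_⟩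
  · rcases eq_or_ne K ⊥ with rfl | hK1
    · have hM1 : M ≠ ⊥ := by
        intro h
        obtain ⟨q, hq, hd⟩ := Nat.exists_prime_and_dvd (n := Nat.card G) (by
          haveI := hG.2.1; exact Finite.one_lt_card.ne')
        haveI := Fact.mk hq
        obtain ⟨P⟩ : Nonempty (Sylow q G) := inferInstance
        exact pgroup_ne_top hG P.2 (hM.2 _ (by
          rw [h, bot_lt_iff_ne_bot]
          exact fun e => hq.ne_one (Nat.dvd_one.mp (card_bot (G := G) ▸ e ▸ P.dvd_card_of_dvd_card hd))))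
      intro e
      refine sigmaCore_ne_bot hG hM hM1 (eq_bot_iff.mpr fun z hz => e.le ⟨hz, mem_centralizer_iff.mpr fun a ha => ?_⟩)
      rw [mem_bot.mp ha, one_mul, mul_one]
    · obtain ⟨hC, -, -⟩ := kappa_structure hG hM hK hK1
      obtain ⟨k, hk, hk1⟩ := (bot_or_exists_ne_one K).resolve_left hK1
      obtain ⟨q, hq, hqd⟩ := Nat.exists_prime_and_dvd (fun e => hk1 (orderOf_eq_one_iff.mp e))
      haveI := Fact.mk hq
      obtain ⟨E₀, hE₀⟩ := UPart.exists_compl hG hM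
      obtain ⟨E, hE, hKE⟩ := UPart.exists_compl_ge_of_sigma' hG hM hE₀ hK.1 fun r hr hd => (hK.2.1 r hr hd).2.2.1
      have hqK := hqd.trans (K.orderOf_dvd_natCard hk)
      set a := k ^ (orderOf k / q) with ha
      have hao : orderOf a = q := orderOf_pow_orderOf_div (orderOf_pos k).ne' hqd
      have h := (kappa_line hG hM hE (hK.2.1 q hq hqK)).2 (zpowers a) (zpowers_le.2 (hKE (K.pow_mem hk _)))
        (by rw [Nat.card_zpowers, hao])
      rwa [centralizer_zpowers, hC a (K.pow_mem hk _) (fun e => hq.ne_one (by rw [← hao, e, orderOf_one]))] at h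
  · obtain ⟨hC, -, hX⟩ := kappa_structure hG hM hK hK1
    obtain ⟨q, hq, hqd⟩ := Nat.exists_prime_and_dvd (fun e => hk1 (orderOf_eq_one_iff.mp e))
    set a := k ^ (orderOf k / q) with ha
    have hao : orderOf a = q := orderOf_pow_orderOf_div (orderOf_pos k).ne' hqd
    refine le_antisymm ?_ ?_
    · rw [← (hX (zpowers a) (zpowers_le.2 (K.pow_mem hk _)) (by rw [Nat.card_zpowers, hao]; exact hq)).1]
      refine inf_le_inf_left M (le_trans (fun c hc => ?_) (centralizer_le_normalizer _))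
      rw [centralizer_zpowers]
      exact mem_centralizer_singleton_iff.mpr ((show Commute c k from mem_centralizer_singleton_iff.mp hc).pow_right _).eq
    · refine sup_le (le_inf hK.1 fun b hb => mem_centralizer_singleton_iff.mpr ?_)
        (le_inf (inf_le_left.trans (map_subtype_le _)) (inf_le_right.trans (centralizer_le (Set.singleton_subset_iff.mpr hk))))
      exact congrArg Subtype.val ((IsCyclic.commGroup (α := K)).mul_comm (⟨b, hb⟩ : K) ⟨k, hk⟩)

end Cfsg.Agent.Lib.OddLocal.Decomposition
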