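import Cfsg.Agent.Lib.OddLocal.Signalizer
set_option autoImplicit false

/-! BG 14.4: the structure of `C_G(x)` for `x ∈ M_σ`, given BG 13.9 and BG 14.2. -/

namespace Cfsg.Agent.Lib.OddLocal.Support

open Subgroup
open scoped Pointwise commutatorElement
open Cfsg.Agent.Lib.Uniq

universe u

variable {G : Type u} [Group G] [Finite G] {M : Subgroup G}

/-- A prime of `τ₂(H)` is outside `κ(H)`. -/
theorem tau2_not_kappa {H : Subgroup G} {q : ℕ} [hq : Fact q.Prime] (hτ : q ∈ tau2 H) : q ∉ kappa H := by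
  intro hκ
  obtain ⟨B, hBH, hB, hBc⟩ := elem_of_not_pRankLE hτ.2.2.2
  exact not_isCyclic_of_sq_le hB hBc.ge (KappaStar.isCyclic_of_kappa hκ (elem_isPGroup hB) hBH)

theorem le_of_mem {H : Subgroup G} {x : G} (h : x ∈ H) : zpowers x ≤ H := zpowers_le.2 h

/-- A nilpotent `M_σ` is `M_F`. -/
theorem fittingHallOf_eq_sigmaCore (hG : IsMinSimpleOddOrder G) (hM : IsCoatom M)
    (hnil : Group.IsNilpotent (sigmaCore M)) : fittingHallOf M = sigmaCore M := by
  refine le_antisymm (Signalizer.fittingHallOf_le_sigmaCore hG hM) (map_mono (le_sSup ⟨inferInstance, ?_, ?_⟩))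
  · haveI : Group.IsNilpotent ↥((piCore (sigma M) ↥M).map M.subtype) := hnil
    exact Group.nilpotent_of_mulEquiv
      ((piCore (sigma M) ↥M).equivMapOfInjective M.subtype M.subtype_injective).symm
  · refine Nat.coprime_of_dvd fun r hr h1 h2 => ?_
    haveI := Fact.mk hr
    refine (sigmaCore_hall hG hM (OddLocal.piCore_isPi (sigma M) r hr h1)).1 ?_
    rwa [sigmaCore, relIndex, subgroupOf, comap_map_eq_self_of_injective M.subtype_injective]

variable (hG : IsMinSimpleOddOrder G)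
variable (hdisj : ∀ A B : Subgroup G, IsCoatom A → IsCoatom B → ∀ p : ℕ, p ∈ sigma A → p ∈ sigma B →
      ∃ g : G, B = MulAut.conj g • A)
variable (h30 : ∀ A : Subgroup G, IsCoatom A → ∀ K : Subgroup G, IsPiHallOf (kappa A) K A → K ≠ ⊥ →
      (∀ k ∈ K, k ≠ 1 → sigmaCore A ⊓ centralizer ({k} : Set G) = sigmaCore A ⊓ centralizer (K : Set G)) ∧
      (∃ U : Subgroup G, IsMulCommutative U ∧ IsPiHallOf {q | q.Prime ∧ q ∉ kappa A ∧ q ∉ sigma A} U A ∧
        K ≤ normalizer (U : Set G) ∧ ∀ k ∈ K, k ≠ 1 → U ⊓ centralizer ({k} : Set G) = ⊥) ∧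
      ∀ X : Subgroup G, X ≤ K → (Nat.card X).Prime →
        A ⊓ normalizer (X : Set G) = K ⊔ (sigmaCore A ⊓ centralizer (K : Set G)))

include hG hdisj h30

/-- BG 14.4 for `C_G(x) ⊄ M`. -/
theorem support_data (hM : IsCoatom M) {x : G} (hx : x ∈ sigmaCore M) (hx1 : x ≠ 1)
    (hxM : ¬ centralizer ({x} : Set G) ≤ M) :
    ∃ N : Subgroup G, (IsCoatom N ∧ centralizer ({x} : Set G) ≤ N) ∧
      (∀ L : Subgroup G, IsCoatom L → centralizer ({x} : Set G) ≤ L → L = N) ∧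
      Group.IsNilpotent (sigmaCore N) ∧ sigmaCore N = fittingHallOf N ∧
      centralizer ({x} : Set G) ≤ normalizer ((sigmaCore N ⊓ centralizer ({x} : Set G) : Subgroup G) : Set G) ∧
      IsComplIn (M ⊓ centralizer ({x} : Set G)) (sigmaCore N ⊓ centralizer ({x} : Set G)) (centralizer ({x} : Set G)) ∧
      IsComplIn (M ⊓ N) (sigmaCore N) N ∧
      (∀ p : ℕ, p.Prime → p ∣ orderOf x → p ∈ tau2 N ∧ p ∉ kappa N) := by
  obtain ⟨p, hp, hpd⟩ := Nat.exists_prime_and_dvd (fun h => hx1 (orderOf_eq_one_iff.mp h))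
  haveI := Fact.mk hp
  have hσM : sigmaCore M ≤ M := map_subtype_le _
  set y := x ^ (orderOf x / p) with hy'
  have hy : orderOf y = p := orderOf_pow_orderOf_div (orderOf_pos x).ne' hpd
  have hpσ : p ∈ sigma M := OddLocal.piCoreOf_isPi (sigma M) M p hp
    (hpd.trans ((sigmaCore M).orderOf_dvd_natCard hx))
  set Y := zpowers y with hY
  have hYp : IsPGroup p Y := IsPGroup.of_card (n := 1) (by rw [hY, Nat.card_zpowers, hy, pow_one])
  have hY1 : Y ≠ ⊥ := zpowers_ne_bot.2 fun h => hp.ne_one (by rw [← hy]; exact orderOf_eq_one_iff.mpr h)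
  have hYM : Y ≤ M := zpowers_le.2 (M.pow_mem (hσM hx) _)
  obtain ⟨H, hH, hNH⟩ := exists_coatom_ge (minSimple_normalizer_ne_top hG hY1 (pgroup_ne_top hG hYp))
  have hCyH : centralizer ({y} : Set G) ≤ H := by
    rw [← centralizer_zpowers]
    exact (centralizer_le_normalizer _).trans hNH
  have hCxH : centralizer ({x} : Set G) ≤ H := fun c hc => hCyH <| mem_centralizer_singleton_iff.mpr
    ((show Commute c x from mem_centralizer_singleton_iff.mp hc).pow_right _).eq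
  have hne : H ≠ M := fun e => hxM (e ▸ hCxH)
  have hxH : x ∈ H := hCxH (mem_centralizer_singleton_iff.mpr rfl)
  obtain ⟨R, hYR, hR⟩ := Finite.exists_le_maximal
    (p := fun Q : Subgroup G => IsPGroup p Q ∧ Q ≤ M ⊓ H) (a := Y)
    ⟨hYp, le_inf hYM (zpowers_le.2 (H.pow_mem hxH _))⟩
  obtain ⟨hnc, hNR, hRH⟩ := sylow_inter_props hG hM hpσ hYp hY1 hYM hH hne hNH hR.prop.1 hR.prop.2 hYR
    fun Q hQ hQI hRQ => (hR.eq_of_ge ⟨hQ, hQI⟩ hRQ)
  obtain ⟨S, hS⟩ := (hR.prop.1.comap_subtype (K := H)).exists_le_sylow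
  have hSR : (S : Subgroup H).map H.subtype = R := hRH _ (S.2.map _) (map_subtype_le _)
    fun r hr => ⟨⟨r, (hR.prop.2 hr).2⟩, hS hr, rfl⟩
  obtain ⟨W, -, hWn, hW, -, hcase⟩ := exists_factor hG hM hH hpσ hnc hY1 hNH S (hSR ▸ hYR)
    (hSR ▸ (hR.prop.2.trans inf_le_left)) (hSR ▸ hNR)
  have hno : ∀ r : ℕ, r ∈ sigma M → r ∉ sigma H := fun r h1 h2 =>
    (hdisj M H hM hH r h1 h2).elim fun g hg => hnc g hg
  rcases hcase with ⟨h, -⟩ | ⟨hτ, rfl⟩
  · exact absurd h (hno p hpσ)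
  -- an elementary abelian subgroup of order `p²` in `M ⊓ H`
  obtain ⟨B, hBH, hB, hBc⟩ := elem_of_not_pRankLE hτ.2.2.2
  obtain ⟨T, hT⟩ := ((elem_isPGroup hB).comap_subtype (K := H)).exists_le_sylow
  obtain ⟨m, hm⟩ := MulAction.exists_smul_eq ↥H T S
  have hAR : MulAut.conj (m : G) • B ≤ R := by
    rintro _ ⟨b, hb, rfl⟩
    rw [← hSR]
    refine ⟨m * ⟨b, hBH hb⟩ * m⁻¹, ?_, rfl⟩
    rw [← hm]
    exact ⟨⟨b, hBH hb⟩, hT hb, rfl⟩
  have hHσH : sigmaCore H ≤ H := map_subtype_le _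
  have hHn : H ≤ normalizer (sigmaCore H : Set G) := OddLocal.le_normalizer_piCoreOf (sigma H) H
  have hbot : sigmaCore H ⊓ M = ⊥ := sigmaCore_inf_eq_bot hG hH hτ.2.1
    ((hAR.trans hR.prop.2).trans inf_le_right) (elem_of_conj _ hB) (by rw [Coprime.card_conj_smul, hBc])
    hM hne.symm ((hAR.trans hR.prop.2).trans inf_le_left)
  obtain ⟨XB, hXB⟩ := exists_exc hG hH hτ.2.1 hBH hB hBc
  have hnil := hXB.sigmaCore_nilpotent hG
  have hcompH : IsComplIn (M ⊓ H) (sigmaCore H) H := by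
    refine ⟨inf_le_right, hHσH, le_bot_iff.mp (le_trans (inf_comm _ _).le ((inf_le_inf_left _ inf_le_left).trans hbot.le)),
      fun z hz => ?_⟩
    obtain ⟨a, ha, b, hb, e⟩ := (Coprime.mem_sup_of_le_normalizer (inf_le_right.trans hHn)).mp (hW.ge hz)
    exact ⟨a, ha, b, hb, e.symm⟩
  set C := centralizer ({x} : Set G) with hC
  have hCn : C ≤ normalizer ((sigmaCore H ⊓ C : Subgroup G) : Set G) :=
    (le_inf (hCxH.trans hHn) le_normalizer).trans inf_normalizer_le_normalizer_inf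
  -- the decomposition of the centralizer
  have hdec : ∀ c ∈ C, ∃ a ∈ M ⊓ C, ∃ b ∈ sigmaCore H ⊓ C, c = a * b := by
    intro c hc
    obtain ⟨a, ha, b, hb, e⟩ := hcompH.2.2.2 c (hCxH hc)
    have hcc : x * c = c * x := (mem_centralizer_singleton_iff.mp hc).symm
    have h1 : a⁻¹ * x * a * x⁻¹ ∈ sigmaCore H := by
      have e2 : a⁻¹ * x * a * x⁻¹ = b * (x * b⁻¹ * x⁻¹) := by
        have hac : a = c * b⁻¹ := by rw [e]; group
        rw [hac]
        calc (c * b⁻¹)⁻¹ * x * (c * b⁻¹) * x⁻¹ = b * c⁻¹ * (x * c) * b⁻¹ * x⁻¹ := by group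
          _ = b * (x * b⁻¹ * x⁻¹) := by rw [hcc]; group
      rw [e2]
      exact mul_mem hb ((mem_normalizer_iff.mp (hHn hxH) _).mp (inv_mem hb))
    have h2 : a⁻¹ * x * a * x⁻¹ ∈ sigmaCore H ⊓ M :=
      ⟨h1, M.mul_mem (M.mul_mem (M.mul_mem (M.inv_mem ha.1) (hσM hx)) ha.1) (M.inv_mem (hσM hx))⟩
    rw [hbot, mem_bot, mul_inv_eq_one, mul_assoc, inv_mul_eq_iff_eq_mul] at h2
    have haC : a ∈ C := mem_centralizer_singleton_iff.mpr h2.symm
    refine ⟨a, ⟨ha.1, haC⟩, b, ⟨hb, ?_⟩, e⟩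
    have hb' : b = a⁻¹ * c := by rw [e, inv_mul_cancel_left]
    rw [hb']; exact C.mul_mem (C.inv_mem haC) hc
  have hcompC : IsComplIn (M ⊓ C) (sigmaCore H ⊓ C) C :=
    ⟨inf_le_right, inf_le_right, le_bot_iff.mp ((le_inf (inf_le_right.trans inf_le_left)
      (inf_le_left.trans inf_le_left)).trans hbot.le), hdec⟩
  -- every prime of `x` lies in `τ₂(H)`
  obtain ⟨a, ha, ha1⟩ := (bot_or_exists_ne_one (sigmaCore H ⊓ C)).resolve_left fun e => hxM fun c hc => by
    obtain ⟨a, ha, b, hb, he⟩ := hdec c hc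
    rw [e, mem_bot] at hb
    rw [he, hb, mul_one]; exact ha.1
  have hxprime : ∀ r : ℕ, r.Prime → r ∣ orderOf x → r ∉ sigma H := fun r hr hd =>
    hno r (OddLocal.piCoreOf_isPi (sigma M) M r hr (hd.trans ((sigmaCore M).orderOf_dvd_natCard hx)))
  have hxa : x ∈ H ⊓ centralizer ({a} : Set G) :=
    ⟨hxH, mem_centralizer_singleton_iff.mpr (mem_centralizer_singleton_iff.mp ha.2).symm⟩
  rcases SigmaPrimeElem.sigma_prime_element hG hH (h30 H hH) ha.1 ha1 hxa hx1 hxprime with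
    ⟨hκ, -⟩ | ⟨hτx, -, -, huniq⟩
  · exact absurd (hκ p hp hpd) (tau2_not_kappa hτ)
  refine ⟨H, ⟨hH, hCxH⟩, huniq, hnil, (fittingHallOf_eq_sigmaCore hG hH hnil).symm, hCn, hcompC, hcompH,
    fun r hr hd => ⟨hτx r hr hd, ?_⟩⟩
  haveI := Fact.mk hr
  exact tau2_not_kappa (hτx r hr hd)

/-- BG 14.4: the normal complement `R` of `C_M(x)` and its sharp transitivity. -/
theorem centralizer_complement (hM : IsCoatom M) {x : G} (hx : x ∈ sigmaCore M) (hx1 : x ≠ 1) :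
    (Nat.card ↥(M ⊓ centralizer ({x} : Set G))).Coprime
        ((M ⊓ centralizer ({x} : Set G)).relIndex (centralizer ({x} : Set G))) ∧
      ∃ R : Subgroup G, centralizer ({x} : Set G) ≤ normalizer (R : Set G) ∧
        IsComplIn (M ⊓ centralizer ({x} : Set G)) R (centralizer ({x} : Set G)) ∧
        ∀ g : G, x ∈ M.map (MulAut.conj g).toMonoidHom →
          ∃! r : G, r ∈ R ∧ M.map (MulAut.conj r).toMonoidHom = M.map (MulAut.conj g).toMonoidHom := by
  set C := centralizer ({x} : Set G) with hC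
  obtain ⟨R, hRn, hcomp, hcop⟩ : ∃ R : Subgroup G, C ≤ normalizer (R : Set G) ∧ IsComplIn (M ⊓ C) R C ∧
      (Nat.card ↥(M ⊓ C)).Coprime (Nat.card R) := by
    by_cases hxM : C ≤ M
    · exact ⟨⊥, fun c _ => by rw [normalizer_eq_top]; trivial,
        ⟨inf_le_right, bot_le, inf_bot_eq _, fun c hc => ⟨c, ⟨hxM hc, hc⟩, 1, one_mem _, (mul_one c).symm⟩⟩,
        by simp⟩
    · obtain ⟨N, ⟨hN, hCN⟩, -, -, -, hn, hcomp, hcompN, -⟩ := support_data hG hdisj h30 hM hx hx1 hxM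
      refine ⟨_, hn, hcomp, Nat.coprime_of_dvd fun r hr h1 h2 => ?_⟩
      have hrσ := OddLocal.piCoreOf_isPi (sigma N) N r hr (h2.trans (card_dvd_of_le inf_le_left))
      haveI := Fact.mk hr
      -- `M ⊓ N` has order prime to `σ(N)`
      refine (sigmaCore_hall hG hN hrσ).1 ?_
      rw [← (compl_card hcompN).2]
      exact h1.trans (card_dvd_of_le (inf_le_inf_left M hCN))
  refine ⟨?_, R, hRn, hcomp, ?_⟩
  · haveI : (R.subgroupOf C).Normal := (normal_subgroupOf_iff_le_normalizer hcomp.2.1).mpr hRn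
    have hc : IsComplement' ((M ⊓ C).subgroupOf C) (R.subgroupOf C) := by
      refine isComplement'_of_disjoint_and_mul_eq_univ ?_ ?_
      · rw [disjoint_iff, eq_bot_iff]
        intro z hz
        exact Subtype.ext (mem_bot.mp (hcomp.2.2.1 ▸ (⟨hz.1, hz.2⟩ : (z : G) ∈ (M ⊓ C) ⊓ R)))
      · ext z
        simp only [Set.mem_univ, iff_true]
        obtain ⟨a, ha, b, hb, e⟩ := hcomp.2.2.2 z z.2
        exact ⟨⟨a, hcomp.1 ha⟩, ha, ⟨b, hcomp.2.1 hb⟩, hb, Subtype.ext e.symm⟩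
    rwa [relIndex, hc.symm.index_eq_card, Coprime.card_subgroupOf hcomp.2.1]
  · intro g hg
    have hσM : sigmaCore M ≤ M := map_subtype_le _
    have hgx : g⁻¹ * x * g ∈ M := by
      obtain ⟨w, hw, he⟩ := hg
      rw [← he]; simpa [mul_assoc] using hw
    obtain ⟨m, hm, c, hc, hgc⟩ := SigmaPrimeElem.exists_mul_centralizer hG hM hx (g := g⁻¹) (by simpa using hgx)
    have hgeq : g = c⁻¹ * m⁻¹ := by rw [← mul_inv_rev, ← hgc, inv_inv]
    -- write `c = a b`
    obtain ⟨a, ha, b, hb, hab⟩ := hcomp.2.2.2 c hc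
    have hMg : M.map (MulAut.conj g).toMonoidHom = MulAut.conj b⁻¹ • M := by
      change MulAut.conj g • M = _
      rw [hgeq, hab, mul_inv_rev, map_mul, map_mul, mul_smul, mul_smul,
        Coprime.conj_smul_eq_self (le_normalizer (M.inv_mem hm)),
        Coprime.conj_smul_eq_self (le_normalizer (M.inv_mem ha.1))]
    refine ⟨b⁻¹, ⟨R.inv_mem hb, hMg.symm⟩, ?_⟩
    rintro r ⟨hr, he⟩
    rw [hMg] at he
    change MulAut.conj r • M = MulAut.conj b⁻¹ • M at he
    have hbr : b * r ∈ normalizer (M : Set G) := Coprime.mem_normalizer_of_conj_smul_eq (by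
      rw [map_mul, mul_smul, he, ← mul_smul, ← map_mul, mul_inv_cancel, map_one, one_smul])
    rw [S1404_normalizer hG hM] at hbr
    have h1 : b * r ∈ (M ⊓ C) ⊓ R := ⟨⟨hbr, hcomp.2.1 (R.mul_mem hb hr)⟩, R.mul_mem hb hr⟩
    rw [hcomp.2.2.1, mem_bot] at h1
    exact eq_inv_of_mul_eq_one_right h1
where
  S1404_normalizer (hG : IsMinSimpleOddOrder G) {M : Subgroup G} (hM : IsCoatom M) :
      normalizer (M : Set G) = M := by
    refine (hM.le_iff.mp le_normalizer).resolve_left ?_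
    by_cases h : M = ⊥
    · exfalso
      obtain ⟨q, hq, hd⟩ := Nat.exists_prime_and_dvd (n := Nat.card G) (by
        haveI := hG.2.1; exact Finite.one_lt_card.ne')
      haveI := Fact.mk hq
      obtain ⟨P⟩ : Nonempty (Sylow q G) := inferInstance
      exact pgroup_ne_top hG P.2 (hM.2 _ (by
        rw [h, bot_lt_iff_ne_bot]
        exact fun e => hq.ne_one (Nat.dvd_one.mp (card_bot (G := G) ▸ e ▸ P.dvd_card_of_dvd_card hd))))
    · exact minSimple_normalizer_ne_top hG h hM.1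

end Cfsg.Agent.Lib.OddLocal.Support
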