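import Cfsg.Prelude.Def_OddOrderLocal
import Cfsg.Agent.Lib.Uniq.Fitting

set_option autoImplicit false

/-! `M_F` is a nilpotent Hall subgroup; basic facts about subgroups of type P. -/

namespace Cfsg.Agent.Lib.OddLocal

open Subgroup
open Cfsg.Agent.Lib

universe u

variable {G : Type u} [Group G] [Finite G]

/-- `M_F` is normal, nilpotent and a Hall subgroup. -/
theorem fittingHall_mem (M : Type u) [Group M] [Finite M] :
    (Cfsg.fittingHall M).Normal ∧ Group.IsNilpotent (Cfsg.fittingHall M) ∧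
      (Nat.card (Cfsg.fittingHall M)).Coprime (Cfsg.fittingHall M).index := by
  let S := {N : Subgroup M | N.Normal ∧ Group.IsNilpotent N ∧ (Nat.card N).Coprime N.index}
  haveI hbn : Group.IsNilpotent (⊥ : Subgroup M) := ⟨0, Subsingleton.elim _ _⟩
  have hne : S.Nonempty := ⟨⊥, normal_bot, hbn, by simp⟩
  obtain ⟨N, hN, hmax⟩ := (Set.toFinite S).exists_maximal hne
  suffices h : Cfsg.fittingHall M = N by rw [h]; exact hN
  refine le_antisymm (sSup_le fun K hK => ?_) (le_sSup hN)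
  obtain ⟨hKn, hKnil, hKc⟩ := hK
  obtain ⟨hNn, hNnil, hNc⟩ := hN
  haveI := hKn
  haveI := hNn
  have hcard : Nat.card ↥(N ⊔ K) ∣ Nat.card K * Nat.card N := by
    rw [← card_mul_index (K.subgroupOf (N ⊔ K)),
      Nat.card_congr (subgroupOfEquivOfLe le_sup_right).toEquiv]
    refine mul_dvd_mul_left _ ?_
    show K.relIndex (N ⊔ K) ∣ _
    rw [relIndex_sup_right]
    exact relIndex_dvd_card K N
  have hmem : N ⊔ K ∈ S := by
    refine ⟨inferInstance, ?_, ?_⟩
    · haveI := Hall.fittingSubgroup_isNilpotent (G := M)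
      have hle : N ⊔ K ≤ fittingSubgroup M :=
        sup_le (Hall.le_fittingSubgroup hNnil) (Hall.le_fittingSubgroup hKnil)
      exact Group.nilpotent_of_mulEquiv (subgroupOfEquivOfLe hle)
    · exact (Nat.Coprime.mul_left (hKc.coprime_dvd_right (index_dvd_of_le le_sup_right))
        (hNc.coprime_dvd_right (index_dvd_of_le le_sup_left))).coprime_dvd_left hcard
  exact le_sup_right.trans (hmax hmem le_sup_left)

omit [Finite G] in
theorem fittingHallOf_le (M : Subgroup G) : Cfsg.fittingHallOf M ≤ M := map_subtype_le _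

theorem coprime_fittingHallOf_relIndex (M : Subgroup G) :
    (Nat.card (Cfsg.fittingHallOf M)).Coprime ((Cfsg.fittingHallOf M).relIndex M) := by
  rw [Cfsg.fittingHallOf, card_map_of_injective M.subtype_injective, relIndex, subgroupOf,
    comap_map_eq_self_of_injective M.subtype_injective]
  exact (fittingHall_mem M).2.2

omit [Finite G] in
theorem card_compl {A B M : Subgroup G} (h : Cfsg.IsComplIn A B M) :
    Nat.card B = A.relIndex M := by
  obtain ⟨hA, hB, hAB, hM⟩ := h
  refine Nat.card_congr (Equiv.ofBijective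
    (fun b : B => (QuotientGroup.mk (s := A.subgroupOf M) (⟨(b : G)⁻¹, M.inv_mem (hB b.2)⟩ : M))) ⟨?_, ?_⟩)
  · intro b c hbc
    have h := mem_subgroupOf.mp (QuotientGroup.eq.mp hbc)
    simp only [Subgroup.coe_mul, Subgroup.coe_inv, inv_inv] at h
    have h2 : (b : G) * (c : G)⁻¹ ∈ A ⊓ B := ⟨h, mul_mem b.2 (B.inv_mem c.2)⟩
    rw [hAB, mem_bot, mul_inv_eq_one] at h2
    exact Subtype.ext h2
  · intro q
    obtain ⟨⟨m, hm⟩, rfl⟩ := QuotientGroup.mk_surjective q
    obtain ⟨a, ha, b, hb, he⟩ := hM m⁻¹ (M.inv_mem hm)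
    refine ⟨⟨b, hb⟩, QuotientGroup.eq.mpr (mem_subgroupOf.mpr ?_)⟩
    simp only [Subgroup.coe_mul, Subgroup.coe_inv, inv_inv]
    have : b * m = a⁻¹ := by
      rw [← inv_inv m, he]; group
    exact this ▸ A.inv_mem ha

variable {M W₁ U W₂ : Subgroup G}

theorem typeP_coprime (hP : Cfsg.IsTypePWith M W₁ U W₂) :
    (Nat.card (Cfsg.fittingHallOf M)).Coprime (Nat.card U) := by
  refine (coprime_fittingHallOf_relIndex M).coprime_dvd_right ?_
  rw [card_compl hP.U_compl, ← relIndex_mul_relIndex _ _ _ hP.U_compl.1 (commutator_le_self M)]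
  exact dvd_mul_right _ _

/-- The normal subgroup `M'` is a Hall subgroup of `M`. -/
theorem typeP_derived_hall (hP : Cfsg.IsTypePWith M W₁ U W₂) :
    (Nat.card ↥⁅M, M⁆).Coprime (⁅M, M⁆.relIndex M) := by
  have hW : W₁ ≤ M := hP.W₁_compl.2.1
  have h1 := relIndex_mul_relIndex ⊥ _ _ bot_le hW
  have h2 := relIndex_mul_relIndex ⊥ _ _ bot_le (commutator_le_self M)
  rw [relIndex_bot_left] at h1 h2
  rw [← card_compl hP.W₁_compl] at h2 ⊢
  have h3 : Nat.card ↥⁅M, M⁆ = W₁.relIndex M :=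
    Nat.eq_of_mul_eq_mul_left Nat.card_pos ((mul_comm _ _).trans (h2.trans h1.symm))
  rw [h3]
  exact hP.W₁_hall.symm

/-- `F(M) = M_F C_U(M_F)`. -/
theorem typeP_fitting_eq (hP : Cfsg.IsTypePWith M W₁ U W₂) :
    Cfsg.fittingOf M =
      Cfsg.fittingHallOf M ⊔ (U ⊓ centralizer (Cfsg.fittingHallOf M : Set G)) := by
  have hUM : U ≤ M := hP.U_compl.2.1.trans (commutator_le_self M)
  refine le_antisymm ?_ ?_
  · rw [← hP.fitting_eq]
    refine sup_le le_sup_left fun c hc => ?_
    have hcF : c ∈ ⁅M, M⁆ := hP.fitting_le (hP.fitting_eq ▸ mem_sup_right hc)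
    obtain ⟨h, hh, u, hu, rfl⟩ := hP.U_compl.2.2.2 c hcF
    refine mul_mem (mem_sup_left hh) (mem_sup_right ⟨hu, ?_⟩)
    set n := Nat.card (Cfsg.fittingHallOf M)
    have hcomm : Commute h (h * u) := (mem_centralizer_iff.mp hc.2 h hh)
    have hu' : u = h⁻¹ * (h * u) := by group
    have hhn : h ^ n = 1 := congrArg Subtype.val (pow_card_eq_one' (x := (⟨h, hh⟩ : Cfsg.fittingHallOf M)))
    have hun : u ^ n ∈ centralizer (Cfsg.fittingHallOf M : Set G) := by
      rw [hu', (hcomm.inv_left).mul_pow, inv_pow, hhn, inv_one, one_mul]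
      exact pow_mem hc.2 n
    have hco : (orderOf u).Coprime n :=
      ((typeP_coprime hP).coprime_dvd_right (U.orderOf_dvd_natCard hu)).symm
    obtain ⟨k, hk⟩ := exists_pow_eq_self_of_coprime hco.symm
    exact hk ▸ pow_mem hun k
  · rw [← hP.fitting_eq]
    exact sup_le_sup le_rfl (inf_le_inf hUM le_rfl)

/-- `U'` centralizes `M_F`, and `U` does not unless it is trivial. -/
theorem typeP_derived_compl (hP : Cfsg.IsTypePWith M W₁ U W₂) :
    ⁅U, U⁆ ≤ centralizer (Cfsg.fittingHallOf M : Set G) ∧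
      (U ≠ ⊥ → ¬ U ≤ centralizer (Cfsg.fittingHallOf M : Set G)) := by
  have hUD : U ≤ ⁅M, M⁆ := hP.U_compl.2.1
  have hHU : ⁅M, M⁆ ≤ Cfsg.fittingHallOf M ⊔ U := fun c hc => by
    obtain ⟨h, hh, u, hu, rfl⟩ := hP.U_compl.2.2.2 c hc
    exact mul_mem (mem_sup_left hh) (mem_sup_right hu)
  constructor
  · intro x hx
    have hxF : x ∈ Cfsg.fittingHallOf M ⊔ (U ⊓ centralizer (Cfsg.fittingHallOf M : Set G)) := by
      rw [← typeP_fitting_eq hP, ← hP.fitting_eq]
      exact hP.derived_two_le (commutator_mono hUD hUD hx)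
    have hxU : x ∈ U := commutator_le_self U hx
    set H := Cfsg.fittingHallOf M with hH
    have hn : U ⊓ centralizer (H : Set G) ≤ normalizer (H : Set G) :=
      inf_le_right.trans (centralizer_le_normalizer _)
    rw [← SetLike.mem_coe, coe_mul_of_right_le_normalizer_left _ _ hn] at hxF
    obtain ⟨h, hh, v, hv, rfl⟩ := hxF
    have h1 : h ∈ H ⊓ U := ⟨hh, by
      have := mul_mem hxU (U.inv_mem hv.1)
      simpa using this⟩
    rw [hP.U_compl.2.2.1, mem_bot] at h1
    subst h1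
    simpa using hv.2
  · intro hne hle
    apply hne
    have hDF : ⁅M, M⁆ = Cfsg.fittingOf M := le_antisymm
      (hHU.trans (by rw [typeP_fitting_eq hP, inf_eq_left.2 hle])) hP.fitting_le
    have hnil : Group.IsNilpotent ↥⁅M, M⁆ := hDF ▸ Uniq.fittingOf_nilpotent M
    have hDH : ⁅M, M⁆ ≤ Cfsg.fittingHallOf M := by
      rw [← map_subgroupOf_eq_of_le (commutator_le_self M), Cfsg.fittingHallOf]
      refine map_mono (le_sSup ⟨?_, ?_, ?_⟩)
      · rw [hDF, Cfsg.fittingOf, subgroupOf, comap_map_eq_self_of_injective M.subtype_injective]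
        infer_instance
      · exact Group.nilpotent_of_mulEquiv (subgroupOfEquivOfLe (commutator_le_self M)).symm
      · rw [Nat.card_congr (subgroupOfEquivOfLe (commutator_le_self M)).toEquiv]
        exact typeP_derived_hall hP
    exact eq_bot_iff.2 (hP.U_compl.2.2.1 ▸ le_inf (hUD.trans hDH) le_rfl)

end Cfsg.Agent.Lib.OddLocal
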