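import Cfsg.Agent.Lib.OddLocal.FrobeniusPGroup
import Cfsg.Agent.Lib.OddLocal.Decomposition
import Cfsg.Agent.Lib.OddLocal.TypeP
import Cfsg.Agent.Lib.OddLocal.Support
import Cfsg.Agent.Lib.FPF.FrobeniusKernel
import Cfsg.Agent.Lib.Uniq.Beta
import Cfsg.Agent.S1373
import Cfsg.Agent.S1417
import Cfsg.Agent.S1445
set_option autoImplicit false

/-! BG 15.2: the structure of `M` when `M_F ≠ M_σ`. -/

namespace Cfsg.Agent.Lib.OddLocal.Fcore

open Subgroup
open scoped Pointwise commutatorElement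
open Cfsg.Agent.Lib.Uniq

universe u

variable {G : Type u} [Group G] [Finite G] {M K U : Subgroup G}

/-- An element of prime power order of a normal nilpotent subgroup lies in the `p`-core. -/
theorem mem_pCore_of_nilpotent {X : Type u} [Group X] [Finite X] {p n : ℕ} [Fact p.Prime] {F : Subgroup X}
    [F.Normal] (hF : Group.IsNilpotent F) {x : X} (hx : x ∈ F) (hxp : x ^ p ^ n = 1) : x ∈ pCore p X := by
  obtain ⟨P⟩ : Nonempty (Sylow p F) := inferInstance
  haveI : (P : Subgroup F).Characteristic := P.characteristic_of_normal inferInstance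
  haveI : (P : Subgroup F).Normal := inferInstance
  haveI : ((P : Subgroup F).map F.subtype).Normal := ConjAct.normal_of_characteristic_of_normal
  refine Hall.le_pCore (P.2.map F.subtype) ⟨⟨x, hx⟩, ?_, rfl⟩
  have hP : IsPGroup p (zpowers (⟨x, hx⟩ : F)) := IsPGroup.iff_card.mpr (by
    rw [Nat.card_zpowers, orderOf_mk]
    obtain ⟨k, -, hk⟩ := (Nat.dvd_prime_pow Fact.out).mp (orderOf_dvd_of_pow_eq_one hxp)
    exact ⟨k, hk⟩)
  obtain ⟨g, hg⟩ := hP.exists_le_sylow
  have : g = P := Sylow.ext (by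
    obtain ⟨a, ha⟩ := MulAction.exists_smul_eq F P g
    rw [← ha, Sylow.smul_eq_of_normal])
  exact this ▸ hg (mem_zpowers _)

/-- `M_σ` is nilpotent when a `σ(M)'`-element of prime order of `M` acts freely on it. -/
theorem nilpotent_of_free {x : G} (hxM : x ∈ M) {r : ℕ} (hr : r.Prime) (hxr : x ^ r = 1)
    (hfree : ∀ y ∈ sigmaCore M, x * y = y * x → y = 1) : Group.IsNilpotent (sigmaCore M) := by
  haveI : ((sigmaCore M).subgroupOf M).Normal := (normal_subgroupOf_iff_le_normalizer (map_subtype_le _)).mpr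
    (OddLocal.le_normalizer_piCoreOf (sigma M) M)
  haveI : Group.IsNilpotent ((sigmaCore M).subgroupOf M) :=
    FPF.isNilpotent_of_prime_element (h := (⟨x, hxM⟩ : M)) hr (Subtype.ext hxr) fun y hy h =>
      Subtype.ext (hfree y hy (congrArg Subtype.val h))
  exact Group.nilpotent_of_mulEquiv (subgroupOfEquivOfLe (map_subtype_le _))

/-- `M_F ≠ M_σ`: `M` has no `τ₂`-primes and `U = 1`. -/
theorem basic (hG : IsMinSimpleOddOrder G) (hM : IsCoatom M) (hKU : IsSigmaDecomposition M K U)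
    (hne : fittingHallOf M ≠ sigmaCore M) :
    ¬ Group.IsNilpotent (sigmaCore M) ∧ U = ⊥ ∧ K ≠ ⊥ ∧ IsComplIn K (sigmaCore M) M ∧
      ⁅M, M⁆ = sigmaCore M := by
  have hnil : ¬ Group.IsNilpotent (sigmaCore M) := fun h =>
    hne (Support.fittingHallOf_eq_sigmaCore hG hM h)
  have hτ : ∀ p, p ∉ tau2 M := by
    intro p hp
    haveI := Fact.mk hp.1
    obtain ⟨A, hAM, hA, hAc⟩ := elem_of_not_pRankLE hp.2.2.2
    exact hnil (Cfsg.Agent.S1417.result hG M hM p hp A ⟨hAM, hA, hAc⟩).1
  have hU : U = ⊥ := by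
    by_contra hU
    obtain ⟨r, hr, hrd⟩ := Nat.exists_prime_and_dvd (fun h => hU (U.eq_bot_of_card_eq h))
    haveI := Fact.mk hr
    obtain ⟨x, hx⟩ := exists_prime_orderOf_dvd_card' r hrd
    refine hnil (nilpotent_of_free (hKU.compl.1 x.2) hr (by
      rw [← hx, ← Subgroup.orderOf_coe, pow_orderOf_eq_one]) fun y hy hxy => ?_)
    by_contra hy1
    refine hτ r (UPart.tau2_of_sigmaHat hG hM hKU x.2 hy hy1 hxy r hr ?_)
    rw [Subgroup.orderOf_coe, hx]
  subst hU
  have hKσ : K ≤ M := hKU.hall.1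
  have hcompl : IsComplIn K (sigmaCore M) M := by
    refine ⟨hKσ, map_subtype_le _, ?_, fun m hm => ?_⟩
    · refine Coprime.inf_eq_bot_of_coprime (Nat.coprime_of_dvd fun r hr h1 h2 => ?_)
      exact (hKU.hall.2.1 r hr h1).2.2.1 (OddLocal.piCoreOf_isPi (sigma M) M r hr h2)
    · obtain ⟨a, ha, b, hb, rfl⟩ := hKU.compl.2.2.2 m hm
      obtain ⟨k, hk, s, hs, rfl⟩ := (Coprime.mem_sup_of_le_normalizer
        (hKσ.trans (OddLocal.le_normalizer_piCoreOf (sigma M) M))).mp hb
      exact ⟨k, hk, s, hs, by rw [mem_bot.mp ha, one_mul]⟩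
  have hK1 : K ≠ ⊥ := by
    rintro rfl
    have hσ : sigmaCore M = M := le_antisymm (map_subtype_le _) fun m hm => by
      obtain ⟨a, ha, b, hb, rfl⟩ := hcompl.2.2.2 m hm
      rwa [mem_bot.mp ha, one_mul]
    have hM' : ⁅M, M⁆ = M := le_antisymm (commutator_le_self M) (hσ.ge.trans (sigmaCore_le_derived hG hM))
    haveI := solvable_of_ne_top hG hM.1
    rcases eq_or_ne M ⊥ with rfl | hM1
    · exact hnil (by rw [hσ]; infer_instance)
    · haveI := (nontrivial_iff_ne_bot M).mpr hM1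
      refine (Group.IsSolvable.commutator_lt_top_of_nontrivial M).ne (map_injective M.subtype_injective ?_)
      rw [map_subtype_commutator, hM', ← MonoidHom.range_eq_map, range_subtype]
  refine ⟨hnil, rfl, hK1, hcompl, ?_⟩
  rw [Decomposition.derived_eq hG hM hKU hK1, bot_sup_eq]

/-- The conclusions of BG 15.2 about the normal Sylow subgroup `Q`. -/
structure Structure (M K : Subgroup G) (q : ℕ) (Q : Subgroup G) : Prop where
  prime : q.Prime
  card_star : Nat.card ↥(sigmaCore M ⊓ centralizer (K : Set G)) = q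
  card_K : (Nat.card K).Prime
  le_sigma : Q ≤ sigmaCore M
  norm : M ≤ normalizer (Q : Set G)
  pgroup : IsPGroup q Q
  hall : ¬ q ∣ Q.relIndex (sigmaCore M)
  le_fitting : Q ≤ fittingHallOf M
  star_le : sigmaCore M ⊓ centralizer (K : Set G) ≤ Q
  dvd : q ∣ Nat.card (fittingHallOf M)
  beta : q ∈ Cfsg.beta M
  exists_data : ∃ D : Subgroup G, IsComplIn Q D (sigmaCore M) ∧ FrobeniusPGroup.Data q Q D K

theorem le_normalizer_of_compl {A B X : Subgroup G} (h : IsComplIn A B X) {H : Subgroup G}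
    (hA : A ≤ normalizer (H : Set G)) (hB : B ≤ normalizer (H : Set G)) : X ≤ normalizer (H : Set G) := fun x hx => by
  obtain ⟨a, ha, b, hb, rfl⟩ := h.2.2.2 x hx
  exact mul_mem (hA ha) (hB hb)

theorem exists_structure (hG : IsMinSimpleOddOrder G) (hM : IsCoatom M) (hKU : IsSigmaDecomposition M K U)
    (hne : fittingHallOf M ≠ sigmaCore M) : ∃ q Q, Structure M K q Q := by
  obtain ⟨hnil, hU, hK1, hKS, hD⟩ := basic hG hM hKU hne
  set S := sigmaCore M with hS
  set q := Nat.card ↥(S ⊓ centralizer (K : Set G)) with hqdef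
  have hqp : q.Prime := Cfsg.Agent.S1373.result hG M hM K U hKU hK1 hU
  haveI := Fact.mk hqp
  have hpr : ∀ k ∈ K, k ≠ 1 → S ⊓ centralizer ({k} : Set G) = S ⊓ centralizer (K : Set G) :=
    (kappa_structure hG hM hKU.hall hK1).1
  have hSM : S ≤ M := map_subtype_le _
  have hMS : M ≤ normalizer (S : Set G) := OddLocal.le_normalizer_piCoreOf (sigma M) M
  have hcopKS : (Nat.card K).Coprime (Nat.card S) := coprime_sigmaCore_compl hG hM hKS
  haveI hsolM : Group.IsSolvable M := solvable_of_ne_top hG hM.1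
  have hsolS : Group.IsSolvable S := solvable_of_ne_top hG (ne_top_of_le hM hSM)
  have hKM : K ≤ M := hKU.hall.1
  set S' := S.subgroupOf M with hS'
  set K' := K.subgroupOf M with hK'
  haveI hSn : S'.Normal := (normal_subgroupOf_iff_le_normalizer hSM).mpr hMS
  -- the `q`-core
  set Q := (pCore q ↥M).map M.subtype with hQ
  have hQM : Q ≤ M := map_subtype_le _
  have hMQ : M ≤ normalizer (Q : Set G) := by
    have h := le_normalizer_map (H := pCore q ↥M) M.subtype
    rwa [normalizer_eq_top, ← MonoidHom.range_eq_map, range_subtype] at h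
  have hQp : IsPGroup q Q := (Hall.isPGroup_pCore q).map _
  have hqS : q ∣ Nat.card S := card_dvd_of_le (inf_le_left : S ⊓ centralizer (K : Set G) ≤ S)
  have hqσ : q ∈ sigma M := OddLocal.piCoreOf_isPi (sigma M) M q hqp hqS
  have hQS : Q ≤ S := by
    refine OddLocal.le_piCoreOf hQM hMQ fun r hr hd => ?_
    rw [isPGroup_ne_dvd hQp hr hd]
    exact hqσ
  -- `K*` lies in the `q`-core
  have hstar : S ⊓ centralizer (K : Set G) ≤ Q := by
    by_contra hnle
    have hodd : Odd (Nat.card M) := odd_card hG M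
    have htop : S' ⊔ K' = ⊤ := eq_top_iff.mpr fun m _ => by
      obtain ⟨a, ha, b, hb, he⟩ := hKS.2.2.2 m m.2
      rw [show m = ⟨a, hKM ha⟩ * ⟨b, hSM hb⟩ from Subtype.ext he]
      exact mul_mem (mem_sup_right ha) (mem_sup_left hb)
    have hcop' : (Nat.card S').Coprime (Nat.card K') := by
      rw [Coprime.card_subgroupOf hSM, Coprime.card_subgroupOf hKM]; exact hcopKS.symm
    have hcent : ∀ (T : Subgroup G), T ≤ M → ∀ y : M, y ∈ centralizer ((T.subgroupOf M : Subgroup M) : Set M) ↔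
        (y : G) ∈ centralizer (T : Set G) := fun T hT y =>
      ⟨fun h => mem_centralizer_iff.mpr fun t ht => congrArg Subtype.val (mem_centralizer_iff.mp h ⟨t, hT ht⟩ ht),
        fun h => mem_centralizer_iff.mpr fun t ht => Subtype.ext (mem_centralizer_iff.mp h t ht)⟩
    have h := Cfsg.Agent.S1445.result hodd S' K' htop hcop' (fun x hx hx1 => ?_) ?_
    · refine hnil ?_
      have hcomm : ⁅S', K'⁆ = S' := by
        refine map_injective M.subtype_injective ?_
        rw [map_commutator, map_subgroupOf_eq_of_le hSM, map_subgroupOf_eq_of_le hKM]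
        exact commutator_sigmaCore_compl hG hM hKS
      haveI : Group.IsNilpotent (fittingSubgroup ↥S') := Hall.fittingSubgroup_isNilpotent
      haveI : Group.IsNilpotent (fittingOf S') := Group.nilpotent_of_mulEquiv
        ((fittingSubgroup ↥S').equivMapOfInjective _ S'.subtype_injective)
      have hle : S' ≤ fittingOf S' := hcomm.ge.trans h
      haveI : Group.IsNilpotent S' := Group.nilpotent_of_mulEquiv (subgroupOfEquivOfLe hle)
      exact Group.nilpotent_of_mulEquiv (subgroupOfEquivOfLe hSM)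
    · ext y
      constructor
      · rintro ⟨hy, hc⟩
        have h1 : (y : G) ∈ S ⊓ centralizer ({(x : G)} : Set G) :=
          ⟨hy, mem_centralizer_singleton_iff.mpr (congrArg Subtype.val (mem_centralizer_singleton_iff.mp hc))⟩
        rw [hpr x hx fun e => hx1 (Subtype.ext e)] at h1
        exact ⟨hy, (hcent K hKM y).mpr h1.2⟩
      · rintro ⟨hy, hc⟩
        exact ⟨hy, mem_centralizer_singleton_iff.mpr (mem_centralizer_iff.mp hc x hx).symm⟩
    · rw [eq_bot_iff]
      rintro y ⟨hyF, hyc⟩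
      by_contra hy1
      rw [mem_bot] at hy1
      haveI : Group.IsNilpotent (fittingSubgroup ↥S') := Hall.fittingSubgroup_isNilpotent
      haveI : Group.IsNilpotent (fittingOf S') := Group.nilpotent_of_mulEquiv
        ((fittingSubgroup ↥S').equivMapOfInjective _ S'.subtype_injective)
      haveI : (fittingOf S').Normal := by
        haveI : (fittingSubgroup ↥S').Characteristic := Hall.fittingSubgroup_characteristic
        exact ConjAct.normal_of_characteristic_of_normal
      have hyC : (y : G) ∈ S ⊓ centralizer (K : Set G) := ⟨(map_subtype_le _ hyF : y ∈ S'), (hcent K hKM y).mp hyc⟩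
      have hyq : (y : G) ^ q ^ 1 = 1 := by
        rw [pow_one]
        exact congrArg Subtype.val (pow_card_eq_one' (x := (⟨y, hyC⟩ : ↥(S ⊓ centralizer (K : Set G)))))
      refine hnle ?_
      have hyQ : (y : G) ∈ Q := mem_map_of_mem M.subtype
        (mem_pCore_of_nilpotent (F := fittingOf S') inferInstance hyF (n := 1) (Subtype.ext hyq))
      have hz : zpowers (y : G) = S ⊓ centralizer (K : Set G) := by
        refine eq_of_le_of_card_ge (zpowers_le.2 hyC) ?_
        rw [Nat.card_zpowers, orderOf_eq_prime (by rwa [pow_one] at hyq) (fun e => hy1 (Subtype.ext e))]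
      exact hz ▸ zpowers_le.2 hyQ
  -- `K` acts freely on `M_σ / Q`
  set π := QuotientGroup.mk' (pCore q ↥M)
  have hQ' : ∀ m : M, π m = 1 ↔ (m : G) ∈ Q := fun m =>
    ⟨fun h => mem_map_of_mem M.subtype ((QuotientGroup.eq_one_iff m).mp h),
      fun h => (QuotientGroup.eq_one_iff m).mpr ((Subgroup.mem_map_iff_mem M.subtype_injective).mp h)⟩
  haveI hNn : (S'.map π).Normal := hSn.map π (QuotientGroup.mk'_surjective _)
  obtain ⟨k, hk, hk1⟩ := (bot_or_exists_ne_one K).resolve_left hK1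
  obtain ⟨r, hr, hrd⟩ := Nat.exists_prime_and_dvd (fun e => hk1 (orderOf_eq_one_iff.mp e))
  set a := k ^ (orderOf k / r) with hadef
  have hao : orderOf a = r := orderOf_pow_orderOf_div (orderOf_pos k).ne' hrd
  have haK : a ∈ K := K.pow_mem hk _
  have ha1 : a ≠ 1 := fun e => hr.ne_one (by rw [← hao, e, orderOf_one])
  have hnilbar : Group.IsNilpotent (S'.map π) := by
    refine FPF.isNilpotent_of_prime_element (h := π ⟨a, hKM haK⟩) hr ?_ ?_
    · rw [← map_pow, show (⟨a, hKM haK⟩ : M) ^ r = 1 from Subtype.ext (by simp [← hao, pow_orderOf_eq_one]), map_one]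
    · rintro _ ⟨s, hs, rfl⟩ hcomm
      obtain ⟨c, hc, hcs⟩ := Coprime.exists_centralizer_mem_coset (A := zpowers a) (N := Q) (k := (s : G))
        ((zpowers_le.2 (hKM haK)).trans hMQ)
        ((hcopKS.coprime_dvd_left (card_dvd_of_le (zpowers_le.2 haK))).coprime_dvd_right (card_dvd_of_le hQS))
        (Or.inl inferInstance) fun b hb => by
          obtain ⟨n, rfl⟩ := mem_zpowers_iff.mp hb
          have h : π (s⁻¹ * (⟨a, hKM haK⟩ ^ n * s * ((⟨a, hKM haK⟩ : M) ^ n)⁻¹)) = 1 := by
            rw [map_mul, map_mul, map_mul, map_inv, map_inv, map_zpow,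
              ((show Commute _ _ from hcomm).zpow_left n).eq, mul_inv_cancel_right, inv_mul_cancel]
          exact (hQ' _).mp h
      have hcS : c ∈ S := by
        have h : (s : G) * ((s : G)⁻¹ * c) ∈ S := S.mul_mem hs (hQS hcs)
        rwa [mul_inv_cancel_left] at h
      have hcK : c ∈ Q := hstar (by
        rw [← hpr a haK ha1]
        exact ⟨hcS, mem_centralizer_singleton_iff.mpr (mem_centralizer_iff.mp hc a (mem_zpowers a)).symm⟩)
      refine (hQ' s).mpr ?_
      rw [show (s : G) = c * ((s : G)⁻¹ * c)⁻¹ by group]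
      exact Q.mul_mem hcK (Q.inv_mem hcs)
  have hqbar : ¬ q ∣ Nat.card (S'.map π) := by
    intro hd
    obtain ⟨x, hx⟩ := exists_prime_orderOf_dvd_card' q hd
    have hx1 : (x : ↥M ⧸ pCore q ↥M) ∈ pCore q (↥M ⧸ pCore q ↥M) :=
      mem_pCore_of_nilpotent hnilbar x.2 (n := 1) (by
        rw [pow_one, ← SubgroupClass.coe_pow, orderOf_dvd_iff_pow_eq_one.mp hx.dvd, OneMemClass.coe_one])
    have hple : (pCore q (↥M ⧸ pCore q ↥M)).comap π ≤ pCore q ↥M :=
      Hall.le_pCore ((Hall.isPGroup_pCore q).comap_of_ker_isPGroup π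
        (by rw [QuotientGroup.ker_mk']; exact Hall.isPGroup_pCore q))
    obtain ⟨y, hy⟩ := QuotientGroup.mk'_surjective (pCore q ↥M) (x : ↥M ⧸ pCore q ↥M)
    have hyQ : y ∈ pCore q ↥M := hple (show π y ∈ _ from hy.symm ▸ hx1)
    refine hqp.ne_one (hx.symm.trans (orderOf_eq_one_iff.mpr (Subtype.ext ?_)))
    rw [← hy]
    exact (QuotientGroup.eq_one_iff y).mpr hyQ
  have hcardS : Nat.card (S'.map π) * Nat.card Q = Nat.card S := by
    have hle : pCore q ↥M ≤ S' := fun m hm => hQS (mem_map_of_mem M.subtype hm)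
    rw [← Coprime.card_subgroupOf hSM, ← Coprime.card_map_mul_card_inf_ker π S', QuotientGroup.ker_mk',
      inf_eq_right.mpr hle, hQ, card_map_of_injective M.subtype_injective]
  have hhall : ¬ q ∣ Q.relIndex S := by
    have h := Hall.card_mul_relIndex' hQS
    rw [← hcardS, mul_comm (Nat.card _) (Nat.card Q)] at h
    rwa [Nat.eq_of_mul_eq_mul_left Nat.card_pos h]
  have hQF : Q ≤ fittingHallOf M := by
    refine map_mono (le_sSup ⟨inferInstance, (Hall.isPGroup_pCore q).isNilpotent, ?_⟩)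
    refine Nat.coprime_of_dvd fun t ht h1 h2 => ?_
    haveI := Fact.mk ht
    rw [isPGroup_ne_dvd (Hall.isPGroup_pCore q) ht h1] at h2
    have h3 : q ∣ Q.relIndex S * S.relIndex M := by
      rw [relIndex_mul_relIndex _ _ _ hQS hSM, relIndex, hQ, subgroupOf,
        comap_map_eq_self_of_injective M.subtype_injective]
      exact h2
    exact ((Nat.Prime.dvd_mul hqp).mp h3).elim hhall (sigmaCore_hall hG hM hqσ).1
  have hqQ : q ∣ Nat.card Q := card_dvd_of_le hstar
  have hqF : q ∣ Nat.card (fittingHallOf M) := hqQ.trans (card_dvd_of_le hQF)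
  -- a `K`-invariant complement
  have hcopQ : (Nat.card (Q.subgroupOf S)).Coprime (Q.subgroupOf S).index := by
    rw [Coprime.card_subgroupOf hQS]
    obtain ⟨n, hn⟩ := IsPGroup.iff_card.mp hQp
    rw [hn]
    exact ((hqp.coprime_iff_not_dvd).mpr hhall).pow_left n
  haveI : (Q.subgroupOf S).Normal := (normal_subgroupOf_iff_le_normalizer hQS).mpr (hSM.trans hMQ)
  obtain ⟨D₀, hD₀⟩ := exists_right_complement'_of_coprime hcopQ
  have hSK : K ≤ normalizer (S : Set G) := hKM.trans hMS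
  set D₁ := D₀.map S.subtype with hD₁
  have hsolS' := hsolS
  have hconjS : ∀ c ∈ K, ∃ s ∈ S, MulAut.conj c • D₁ = MulAut.conj s • D₁ := by
    intro c hc
    have hle : MulAut.conj c • D₁ ≤ D₁ ⊔ Q := by
      refine le_trans (le_trans (pointwise_smul_le_pointwise_smul_iff.mpr (map_subtype_le D₀))
        (Coprime.conj_smul_eq_self (hSK hc)).le) fun x hx => ?_
      obtain ⟨⟨u, v⟩, huv, -⟩ := hD₀.existsUnique ⟨x, hx⟩
      rw [show x = (u : S) * (v : S) from (congrArg Subtype.val huv).symm]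
      exact mul_mem (mem_sup_right u.2) (mem_sup_left (mem_map_of_mem _ v.2))
    obtain ⟨s, hs, hse⟩ := Coprime.exists_conj_eq_of_le_sup ((map_subtype_le D₀).trans (hSM.trans hMQ))
      (by
        rw [card_map_of_injective S.subtype_injective, ← hD₀.symm.index_eq_card, ← Coprime.card_subgroupOf hQS]
        exact hcopQ.symm)
      (Or.inr (by haveI := hQp.isNilpotent; infer_instance)) hle (Coprime.card_conj_smul _ _)
    exact ⟨s, hQS hs, hse.symm⟩
  obtain ⟨s, hs, hKD⟩ := Coprime.exists_invariant_conj hSK hcopKS (Or.inr hsolS) D₁ hconjS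
  set D := MulAut.conj s • D₁ with hDdef
  have hDS : D ≤ S := le_trans (pointwise_smul_le_pointwise_smul_iff.mpr (map_subtype_le D₀))
    (Coprime.conj_smul_eq_self (le_normalizer hs)).le
  have hQD : Q ⊓ D = ⊥ := by
    refine Coprime.inf_eq_bot_of_coprime ?_
    rw [Coprime.card_conj_smul, card_map_of_injective S.subtype_injective, ← hD₀.symm.index_eq_card,
      ← Coprime.card_subgroupOf hQS]
    exact hcopQ
  have hcomplD : IsComplIn Q D S := by
    refine ⟨hQS, hDS, hQD, fun x hx => ?_⟩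
    have hx' : s⁻¹ * x * s ∈ S := S.mul_mem (S.mul_mem (S.inv_mem hs) hx) hs
    obtain ⟨⟨u, v⟩, huv, -⟩ := hD₀.existsUnique ⟨_, hx'⟩
    refine ⟨s * (u : S) * s⁻¹, (mem_normalizer_iff.mp (hMQ (hSM hs)) _).mp u.2, s * (v : S) * s⁻¹,
      Coprime.conj_mem_conj_smul (mem_map_of_mem _ v.2), ?_⟩
    rw [show x = s * (s⁻¹ * x * s) * s⁻¹ by group,
      show s⁻¹ * x * s = (u : S) * (v : S) from (congrArg Subtype.val huv).symm]
    group
  have hdata : FrobeniusPGroup.Data q Q D K := by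
    have hfx : Q ⊓ centralizer (K : Set G) = S ⊓ centralizer (K : Set G) :=
      le_antisymm (inf_le_inf_right _ hQS) (le_inf hstar inf_le_right)
    refine ⟨hQp, hK1, sup_le (hDS.trans (hSM.trans hMQ)) (hKM.trans hMQ),
      fun c hc d hd => (mem_normalizer_iff.mp (hKD hc) d).mp hd, fun c hc hc1 d hd hcd => ?_, ?_,
      by rw [hfx], fun c hc hc1 => ?_, fun hle => ?_⟩
    · have h : d ∈ S ⊓ centralizer ({c} : Set G) := ⟨hDS hd, mem_centralizer_singleton_iff.mpr hcd.symm⟩
      rw [hpr c hc hc1] at h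
      exact mem_bot.mp (hQD.le ⟨hstar h, hd⟩)
    · rw [sup_comm D K, Coprime.card_sup_of_coprime hKD
        (hcopKS.coprime_dvd_right (card_dvd_of_le hDS))]
      refine Nat.Coprime.mul_right (hcopKS.coprime_dvd_right (card_dvd_of_le hQS)).symm ?_
      obtain ⟨n, hn⟩ := IsPGroup.iff_card.mp hQp
      rw [hn]
      refine ((hqp.coprime_iff_not_dvd).mpr fun h => ?_).pow_left n
      obtain ⟨y, hy⟩ := exists_prime_orderOf_dvd_card' q h
      have hyQ : (y : G) ∈ Q := by
        have : (⟨y, hSM (hDS y.2)⟩ : M) ∈ S' := hDS y.2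
        refine (hQ' ⟨y, hSM (hDS y.2)⟩).mp ?_
        by_contra hne1
        refine hqbar ?_
        have ho : orderOf (π ⟨y, hSM (hDS y.2)⟩) = q := by
          refine orderOf_eq_prime ?_ hne1
          have hy' : (y : G) ^ q = 1 := by
            rw [← SubgroupClass.coe_pow, orderOf_dvd_iff_pow_eq_one.mp hy.dvd, OneMemClass.coe_one]
          rw [← map_pow, show (⟨(y : G), hSM (hDS y.2)⟩ : M) ^ q = 1 from Subtype.ext hy', map_one]
        exact ho.symm.dvd.trans ((S'.map π).orderOf_dvd_natCard (mem_map_of_mem π this))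
      refine hqp.ne_one (hy.symm.trans (orderOf_eq_one_iff.mpr (Subtype.ext ?_)))
      exact mem_bot.mp (hQD.le ⟨hyQ, y.2⟩)
    · rw [hfx]
      exact le_antisymm ((inf_le_inf_right _ hQS).trans (hpr c hc hc1).le)
        (le_inf hstar (inf_le_right.trans (centralizer_le (Set.singleton_subset_iff.mpr hc))))
    · -- `D` centralizing `Q` makes `M_σ` nilpotent
      refine hnil ?_
      have hDn : S ≤ normalizer (D : Set G) := le_normalizer_of_compl hcomplD (fun x hx => by
        refine mem_normalizer_iff.mpr fun d => ⟨fun hd => ?_, fun hd => ?_⟩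
        · rwa [(mem_centralizer_iff.mp (hle hd) x hx), mul_inv_cancel_right]
        · have h := mem_centralizer_iff.mp (hle hd) x hx
          rw [show d = x * d * x⁻¹ from ?_]; exact hd
          calc d = x⁻¹ * (x * d * x⁻¹ * x) := by group
            _ = x⁻¹ * (x * (x * d * x⁻¹)) := by rw [h]
            _ = x * d * x⁻¹ := by group) le_normalizer
      haveI : (D.subgroupOf S).Normal := (normal_subgroupOf_iff_le_normalizer hDS).mpr hDn
      have hDnil : Group.IsNilpotent (D.subgroupOf S) := by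
        haveI := hnilbar
        have hDM : D ≤ M := hDS.trans hSM
        let f : D.subgroupOf S →* S'.map π :=
          { toFun := fun d => ⟨π ⟨(d : S), hSM (d : S).2⟩, mem_map_of_mem π (d : S).2⟩
            map_one' := Subtype.ext (map_one π)
            map_mul' := fun a b => Subtype.ext (map_mul π ⟨(a : S), hSM (a : S).2⟩ ⟨(b : S), hSM (b : S).2⟩) }
        refine Group.nilpotent_of_mulEquiv (MonoidHom.ofInjective (f := f) ((injective_iff_map_eq_one f).mpr fun d hd => ?_)).symm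
        refine Subtype.ext (Subtype.ext (mem_bot.mp (hQD.le ⟨(hQ' _).mp (congrArg Subtype.val hd), d.2⟩)))
      haveI : Group.IsNilpotent (Q.subgroupOf S) := (hQp.of_equiv (subgroupOfEquivOfLe hQS).symm).isNilpotent
      have htop : fittingSubgroup ↥S = ⊤ := eq_top_iff.mpr fun x _ => by
        obtain ⟨u, hu, v, hv, he⟩ := hcomplD.2.2.2 x x.2
        rw [show x = ⟨u, hQS hu⟩ * ⟨v, hDS hv⟩ from Subtype.ext he]
        exact mul_mem (Hall.le_fittingSubgroup (N := Q.subgroupOf S) inferInstance hu)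
          (Hall.le_fittingSubgroup (N := D.subgroupOf S) hDnil hv)
      haveI := Hall.fittingSubgroup_isNilpotent (G := ↥S)
      rw [← Group.isNilpotent_top, ← htop]; infer_instance
  -- `q ∈ β(M)`
  have hβ : q ∈ Cfsg.beta M := by
    by_contra hβ
    obtain ⟨P, N, hN, hNP⟩ := normalPComplement_derived hG hM (hqS.trans (card_dvd_of_le hSM)) hβ
      (sigmaCore_le_derived hG hM : S ≤ ⁅M, M⁆)
    haveI := hN
    refine hdata.act fun d hd => mem_centralizer_iff.mpr fun x hx => ?_
    have hdN : (⟨d, hDS hd⟩ : S) ∈ N := by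
      have hq : Nat.card (↥S ⧸ N) = Nat.card (P : Subgroup S) := by rw [← index_eq_card, hNP.symm.index_eq_card]
      have h1 : (orderOf (QuotientGroup.mk' N (⟨d, hDS hd⟩ : S))).Coprime (Nat.card (↥S ⧸ N)) := by
        refine Nat.Coprime.coprime_dvd_left (orderOf_map_dvd _ _) ?_
        obtain ⟨n, hn⟩ := IsPGroup.iff_card.mp P.2
        rw [hq, hn, orderOf_mk]
        refine (((hqp.coprime_iff_not_dvd).mpr fun h => ?_).pow_left n).symm
        have h2 := h.trans (D.orderOf_dvd_natCard hd)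
        obtain ⟨m, hm⟩ := IsPGroup.iff_card.mp hQp
        have hm0 : m ≠ 0 := fun e => hqp.ne_one (Nat.dvd_one.mp (by rw [hm, e, pow_zero] at hqQ; exact hqQ))
        exact hqp.ne_one (Nat.eq_one_of_dvd_coprimes (hdata.cop.coprime_dvd_right (card_dvd_of_le le_sup_left))
          hqQ h2)
      exact (QuotientGroup.eq_one_iff _).mp (orderOf_eq_one_iff.mp (Nat.eq_one_of_dvd_coprimes h1
        dvd_rfl (_root_.orderOf_dvd_natCard _)))
    have hc : ⁅(⟨x, hQS hx⟩ : S), ⟨d, hDS hd⟩⁆ ∈ N ⊓ Q.subgroupOf S := by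
      refine ⟨N.mul_mem ((hN.conj_mem _ hdN _)) (N.inv_mem hdN), ?_⟩
      rw [commutatorElement_def, mul_assoc, mul_assoc, ← mul_assoc (⟨d, hDS hd⟩ : S)]
      exact mul_mem hx ((Subgroup.Normal.conj_mem inferInstance _ ((Q.subgroupOf S).inv_mem hx) _))
    have hNQ : N ⊓ Q.subgroupOf S = ⊥ := by
      refine Coprime.inf_eq_bot_of_coprime (Nat.coprime_of_dvd fun t ht h1 h2 => ?_)
      rw [Coprime.card_subgroupOf hQS] at h2
      rw [isPGroup_ne_dvd hQp ht h2] at h1
      exact P.not_dvd_index (h1.trans (hNP.index_eq_card).symm.dvd)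
    rw [hNQ, mem_bot, commutatorElement_eq_one_iff_mul_comm] at hc
    exact congrArg Subtype.val hc
  exact ⟨q, Q, hqp, rfl, FrobeniusPGroup.prime_card hdata, hQS, hMQ, hQp, hhall, hQF, hstar, hqF, hβ, D,
    hcomplD, hdata⟩

/-- The consequences for every complement of `Q`. -/
theorem Structure.compl {q : ℕ} {Q : Subgroup G} (hG : IsMinSimpleOddOrder G) (hM : IsCoatom M)
    (hKU : IsSigmaDecomposition M K U) (hne : fittingHallOf M ≠ sigmaCore M) (h : Structure M K q Q)
    {D : Subgroup G} (hD : IsComplIn Q D (sigmaCore M)) :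
    Group.IsNilpotent D ∧ M ≤ normalizer ((Q ⊓ centralizer (D : Set G) : Subgroup G) : Set G) ∧
      Q ⊓ centralizer (D : Set G) < Q ∧
      Nat.card Q = Nat.card ↥(Q ⊓ centralizer (D : Set G)) * q ^ Nat.card K ∧
      powCommSub q Q ≤ Q ⊓ centralizer (D : Set G) ∧ ⁅D, D⁆ ≤ centralizer (Q : Set G) ∧
      ∀ N : Subgroup G, Q ⊓ centralizer (D : Set G) < N → N < Q → ¬ M ≤ normalizer (N : Set G) := by
  haveI := Fact.mk h.prime
  obtain ⟨D₀, hD₀, hd⟩ := h.exists_data
  obtain ⟨-, -, -, hKS, -⟩ := basic hG hM hKU hne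
  have hSM : sigmaCore M ≤ M := map_subtype_le _
  -- `D` is conjugate to `D₀` by an element of `Q`
  have hle : D ≤ D₀ ⊔ Q := fun x hx => by
    obtain ⟨a, ha, b, hb, rfl⟩ := hD₀.2.2.2 x (hD.2.1 hx)
    exact mul_mem (mem_sup_right ha) (mem_sup_left hb)
  have hcop : (Nat.card D₀).Coprime (Nat.card Q) := (hd.cop.coprime_dvd_right (card_dvd_of_le le_sup_left)).symm
  have hcard : Nat.card D = Nat.card D₀ := by
    rw [card_compl hD, card_compl hD₀]
  obtain ⟨m, hm', hne'⟩ := Coprime.exists_conj_eq_of_le_sup (hD₀.2.1.trans (hSM.trans h.norm)) hcop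
    (Or.inr (by haveI := h.pgroup.isNilpotent; infer_instance)) hle hcard
  obtain ⟨n, rfl⟩ : ∃ n, m = n⁻¹ := ⟨m⁻¹, (inv_inv m).symm⟩
  have hn : n ∈ Q := inv_mem_iff.mp hm'
  have hDeq : D = MulAut.conj n⁻¹ • D₀ := hne'.symm
  have hn' : n⁻¹ ∈ Q := Q.inv_mem hn
  have hQ0n : M ≤ normalizer ((Q ⊓ centralizer (D₀ : Set G) : Subgroup G) : Set G) :=
    le_normalizer_of_compl hKS (le_sup_right.trans (FrobeniusPGroup.le_normalizer_fixed hd))
      (le_normalizer_of_compl hD₀ (FrobeniusPGroup.normal_fixed hd)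
        (le_sup_left.trans (FrobeniusPGroup.le_normalizer_fixed hd)))
  have hfix : Q ⊓ centralizer (D : Set G) = Q ⊓ centralizer (D₀ : Set G) := by
    have hm : MulAut.conj n⁻¹ • (Q ⊓ centralizer (D₀ : Set G)) = Q ⊓ centralizer (D₀ : Set G) :=
      Coprime.conj_smul_eq_self (hQ0n ((h.le_sigma.trans hSM) hn'))
    refine le_antisymm (fun x hx => ?_) fun x hx => ⟨hx.1, ?_⟩
    · rw [← hm]
      refine Coprime.mem_conj_smul.mpr ⟨?_, mem_centralizer_iff.mpr fun d hd' => ?_⟩
      · exact Q.mul_mem (Q.mul_mem (Q.inv_mem hn') hx.1) hn'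
      · have hd2 : n⁻¹ * d * n⁻¹⁻¹ ∈ D := hDeq.ge (Coprime.conj_mem_conj_smul hd')
        have h2 := mem_centralizer_iff.mp hx.2 _ hd2
        calc d * (n⁻¹⁻¹ * x * n⁻¹) = n⁻¹⁻¹ * (n⁻¹ * d * n⁻¹⁻¹ * x) * n⁻¹ := by group
          _ = n⁻¹⁻¹ * x * n⁻¹ * d := by rw [h2]; group
    · rw [← hm] at hx
      have hx2 := (Coprime.mem_conj_smul.mp hx).2
      refine mem_centralizer_iff.mpr fun d hd' => ?_
      have hd2 : n⁻¹⁻¹ * d * n⁻¹ ∈ D₀ := Coprime.mem_conj_smul.mp (hDeq.le hd')
      have h2 := mem_centralizer_iff.mp hx2 _ hd2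
      calc d * x = n⁻¹ * ((n⁻¹⁻¹ * d * n⁻¹) * (n⁻¹⁻¹ * x * n⁻¹)) * n⁻¹⁻¹ := by group
        _ = x * d := by rw [h2]; group
  haveI hD₀n : Group.IsNilpotent D₀ := CyclicFix.isNilpotent_kernel D₀ K hd.ne hd.conj hd.free
  refine ⟨?_, ?_, ?_, ?_, ?_, ?_, fun N hN1 hN2 hN3 => ?_⟩
  · rw [hDeq]
    exact Group.nilpotent_of_mulEquiv (equivSMul (MulAut.conj n⁻¹) D₀)
  · rwa [hfix]
  · rw [hfix]; exact FrobeniusPGroup.centralizer_lt hd
  · rw [hfix]; exact FrobeniusPGroup.card_eq hd
  · rw [hfix]; exact FrobeniusPGroup.powComm_le hd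
  · rw [hDeq]
    show ⁅D₀.map (MulAut.conj n⁻¹).toMonoidHom, D₀.map (MulAut.conj n⁻¹).toMonoidHom⁆ ≤ _
    rw [← map_commutator]
    rintro _ ⟨d, hd', rfl⟩
    refine mem_centralizer_iff.mpr fun x hx => ?_
    have h2 := mem_centralizer_iff.mp (FrobeniusPGroup.derived_centralizes hd hd') (n * x * n⁻¹)
      (Q.mul_mem (Q.mul_mem hn hx) (Q.inv_mem hn))
    show x * (n⁻¹ * d * n⁻¹⁻¹) = n⁻¹ * d * n⁻¹⁻¹ * x
    calc x * (n⁻¹ * d * n⁻¹⁻¹) = n⁻¹ * ((n * x * n⁻¹) * d) * n := by group
      _ = n⁻¹ * d * n⁻¹⁻¹ * x := by rw [h2]; group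
  · rw [hfix] at hN1
    have hDK : D₀ ⊔ K ≤ normalizer (N : Set G) :=
      sup_le ((hD₀.2.1.trans hSM).trans hN3) (hKU.hall.1.trans hN3)
    exact (FrobeniusPGroup.eq_or_eq hd hN1.le hN2.le hDK).elim hN1.ne' hN2.ne

end Cfsg.Agent.Lib.OddLocal.Fcore
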