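import Cfsg.Agent.S1426
import Cfsg.Agent.Lib.Uniq.CentralizerSigma
import Cfsg.Agent.Lib.Uniq.NonabelianUnique
import Cfsg.Agent.Lib.Hall.OddRankTwo
import Cfsg.Agent.Lib.Hall.NarrowAction
import Cfsg.Agent.Lib.OddLocal.CyclicSub
set_option autoImplicit false

/-! BG 14.2 (d), (e): the uniqueness of `C_G(y)` for `y` in `K* = C_{M_σ}(K)`. -/

namespace Cfsg.Agent.Lib.OddLocal.KappaStar

open Subgroup
open scoped Pointwise commutatorElement
open Cfsg.Agent.Lib.Uniq

universe u

variable {G : Type u} [Group G] [Finite G] {M K U : Subgroup G}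

theorem inUnique_conj {X : Subgroup G} (h : InUniqueMaximal X) (g : G) :
    InUniqueMaximal (MulAut.conj g • X) := by
  obtain ⟨L, ⟨hL, hXL⟩, hu⟩ := h
  refine ⟨MulAut.conj g • L, ⟨coatom_smul g hL, pointwise_smul_le_pointwise_smul_iff.mpr hXL⟩, ?_⟩
  rintro N ⟨hN, hXN⟩
  have := hu (MulAut.conj g⁻¹ • N) ⟨coatom_smul g⁻¹ hN, by
    rw [map_inv]; exact subset_pointwise_smul_iff.mpr (by simpa using hXN)⟩
  rw [← this, ← mul_smul, ← map_mul, mul_inv_cancel, map_one, one_smul]

/-- `U ⊔ K` is a complement of `M_σ`. -/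
theorem compl_sigma (hG : IsMinSimpleOddOrder G) (hM : IsCoatom M) (hK : IsPiHallOf (kappa M) K M)
    (hU : IsPiHallOf {q | q.Prime ∧ q ∉ kappa M ∧ q ∉ sigma M} U M) (hKU : K ≤ normalizer (U : Set G)) :
    IsComplIn (K ⊔ U) (sigmaCore M) M := by
  have hEM : K ⊔ U ≤ M := sup_le hK.1 hU.1
  have hσM : sigmaCore M ≤ M := map_subtype_le _
  have hEσ : K ⊔ U ≤ normalizer (sigmaCore M : Set G) := hEM.trans (OddLocal.le_normalizer_piCoreOf (sigma M) M)
  have hEπ : ∀ r : ℕ, r.Prime → r ∣ Nat.card ↥(K ⊔ U) → r ∉ sigma M := by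
    intro r hr hd
    have h1 : r ∣ Nat.card K * Nat.card U :=
      hd.trans (Dvd.intro _ (Coprime.card_sup_mul_card_inf_of_le_normalizer hKU))
    rcases (Nat.Prime.dvd_mul hr).mp h1 with h | h
    · exact (hK.2.1 r hr h).2.2.1
    · exact (hU.2.1 r hr h).2.2
  have hcop : (Nat.card ↥(K ⊔ U)).Coprime (Nat.card (sigmaCore M)) :=
    Nat.coprime_of_dvd fun r hr h1 h2 => hEπ r hr h1 (OddLocal.piCoreOf_isPi (sigma M) M r hr h2)
  have htop : (K ⊔ U) ⊔ sigmaCore M = M := by
    refine le_antisymm (sup_le hEM hσM) ?_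
    rw [← relIndex_eq_one, Nat.eq_one_iff_not_exists_prime_dvd]
    intro r hr hd
    haveI := Fact.mk hr
    by_cases hσ : r ∈ sigma M
    · exact (sigmaCore_hall hG hM hσ).1 (hd.trans (relIndex_dvd_of_le_left M le_sup_right))
    by_cases hκ : r ∈ kappa M
    · exact hK.2.2 r hr hκ (hd.trans (relIndex_dvd_of_le_left M (le_sup_left.trans le_sup_left)))
    · exact hU.2.2 r hr ⟨hr, hκ, hσ⟩ (hd.trans (relIndex_dvd_of_le_left M (le_sup_right.trans le_sup_left)))
  refine ⟨hEM, hσM, Coprime.inf_eq_bot_of_coprime hcop, fun m hm => ?_⟩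
  obtain ⟨a, ha, b, hb, e⟩ := (Coprime.mem_sup_of_le_normalizer hEσ).mp (htop.ge hm)
  exact ⟨a, ha, b, hb, e.symm⟩

/-- A `p'`-group `E` of odd order acting on a `p`-group `P` that has rank at most two, or an element of order `p`
with small centralizer: the derived group of `E` acts trivially. -/
theorem derived_centralizes {p : ℕ} [hp : Fact p.Prime] (hp2 : p ≠ 2) {P E : Subgroup G} (hP : IsPGroup p P)
    (hEP : E ≤ normalizer (P : Set G)) (hodd : Odd (Nat.card E)) (hsol : Group.IsSolvable E)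
    (hcop : (Nat.card E).Coprime p) {s : G} (hs : s ∈ P) (hsp : s ^ p = 1)
    (hsmall : PRankLE p 2 ↥(P ⊓ centralizer ({s} : Set G))) : ⁅E, E⁆ ≤ centralizer (P : Set G) := by
  haveI := hsol
  let f : ↥E →* MulAut ↥P := ((P : Subgroup G).normalizerMonoidHom).comp (inclusion hEP)
  have hkey : ∀ d ∈ commutator ↥E, f d = 1 := by
    intro d hd
    obtain ⟨k, hk⟩ : ∃ k : ℕ, f d ^ p ^ k = 1 := by
      by_cases hr : PRankLE p 2 ↥P
      · exact Hall.commutator_act_pPow hp2 hP hr hodd f d hd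
      · obtain ⟨D⟩ := Hall.narrowData_of_small hP hr ⟨s, hs⟩ (Subtype.ext (by simpa using hsp))
          (Hall.prankLE_of_injective (({ toFun := fun x => ⟨((x : ↥P) : G), ⟨(x : ↥P).2,
              mem_centralizer_singleton_iff.mpr (congrArg Subtype.val (mem_centralizer_singleton_iff.mp x.2))⟩⟩
                                         map_one' := rfl
                                         map_mul' := fun _ _ => rfl } :
              ↥(centralizer ({(⟨s, hs⟩ : ↥P)} : Set ↥P)) →* ↥(P ⊓ centralizer ({s} : Set G))))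
            (fun a b h => Subtype.ext (Subtype.ext (congrArg (fun z : ↥(P ⊓ centralizer ({s} : Set G)) => (z : G)) h)))
            hsmall)
        exact Hall.narrowData_act_pPow hp2 hP D f d (Or.inl hd)
    rw [← orderOf_eq_one_iff]
    refine Nat.eq_one_of_dvd_coprimes (hcop.pow_right k) ?_ (orderOf_dvd_of_pow_eq_one hk)
    exact (orderOf_map_dvd f d).trans (orderOf_dvd_natCard d)
  rw [← map_subtype_commutator]
  rintro _ ⟨d, hd, rfl⟩
  refine mem_centralizer_iff.mpr fun x hx => ?_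
  have h := congrArg (fun g : MulAut ↥P => ((g ⟨x, hx⟩ : ↥P) : G)) (hkey d hd)
  simp only [MulAut.one_apply] at h
  have h' : (d : G) * x * (d : G)⁻¹ = x := h
  exact (mul_inv_eq_iff_eq_mul.mp h').symm

/-- A Frobenius kernel `U` lies in the derived group. -/
theorem le_commutator_of_free {k : G} (hk : k ∈ K) (hU : IsMulCommutative U)
    (hKU : K ≤ normalizer (U : Set G)) (hfree : U ⊓ centralizer ({k} : Set G) = ⊥) :
    U ≤ ⁅K ⊔ U, K ⊔ U⁆ := by
  let f : ↥U → ↥U := fun u => ⟨⁅(u : G), k⁆, by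
    rw [commutatorElement_def, mul_assoc (u : G), mul_assoc (u : G)]
    exact U.mul_mem u.2 ((mem_normalizer_iff.mp (hKU hk) _).mp (U.inv_mem u.2))⟩
  have hinj : Function.Injective f := fun u v h => by
    have h' : ⁅(u : G), k⁆ = ⁅(v : G), k⁆ := congrArg Subtype.val h
    simp only [commutatorElement_def] at h'
    have h1 : (v : G)⁻¹ * u * k = k * ((v : G)⁻¹ * u) := by
      have e : (v : G)⁻¹ * u * k = (v : G)⁻¹ * ((u : G) * k * (u : G)⁻¹ * k⁻¹) * k * u := by group
      rw [e, h']; group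
    have h2 : (v : G)⁻¹ * u ∈ U ⊓ centralizer ({k} : Set G) :=
      ⟨U.mul_mem (U.inv_mem v.2) u.2, mem_centralizer_singleton_iff.mpr h1⟩
    rw [hfree, mem_bot, inv_mul_eq_one] at h2
    exact Subtype.ext h2.symm
  intro u hu
  obtain ⟨v, hv⟩ := (Finite.injective_iff_surjective.mp hinj) ⟨u, hu⟩
  rw [show u = ⁅(v : G), k⁆ from (congrArg Subtype.val hv).symm]
  exact commutator_mem_commutator (mem_sup_right v.2) (mem_sup_left hk)

/-- BG 14.2: for an element `y` of order `p` in `C_{M_σ}(K)`, `M` is the only maximal subgroup over `C_G(y)`,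
and the Sylow `p`-subgroups of `M_σ` are uniqueness subgroups. -/
theorem centralizer_unique (hG : IsMinSimpleOddOrder G) (hM : IsCoatom M) (hK : IsPiHallOf (kappa M) K M)
    (hUc : IsMulCommutative U) (hU : IsPiHallOf {q | q.Prime ∧ q ∉ kappa M ∧ q ∉ sigma M} U M)
    (hKU : K ≤ normalizer (U : Set G)) {k : G} (hk : k ∈ K) (hfree : U ⊓ centralizer ({k} : Set G) = ⊥)
    {p : ℕ} [hp : Fact p.Prime] {y : G} (hy : y ∈ sigmaCore M ⊓ centralizer (K : Set G)) (hyp : orderOf y = p)
    (S : Sylow p ↥(sigmaCore M)) :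
    (centralizer ({y} : Set G) ≤ M ∧ ∀ L : Subgroup G, IsCoatom L → centralizer ({y} : Set G) ≤ L → L = M) ∧
      InUniqueMaximal ((S : Subgroup ↥(sigmaCore M)).map (sigmaCore M).subtype) ∧
      (S : Subgroup ↥(sigmaCore M)).map (sigmaCore M).subtype ≤ M := by
  have hσM : sigmaCore M ≤ M := map_subtype_le _
  have hσ : p ∈ sigma M := OddLocal.piCoreOf_isPi (sigma M) M p hp.out
    (hyp ▸ (sigmaCore M).orderOf_dvd_natCard hy.1)
  have hp2 : p ≠ 2 := fun e => hG.1.not_two_dvd_nat (e ▸ hσ.2.1.trans M.card_subgroup_dvd_card)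
  have hy1 : y ≠ 1 := fun e => hp.out.ne_one (by rw [← hyp, e, orderOf_one])
  by_cases hder : y ∈ ⁅sigmaCore M, sigmaCore M⁆
  · have h := Uniq.centralizer_sigma_unique hG hM hσ (zpowers_le.2 (hσM hy.1))
      (by rw [Nat.card_zpowers, hyp]) S (Or.inr (zpowers_le.2 hder))
    rwa [centralizer_zpowers] at h
  set E := K ⊔ U with hEdef
  have hE : IsComplIn E (sigmaCore M) M := compl_sigma hG hM hK hU hKU
  have hEN : E ≤ normalizer (sigmaCore M : Set G) := hE.1.trans (OddLocal.le_normalizer_piCoreOf (sigma M) M)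
  have hcop := coprime_sigmaCore_compl hG hM hE
  have hcopK : (Nat.card K).Coprime (Nat.card (sigmaCore M)) :=
    hcop.coprime_dvd_left (card_dvd_of_le le_sup_left)
  have hsolM : Group.IsSolvable ↥(sigmaCore M) := solvable_of_ne_top hG (ne_top_of_le hM hσM)
  obtain ⟨P, hP⟩ := Coprime.exists_invariant_sylow hEN hcop (Or.inr hsolM) p
  obtain ⟨Q, hyQ, hQ⟩ := Coprime.exists_invariant_sylow_ge (A := K) ((le_sup_left : K ≤ E).trans hEN) hcopK
    (Or.inr hsolM) (p := p) (U := zpowers y) (zpowers_le.2 hy.1)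
    (IsPGroup.of_card (n := 1) (by rw [Nat.card_zpowers, hyp, pow_one]))
    (le_trans (fun a ha => by
      rw [centralizer_zpowers]
      exact mem_centralizer_singleton_iff.mpr (mem_centralizer_iff.mp hy.2 a ha))
      (centralizer_le_normalizer _))
  obtain ⟨c, hcK, hc⟩ := Coprime.exists_centralizer_conj_sylow (A := K) ((le_sup_left : K ≤ E).trans hEN) hcopK
    (Or.inr hsolM) Q P hQ (le_sup_left.trans hP)
  set Pg := (P : Subgroup ↥(sigmaCore M)).map (sigmaCore M).subtype with hPg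
  set s := (c : G) * y * (c : G)⁻¹ with hs
  have hsP : s ∈ Pg := by
    obtain ⟨w, hw, he⟩ := hyQ (mem_zpowers y)
    refine ⟨c * w * c⁻¹, ?_, by rw [hs, ← he]; rfl⟩
    rw [← hc]
    exact ⟨w, hw, rfl⟩
  have hsK : s ∈ centralizer (K : Set G) :=
    (centralizer (K : Set G)).mul_mem ((centralizer (K : Set G)).mul_mem hcK hy.2)
      ((centralizer (K : Set G)).inv_mem hcK)
  have hso : orderOf s = p := by
    rw [hs, ← MulAut.conj_apply]
    exact ((MulAut.conj (c : G)).orderOf_eq y).trans hyp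
  have hPp : IsPGroup p Pg := P.2.map _
  by_cases hsmall : PRankLE p 2 ↥(Pg ⊓ centralizer ({s} : Set G))
  · exfalso
    have hEodd : Odd (Nat.card E) := hG.1.of_dvd_nat E.card_subgroup_dvd_card
    have hEsol : Group.IsSolvable E := solvable_of_ne_top hG (ne_top_of_le hM hE.1)
    have hEp : (Nat.card E).Coprime p :=
      (hp.out.coprime_iff_not_dvd.mpr fun hd => compl_not_sigma hG hM hE hd hσ).symm
    have hd := derived_centralizes hp2 hPp hP hEodd hEsol hEp hsP (hso ▸ pow_orderOf_eq_one s) hsmall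
    have hsE : s ∈ centralizer (E : Set G) := by
      rw [← zpowers_le, le_centralizer_iff, centralizer_zpowers]
      refine sup_le (fun a ha => mem_centralizer_singleton_iff.mpr (mem_centralizer_iff.mp hsK a ha)) ?_
      refine ((le_commutator_of_free hk hUc hKU hfree).trans hd).trans ?_
      exact centralizer_le (Set.singleton_subset_iff.mpr hsP)
    have h1 : s ∈ ⁅sigmaCore M, sigmaCore M⁆ := inf_centralizer_compl_le_derived hG hM hE
      ⟨(sigmaCore M).mul_mem ((sigmaCore M).mul_mem c.2 hy.1) ((sigmaCore M).inv_mem c.2), hsE⟩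
    have hn : (c : G) ∈ normalizer ((⁅sigmaCore M, sigmaCore M⁆ : Subgroup G) : Set G) :=
      Coprime.left_le_normalizer_commutator _ _ c.2
    exact hder ((mem_normalizer_iff.mp hn y).mpr h1)
  set R := Pg ⊓ centralizer ({s} : Set G) with hR
  have hRU : InUniqueMaximal R := inUnique_of_rank_three hG (hPp.to_le inf_le_left) hsmall
  have hPM : Pg ≤ M := (map_subtype_le _).trans hσM
  have hCy : MulAut.conj (c : G) • centralizer ({y} : Set G) = centralizer ({s} : Set G) := by
    ext z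
    rw [Coprime.mem_conj_smul, mem_centralizer_singleton_iff, mem_centralizer_singleton_iff, hs]
    constructor <;> intro h
    · calc z * ((c : G) * y * (c : G)⁻¹) = c * (((c : G)⁻¹ * z * c) * y) * (c : G)⁻¹ := by group
        _ = c * y * (c : G)⁻¹ * z := by rw [h]; group
    · calc (c : G)⁻¹ * z * c * y = (c : G)⁻¹ * (z * (c * y * (c : G)⁻¹)) * c := by group
        _ = y * ((c : G)⁻¹ * z * c) := by rw [h]; group
  refine ⟨⟨?_, fun L hL hCL => ?_⟩, ?_, (map_subtype_le _).trans hσM⟩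
  · have h : centralizer ({s} : Set G) ≤ M :=
      centralizer_elem_le hG hRU hM (inf_le_left.trans hPM)
        (fun e => hp.out.ne_one (by rw [← hso, e, orderOf_one])) inf_le_right
    rw [← hCy] at h
    intro z hz
    have h1 := h (smul_mem_pointwise_smul z (MulAut.conj (c : G)) _ hz)
    rw [MulAut.smul_def, MulAut.conj_apply] at h1
    have h2 := M.mul_mem (M.mul_mem (M.inv_mem (hσM c.2)) h1) (hσM c.2)
    simpa [mul_assoc] using h2
  · have h1 : R ≤ MulAut.conj (c : G) • L :=
      inf_le_right.trans (hCy ▸ pointwise_smul_le_pointwise_smul_iff.mpr hCL)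
    have h2 := max_eq hRU (coatom_smul (c : G) hL) hM h1 (inf_le_left.trans hPM)
    exact MulAction.injective (MulAut.conj (c : G))
      (h2.trans (Coprime.conj_smul_eq_self (le_normalizer (hσM c.2))).symm)
  · obtain ⟨d, hd⟩ := MulAction.exists_smul_eq ↥(sigmaCore M) P S
    rw [← hd, Sylow.coe_subgroup_smul]
    erw [Coprime.map_conj_smul]
    exact inUnique_conj (unique_mono hRU inf_le_left (pgroup_ne_top hG hPp)) _

end Cfsg.Agent.Lib.OddLocal.KappaStar
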