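import Cfsg.Agent.S1425
import Cfsg.Agent.Lib.OddLocal.KappaStar
set_option autoImplicit false

/-! BG 14.2 (d), (e), (f). -/

namespace Cfsg.Agent.Lib.OddLocal.KappaStar

open Subgroup
open scoped Pointwise commutatorElement
open Cfsg.Agent.Lib.Uniq

universe u

variable {G : Type u} [Group G] [Finite G] {M K : Subgroup G}

/-- A `κ(M)`-group has cyclic Sylow subgroups. -/
theorem isCyclic_of_kappa {q : ℕ} [Fact q.Prime] (hq : q ∈ kappa M) {X : Subgroup G} (hX : IsPGroup q X)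
    (hXM : X ≤ M) : IsCyclic X := by
  obtain ⟨T, hT⟩ := (hX.comap_subtype (K := M)).exists_le_sylow
  haveI : IsCyclic T := (hq.2.2.2 T).1
  let f : ↥X →* ↥(T : Subgroup M) := (inclusion hXM).codRestrict _ fun x => hT x.2
  exact isCyclic_of_injective f fun a b h =>
    inclusion_injective hXM (congrArg (fun z : ↥(T : Subgroup M) => (z : M)) h)

/-- Subgroups of the same prime order of a `κ(M)`-Hall subgroup are conjugate in it. -/
theorem conj_lines (hK : IsPiHallOf (kappa M) K M) {q : ℕ} [hq : Fact q.Prime] {X Y : Subgroup G}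
    (hX : X ≤ K) (hY : Y ≤ K) (hXc : Nat.card X = q) (hYc : Nat.card Y = q) :
    ∃ k ∈ K, MulAut.conj k • X = Y := by
  obtain ⟨T, hT⟩ := ((IsPGroup.of_card (n := 1) (hXc.trans (pow_one q).symm)).comap_subtype (K := K)).exists_le_sylow
  obtain ⟨T', hT'⟩ := ((IsPGroup.of_card (n := 1) (hYc.trans (pow_one q).symm)).comap_subtype (K := K)).exists_le_sylow
  obtain ⟨k, hk⟩ := MulAction.exists_smul_eq ↥K T T'
  refine ⟨k, k.2, ?_⟩
  haveI := isCyclic_of_kappa (hK.2.1 q hq.out (hXc ▸ card_dvd_of_le hX)) (T'.2.map K.subtype)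
    ((map_subtype_le _).trans hK.1)
  refine OddLocal.eq_of_card_eq_of_le_cyclic (W := (T' : Subgroup K).map K.subtype) ?_ ?_
    (by rw [Coprime.card_conj_smul, hXc, hYc])
  · rw [← hk, Sylow.coe_subgroup_smul]
    erw [Coprime.map_conj_smul]
    refine pointwise_smul_le_pointwise_smul_iff.mpr ?_
    exact fun x hx => ⟨⟨x, hX hx⟩, hT hx, rfl⟩
  · exact fun x hx => ⟨⟨x, hY hx⟩, hT' hx, rfl⟩

/-- BG 14.2 (d), (e), (f), from (a), (b). -/
theorem star_props (hG : IsMinSimpleOddOrder G) (hM : IsCoatom M) (hK : IsPiHallOf (kappa M) K M) (hK1 : K ≠ ⊥)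
    (hU : ∃ U : Subgroup G, IsMulCommutative U ∧ IsPiHallOf {q | q.Prime ∧ q ∉ kappa M ∧ q ∉ sigma M} U M ∧
      K ≤ normalizer (U : Set G) ∧ ∀ k ∈ K, k ≠ 1 → U ⊓ centralizer ({k} : Set G) = ⊥)
    (hX : ∀ X : Subgroup G, X ≤ K → (Nat.card X).Prime →
      M ⊓ normalizer (X : Set G) = K ⊔ (sigmaCore M ⊓ centralizer (K : Set G)) ∧
        M ⊓ normalizer (K : Set G) = K ⊔ (sigmaCore M ⊓ centralizer (K : Set G)) ∧
        ∀ Mstar : Subgroup G, IsCoatom Mstar → normalizer (X : Set G) ≤ Mstar → X ≤ sigmaCore Mstar) :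
    (∀ g : G, g ∉ M → (sigmaCore M ⊓ centralizer (K : Set G)) ⊓ M.map (MulAut.conj g).toMonoidHom = ⊥) ∧
      (∀ g ∈ M, g ∉ K ⊔ (sigmaCore M ⊓ centralizer (K : Set G)) → K ⊓ K.map (MulAut.conj g).toMonoidHom = ⊥) ∧
      (∀ (p : ℕ), p.Prime → p ∣ Nat.card ↥(sigmaCore M ⊓ centralizer (K : Set G)) → ∀ S : Sylow p ↥(sigmaCore M),
        InUniqueMaximal ((S : Subgroup ↥(sigmaCore M)).map (sigmaCore M).subtype) ∧
        (S : Subgroup ↥(sigmaCore M)).map (sigmaCore M).subtype ≤ M ∧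
        ¬ (S : Subgroup ↥(sigmaCore M)).map (sigmaCore M).subtype ≤ (sigmaCore M ⊓ centralizer (K : Set G))) ∧
      ∀ Y : Subgroup G, (∀ p : ℕ, p.Prime → p ∣ Nat.card Y → p ∈ sigma M) →
        Y ⊓ (sigmaCore M ⊓ centralizer (K : Set G)) ≠ ⊥ → Y ≤ sigmaCore M := by
  obtain ⟨U, hUc, hUH, hKU, hfree⟩ := hU
  obtain ⟨k, hk, hk1⟩ := (bot_or_exists_ne_one K).resolve_left hK1
  have hσM : sigmaCore M ≤ M := map_subtype_le _
  have hd : ∀ g : G, g ∉ M → (sigmaCore M ⊓ centralizer (K : Set G)) ⊓ M.map (MulAut.conj g).toMonoidHom = ⊥ := by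
    intro g hg
    by_contra hne
    obtain ⟨z, hz, hz1⟩ := (bot_or_exists_ne_one _).resolve_left hne
    obtain ⟨p, hp, hpd⟩ := Nat.exists_prime_and_dvd (fun e => hz1 (orderOf_eq_one_iff.mp e))
    haveI := Fact.mk hp
    set y := z ^ (orderOf z / p) with hy
    have hyp : orderOf y = p := orderOf_pow_orderOf_div (orderOf_pos z).ne' hpd
    have hyI := pow_mem hz (orderOf z / p)
    obtain ⟨S⟩ : Nonempty (Sylow p ↥(sigmaCore M)) := inferInstance
    have h := (centralizer_unique hG hM hK hUc hUH hKU hk (hfree k hk hk1) hyI.1 hyp S).1.1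
    refine centralizer_not_le_of_inter hG hM hg (OddLocal.piCoreOf_isPi (sigma M) M p hp
        (hyp ▸ (sigmaCore M).orderOf_dvd_natCard hyI.1.1))
      (IsPGroup.of_card (n := 1) (by rw [Nat.card_zpowers, hyp, pow_one]))
      (zpowers_ne_bot.2 fun e => hp.ne_one (by rw [← hyp]; exact orderOf_eq_one_iff.mpr e))
      (zpowers_le.2 (hσM hyI.1.1)) (zpowers_le.2 hyI.2) ?_
    rwa [centralizer_zpowers]
  refine ⟨hd, ?_, ?_, ?_⟩
  · intro g hgM hg
    by_contra hne
    obtain ⟨z, hz, hz1⟩ := (bot_or_exists_ne_one _).resolve_left hne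
    obtain ⟨q, hq, hqd⟩ := Nat.exists_prime_and_dvd (fun e => hz1 (orderOf_eq_one_iff.mp e))
    haveI := Fact.mk hq
    set x := z ^ (orderOf z / q) with hx
    have hxq : orderOf x = q := orderOf_pow_orderOf_div (orderOf_pos z).ne' hqd
    have hxI := pow_mem hz (orderOf z / q)
    have hXc : Nat.card (zpowers x) = q := by rw [Nat.card_zpowers, hxq]
    have hX'K : MulAut.conj g⁻¹ • zpowers x ≤ K := by
      rw [map_inv, pointwise_smul_subset_iff, inv_inv]
      exact zpowers_le.2 hxI.2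
    obtain ⟨k', hk', hkX⟩ := conj_lines hK hX'K (zpowers_le.2 hxI.1)
      (by rw [Coprime.card_conj_smul, hXc]) hXc
    rw [← mul_smul, ← map_mul] at hkX
    have h : k' * g⁻¹ ∈ M ⊓ normalizer (zpowers x : Set G) :=
      ⟨M.mul_mem (hK.1 hk') (M.inv_mem hgM), Coprime.mem_normalizer_of_conj_smul_eq hkX⟩
    rw [(hX _ (zpowers_le.2 hxI.1) (by rw [hXc]; exact hq)).1] at h
    have h' := mul_mem (inv_mem (mem_sup_left hk' : k' ∈ K ⊔ (sigmaCore M ⊓ centralizer (K : Set G)))) h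
    rw [inv_mul_cancel_left] at h'
    exact hg (inv_mem_iff.mp h')
  · intro p hp hpd S
    haveI := Fact.mk hp
    obtain ⟨z, hz⟩ := exists_prime_orderOf_dvd_card' (G := ↥(sigmaCore M ⊓ centralizer (K : Set G))) p hpd
    obtain ⟨-, hSU, hSM⟩ := centralizer_unique hG hM hK hUc hUH hKU hk (hfree k hk hk1) z.2
      (by rw [Subgroup.orderOf_coe, hz]) S
    refine ⟨hSU, hSM, fun hle => ?_⟩
    obtain ⟨q, hq, hqd⟩ := Nat.exists_prime_and_dvd (fun e => hK1 (eq_bot_of_card_eq K e))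
    haveI := Fact.mk hq
    obtain ⟨x, hx⟩ := exists_prime_orderOf_dvd_card' (G := ↥K) q hqd
    set X := zpowers (x : G) with hXdef
    have hXc : Nat.card X = q := by rw [hXdef, Nat.card_zpowers, Subgroup.orderOf_coe, hx]
    have hXK : X ≤ K := zpowers_le.2 x.2
    have hqσ : q ∉ sigma M := (hK.2.1 q hq hqd).2.2.1
    have hX1 : X ≠ ⊥ := fun e => hq.ne_one (by rw [← hXc, e, card_bot])
    obtain ⟨L, hL, hNL⟩ := exists_coatom_ge
      (minSimple_normalizer_ne_top hG hX1 (pgroup_ne_top hG (IsPGroup.of_card (n := 1) (hXc.trans (pow_one q).symm))))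
    have hXL := (hX X hXK (by rw [hXc]; exact hq)).2.2 L hL hNL
    have hSL : (S : Subgroup ↥(sigmaCore M)).map (sigmaCore M).subtype ≤ L :=
      (hle.trans inf_le_right).trans (((centralizer_le hXK).trans (centralizer_le_normalizer _)).trans hNL)
    rw [max_eq hSU hL hM hSL hSM] at hXL
    exact hqσ (OddLocal.piCoreOf_isPi (sigma M) M q hq (hXc ▸ card_dvd_of_le hXL))
  · intro Y hY hne
    have hY1 : Y ≠ ⊥ := fun e => hne (by rw [e, bot_inf_eq])
    obtain ⟨g, hg⟩ := S1425.result hG M hM Y hY1 hY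
    have hgM : g⁻¹ ∈ M := by
      by_contra h
      apply hne
      rw [eq_bot_iff, ← hd g⁻¹ h]
      intro z hz
      exact ⟨hz.2, g * z * g⁻¹, hσM (hg ⟨z, hz.1, rfl⟩), by simp [mul_assoc]⟩
    intro z hz
    have h := (mem_normalizer_iff.mp (OddLocal.le_normalizer_piCoreOf (sigma M) M hgM) _).mp (hg ⟨z, hz, rfl⟩)
    simpa [sigmaCore, piCoreOf, mul_assoc] using h

end Cfsg.Agent.Lib.OddLocal.KappaStar
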