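import Cfsg.Agent.Lib.OddLocal.FcoreStructure
import Cfsg.Agent.Lib.OddLocal.KappaStarProps
import Cfsg.Agent.S1351
import Cfsg.Agent.S1415
import Cfsg.Agent.S1420
import Cfsg.Agent.S1426
import Cfsg.Agent.S1439
import Cfsg.Agent.Lib.GS.Sylow
set_option autoImplicit false

/-! BG 15.2-15.3: `M_F`, `F(M)`, and Hall subgroups of `M_σ`. -/

namespace Cfsg.Agent.Lib.OddLocal.Fifteen

open Subgroup
open scoped Pointwise commutatorElement
open Cfsg.Agent.Lib.Uniq

universe u

variable {G : Type u} [Group G] [Finite G] {M K U H : Subgroup G}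

theorem exists_decomp (hG : IsMinSimpleOddOrder G) (hM : IsCoatom M) :
    ∃ K U : Subgroup G, IsSigmaDecomposition M K U := by
  obtain ⟨⟨K, hK⟩, hc⟩ := Cfsg.Agent.S1351.result hG M hM
  obtain ⟨U, hU⟩ := Decomposition.exists_decomposition hG hM (hc K hK) hK
  exact ⟨K, U, hU⟩

/-- `M_σ` is nilpotent modulo a normal `Q ≤ M_F` which is a Hall subgroup of `M_σ` of prime power order or trivial. -/
theorem exists_kernel (hG : IsMinSimpleOddOrder G) (hM : IsCoatom M) :
    ∃ Q : Subgroup G, Q ≤ fittingHallOf M ∧ Q ≤ sigmaCore M ∧ M ≤ normalizer (Q : Set G) ∧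
      (Q = ⊥ ∨ ∃ q : ℕ, q.Prime ∧ IsPGroup q Q ∧ ¬ q ∣ Q.relIndex (sigmaCore M)) ∧
      ∀ [(Q.subgroupOf M).Normal],
        Group.IsNilpotent (((sigmaCore M).subgroupOf M).map (QuotientGroup.mk' (Q.subgroupOf M))) := by
  obtain ⟨K, U, hKU⟩ := exists_decomp hG hM
  by_cases hne : fittingHallOf M = sigmaCore M
  · refine ⟨⊥, bot_le, bot_le, le_top.trans (normalizer_eq_top (H := (⊥ : Subgroup G))).ge, Or.inl rfl, ?_⟩
    intro _
    haveI : Group.IsNilpotent (fittingHallOf M) := by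
      haveI := (fittingHall_mem (↥M)).2.1
      exact Group.nilpotent_of_mulEquiv ((fittingHall ↥M).equivMapOfInjective _ M.subtype_injective)
    haveI : Group.IsNilpotent (sigmaCore M) := by rw [← hne]; infer_instance
    haveI : Group.IsNilpotent ((sigmaCore M).subgroupOf M) :=
      Group.nilpotent_of_mulEquiv (subgroupOfEquivOfLe (show sigmaCore M ≤ M from map_subtype_le _)).symm
    exact Group.nilpotent_of_surjective _ ((QuotientGroup.mk' _).subgroupMap_surjective _)
  · obtain ⟨q, Q, h⟩ := Fcore.exists_structure hG hM hKU hne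
    refine ⟨Q, h.le_fitting, h.le_sigma, h.norm, Or.inr ⟨q, h.prime, h.pgroup, h.hall⟩, ?_⟩
    intro _
    obtain ⟨D, hD, hd⟩ := h.exists_data
    haveI := (h.compl hG hM hKU hne hD).1
    have hDM : D ≤ M := hD.2.1.trans (map_subtype_le _)
    let f : D →* ((sigmaCore M).subgroupOf M).map (QuotientGroup.mk' (Q.subgroupOf M)) :=
      { toFun := fun d => ⟨QuotientGroup.mk' _ ⟨d, hDM d.2⟩, mem_map_of_mem _ (hD.2.1 d.2)⟩
        map_one' := Subtype.ext (map_one (QuotientGroup.mk' (Q.subgroupOf M)))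
        map_mul' := fun a b => Subtype.ext (map_mul (QuotientGroup.mk' (Q.subgroupOf M)) ⟨_, hDM a.2⟩ ⟨_, hDM b.2⟩) }
    refine Group.nilpotent_of_surjective f ?_
    rintro ⟨_, s, hs, rfl⟩
    obtain ⟨a, ha, b, hb, he⟩ := hD.2.2.2 (s : G) hs
    refine ⟨⟨b, hb⟩, Subtype.ext ?_⟩
    show QuotientGroup.mk' (Q.subgroupOf M) ⟨b, hDM hb⟩ = QuotientGroup.mk' (Q.subgroupOf M) s
    refine QuotientGroup.eq.mpr ?_
    show b⁻¹ * (s : G) ∈ Q
    rw [he, show b⁻¹ * (a * b) = b⁻¹ * a * b⁻¹⁻¹ by group]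
    exact (mem_normalizer_iff.mp (h.norm (M.inv_mem (hDM hb))) a).mp ha

/-- Primes of a `σ(M)'`-element of `M` centralizing a nontrivial Hall subgroup of `M_σ` lie in `τ₂(M)`. -/
theorem tau2_of_centralizes (hG : IsMinSimpleOddOrder G) (hM : IsCoatom M) (hH : H ≤ sigmaCore M) (hH1 : H ≠ ⊥)
    (hHall : (Nat.card H).Coprime (H.relIndex (sigmaCore M))) {q : ℕ} [hq : Fact q.Prime] (hqσ : q ∉ sigma M)
    {x : G} (hxM : x ∈ M) (hxq : orderOf x = q) (hc : x ∈ centralizer (H : Set G)) : q ∈ tau2 M := by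
  obtain ⟨y, hy, hy1⟩ := (bot_or_exists_ne_one H).resolve_left hH1
  refine (SigmaPrimeElem.kappa_or_tau2 hG hM hqσ hxM hxq (hH hy) hy1
    (mem_centralizer_iff.mp hc y hy).symm).resolve_left fun hκ => ?_
  obtain ⟨K, hK, hxK⟩ := SigmaPrimeElem.exists_kappa_hall hG hM hxM fun r hr hd => by
    rw [hxq] at hd; rwa [(Nat.prime_dvd_prime_iff_eq hr hq.out).mp hd]
  have hK1 : K ≠ ⊥ := fun e => hq.out.ne_one (by
    rw [← hxq, mem_bot.mp (e ▸ hxK : x ∈ (⊥ : Subgroup G)), orderOf_one])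
  obtain ⟨hC, hU, hX⟩ := kappa_structure hG hM hK hK1
  have hHK : H ≤ sigmaCore M ⊓ centralizer (K : Set G) := by
    rw [← hC x hxK (fun e => hq.out.ne_one (by rw [← hxq, e, orderOf_one]))]
    exact fun z hz => ⟨hH hz, mem_centralizer_singleton_iff.mpr (mem_centralizer_iff.mp hc z hz)⟩
  obtain ⟨-, -, hS, -⟩ := KappaStar.star_props hG hM hK hK1 hU hX
  obtain ⟨p, hp, hpd⟩ := Nat.exists_prime_and_dvd (fun e => hH1 (H.eq_bot_of_card_eq e))
  haveI := Fact.mk hp
  obtain ⟨T⟩ : Nonempty (Sylow p ↥(H.subgroupOf (sigmaCore M))) := inferInstance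
  have hidx : ¬ p ∣ ((T : Subgroup _).map (H.subgroupOf (sigmaCore M)).subtype).index := by
    rw [← relIndex_mul_index (map_subtype_le _), Nat.Prime.dvd_mul hp, not_or]
    refine ⟨?_, fun h => hp.ne_one (Nat.eq_one_of_dvd_coprimes hHall hpd h)⟩
    rw [relIndex, show ((T : Subgroup _).map (H.subgroupOf (sigmaCore M)).subtype).subgroupOf
      (H.subgroupOf (sigmaCore M)) = T from comap_map_eq_self_of_injective (subtype_injective _) _]
    exact T.not_dvd_index
  obtain ⟨-, -, hnle⟩ := hS p hp (hpd.trans (card_dvd_of_le hHK)) ((T.2.map _).toSylow hidx)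
  refine hnle (le_trans ?_ hHK)
  rintro _ ⟨z, ⟨w, -, hwz⟩, rfl⟩
  exact hwz ▸ w.2

/-- `C_M(H) = C_{M_σ}(H) X` with `X` a cyclic `τ₂(M)`-group. -/
theorem centralizer_hall (hG : IsMinSimpleOddOrder G) (hM : IsCoatom M) (hH : H ≤ sigmaCore M) (hH1 : H ≠ ⊥)
    (hHall : (Nat.card H).Coprime (H.relIndex (sigmaCore M))) :
    ∃ X : Subgroup G, IsCyclic X ∧ (∀ p : ℕ, p.Prime → p ∣ Nat.card X → p ∈ tau2 M) ∧
        M ⊓ centralizer (H : Set G) = (sigmaCore M ⊓ centralizer (H : Set G)) ⊔ X := by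
  set C := M ⊓ centralizer (H : Set G) with hC
  set S := sigmaCore M with hS
  have hSM : S ≤ M := map_subtype_le _
  have hMS : M ≤ normalizer (S : Set G) := OddLocal.le_normalizer_piCoreOf (sigma M) M
  have hle : S ⊓ centralizer (H : Set G) ≤ C := inf_le_inf_right _ hSM
  set N := (S ⊓ centralizer (H : Set G)).subgroupOf C with hN
  haveI hNn : N.Normal := by
    refine ⟨fun n hn g => ⟨(mem_normalizer_iff.mp (hMS g.2.1) _).mp hn.1, ?_⟩⟩
    exact (centralizer (H : Set G)).mul_mem ((centralizer (H : Set G)).mul_mem g.2.2 hn.2)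
      ((centralizer (H : Set G)).inv_mem g.2.2)
  have hidx : ∀ r : ℕ, r.Prime → r ∣ N.index → r ∉ sigma M := by
    intro r hr hd hσ
    haveI := Fact.mk hr
    have h1 : N.index ∣ S.relIndex M := by
      have h2 : (S ⊓ centralizer (H : Set G)).relIndex C = S.relIndex C := by
        rw [show S ⊓ centralizer (H : Set G) = S ⊓ C from ?_, inf_relIndex_right]
        exact le_antisymm (le_inf inf_le_left hle) (inf_le_inf_left S inf_le_right)
      show (S ⊓ centralizer (H : Set G)).relIndex C ∣ _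
      rw [h2]
      haveI : (S.subgroupOf M).Normal := (normal_subgroupOf_iff_le_normalizer hSM).mpr hMS
      have h3 := relIndex_dvd_index_of_normal (S.subgroupOf M) (C.subgroupOf M)
      rwa [relIndex_subgroupOf inf_le_left] at h3
    exact (sigmaCore_hall hG hM hσ).1 (hd.trans h1)
  have hcop : (Nat.card N).Coprime N.index := by
    refine Nat.coprime_of_dvd fun r hr h1 h2 => hidx r hr h2 ?_
    rw [Coprime.card_subgroupOf hle] at h1
    exact OddLocal.piCoreOf_isPi (sigma M) M r hr (h1.trans (card_dvd_of_le inf_le_left))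
  obtain ⟨X₀, hX₀⟩ := exists_right_complement'_of_coprime hcop
  set X := X₀.map C.subtype with hX
  have hXC : X ≤ C := map_subtype_le _
  have hXσ : ∀ r : ℕ, r.Prime → r ∣ Nat.card X → r ∉ sigma M := fun r hr hd => by
    rw [card_map_of_injective C.subtype_injective, ← hX₀.symm.index_eq_card] at hd
    exact hidx r hr hd
  have hτ : ∀ p : ℕ, p.Prime → p ∣ Nat.card X → p ∈ tau2 M := by
    intro p hp hd
    haveI := Fact.mk hp
    obtain ⟨x, hx⟩ := exists_prime_orderOf_dvd_card' p hd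
    exact tau2_of_centralizes hG hM hH hH1 hHall (hXσ p hp hd) (hXC x.2).1
      (by rw [Subgroup.orderOf_coe, hx]) (hXC x.2).2
  obtain ⟨y, hy, hy1⟩ := (bot_or_exists_ne_one H).resolve_left hH1
  refine ⟨X, UPart.isCyclic_tau2 hG hM (hXC.trans inf_le_left) hτ (hH hy) hy1 fun x hx =>
    mem_centralizer_singleton_iff.mpr (mem_centralizer_iff.mp (hXC hx).2 y hy).symm, hτ, ?_⟩
  refine le_antisymm (fun c hc => ?_) (sup_le hle hXC)
  obtain ⟨⟨a, b⟩, hab, -⟩ := hX₀.existsUnique ⟨c, hc⟩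
  rw [show c = ((a : C) : G) * ((b : C) : G) from (congrArg Subtype.val hab).symm]
  exact mul_mem (mem_sup_left a.2) (mem_sup_right (mem_map_of_mem _ b.2))

/-- A Hall subgroup of `M_σ` controls its fusion in its normaliser in `M`. -/
theorem fusion_hall (hG : IsMinSimpleOddOrder G) (hM : IsCoatom M) (hH : H ≤ sigmaCore M)
    (hHall : (Nat.card H).Coprime (H.relIndex (sigmaCore M))) :
    ∀ x ∈ H, ∀ g : G, g * x * g⁻¹ ∈ H → ∃ n ∈ M ⊓ normalizer (H : Set G), n * x * n⁻¹ = g * x * g⁻¹ := by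
  intro x hx g hgx
  have hSM : sigmaCore M ≤ M := map_subtype_le _
  obtain ⟨m, hm, c, hc, rfl⟩ := SigmaPrimeElem.exists_mul_centralizer hG hM (hH hx) (hSM (hH hgx))
  have hmx : m * c * x * (m * c)⁻¹ = m * x * m⁻¹ := by
    calc m * c * x * (m * c)⁻¹ = m * (c * x) * c⁻¹ * m⁻¹ := by group
      _ = m * x * m⁻¹ := by rw [mem_centralizer_singleton_iff.mp hc]; group
  rw [hmx] at hgx ⊢
  obtain ⟨Q, -, hQS, hMQ, hQ, hnil⟩ := exists_kernel hG hM
  haveI : (Q.subgroupOf M).Normal := (normal_subgroupOf_iff_le_normalizer (hQS.trans hSM)).mpr hMQ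
  haveI := hnil
  set π := QuotientGroup.mk' (Q.subgroupOf M) with hπ
  set S' := (sigmaCore M).subgroupOf M
  set Sb := S'.map π with hSb
  set Hb := (H.subgroupOf M).map π with hHb
  have hHb : Hb ≤ Sb := map_mono fun z hz => hH hz
  have hHSb : (Nat.card Hb).Coprime (Hb.relIndex Sb) := by
    refine Nat.Coprime.coprime_dvd_left (card_map_dvd _ π) ?_
    rw [Coprime.card_subgroupOf (hH.trans hSM)]
    refine hHall.coprime_dvd_right ?_
    rw [hSb, relIndex_map_map]
    rw [sup_eq_left.mpr (show π.ker ≤ S' from fun z hz => hQS ((QuotientGroup.eq_one_iff z).mp hz))]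
    exact (relIndex_dvd_of_le_left _ le_sup_left).trans (dvd_of_eq (relIndex_subgroupOf hSM))
  -- the image of `H` is normal
  have hconj : ∀ b : M, MulAut.conj (π b) • Hb = Hb := by
    intro b
    have hSn : (b : G) ∈ normalizer (sigmaCore M : Set G) := OddLocal.le_normalizer_piCoreOf (sigma M) M b.2
    haveI : S'.Normal := (normal_subgroupOf_iff_le_normalizer hSM).mpr (OddLocal.le_normalizer_piCoreOf (sigma M) M)
    haveI : Sb.Normal := Subgroup.Normal.map inferInstance π (QuotientGroup.mk'_surjective _)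
    have hle : MulAut.conj (π b) • Hb ≤ Sb :=
      (pointwise_smul_le_pointwise_smul_iff.mpr hHb).trans (Coprime.conj_smul_of_normal _ _).le
    set π₀ : Set ℕ := {r | r ∣ Nat.card Hb}
    have key : ∀ W : Subgroup (↥M ⧸ Q.subgroupOf M), W ≤ Sb → Nat.card W = Nat.card Hb →
        W.subgroupOf Sb = piCore π₀ ↥Sb := by
      intro W hW hc
      refine hall_eq_piCore π₀ (fun r _ h => ?_) fun r hr hrπ h => ?_
      · rw [Coprime.card_subgroupOf hW, hc] at h; exact h
      · have h2 : Nat.card Hb * W.relIndex Sb = Nat.card Hb * Hb.relIndex Sb := by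
          rw [Hall.card_mul_relIndex' hHb, ← hc, Hall.card_mul_relIndex' hW]
        refine hr.ne_one (Nat.eq_one_of_dvd_coprimes hHSb hrπ ?_)
        rw [← Nat.eq_of_mul_eq_mul_left Nat.card_pos h2]
        exact h
    have h := (key _ hle (Coprime.card_conj_smul _ _)).trans (key _ hHb rfl).symm
    rw [← map_subgroupOf_eq_of_le hle, h, map_subgroupOf_eq_of_le hHb]
  -- write `m` as a product of an element of `Q` and an element normalising `H`
  have hmH : MulAut.conj m • H ≤ H ⊔ Q := by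
    rintro _ ⟨z, hz, rfl⟩
    have hzM : z ∈ M := (hH.trans hSM) hz
    have h : π (⟨m, hm⟩ * ⟨z, hzM⟩ * (⟨m, hm⟩ : M)⁻¹) ∈ Hb := by
      rw [← hconj ⟨m, hm⟩, map_mul, map_mul, map_inv]
      exact Coprime.conj_mem_conj_smul (mem_map_of_mem π hz)
    obtain ⟨w, hw, he⟩ := h
    have hwQ' : w⁻¹ * (⟨m, hm⟩ * ⟨z, hzM⟩ * (⟨m, hm⟩ : M)⁻¹) ∈ Q.subgroupOf M := QuotientGroup.eq.mp he
    have hwQ : (w : G)⁻¹ * (m * z * m⁻¹) ∈ Q := hwQ'
    show m * z * m⁻¹ ∈ H ⊔ Q
    rw [show m * z * m⁻¹ = (w : G) * ((w : G)⁻¹ * (m * z * m⁻¹)) by group]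
    exact mul_mem (mem_sup_left hw) (mem_sup_right hwQ)
  rcases eq_or_ne Q ⊥ with hQ1 | hQ1
  · rw [hQ1, sup_bot_eq] at hmH
    exact ⟨m, ⟨hm, Coprime.mem_normalizer_of_conj_smul_eq (eq_of_le_of_card_ge hmH (Coprime.card_conj_smul _ _).ge)⟩,
      rfl⟩
  obtain ⟨q, hq, hQp, hQi⟩ := hQ.resolve_left hQ1
  haveI := Fact.mk hq
  by_cases hqH : q ∣ Nat.card H
  · -- then `Q ≤ H`
    have hQH : Q ≤ H := by
      haveI : (Q.subgroupOf (sigmaCore M)).Normal :=
        (normal_subgroupOf_iff_le_normalizer hQS).mpr (hSM.trans hMQ)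
      obtain ⟨T⟩ : Nonempty (Sylow q ↥(H.subgroupOf (sigmaCore M))) := inferInstance
      have hidx : ¬ q ∣ ((T : Subgroup _).map (H.subgroupOf (sigmaCore M)).subtype).index := by
        rw [← relIndex_mul_index (map_subtype_le _), Nat.Prime.dvd_mul hq, not_or]
        refine ⟨?_, fun h => hq.ne_one (Nat.eq_one_of_dvd_coprimes hHall hqH h)⟩
        rw [relIndex, show ((T : Subgroup _).map (H.subgroupOf (sigmaCore M)).subtype).subgroupOf
          (H.subgroupOf (sigmaCore M)) = T from comap_map_eq_self_of_injective (subtype_injective _) _]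
        exact T.not_dvd_index
      intro z hz
      have hle : Q.subgroupOf (sigmaCore M) ≤ (T : Subgroup _).map (H.subgroupOf (sigmaCore M)).subtype :=
        (Hall.le_pCore (hQp.of_equiv (subgroupOfEquivOfLe hQS).symm)).trans
          (Hall.pCore_le_sylow ((T.2.map _).toSylow hidx))
      obtain ⟨w, -, hw⟩ := hle (show (⟨z, hQS hz⟩ : sigmaCore M) ∈ Q.subgroupOf (sigmaCore M) from hz)
      have hwe : ((w : sigmaCore M) : G) = z := congrArg Subtype.val hw
      exact hwe ▸ w.2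
    rw [sup_eq_left.mpr hQH] at hmH
    exact ⟨m, ⟨hm, Coprime.mem_normalizer_of_conj_smul_eq (eq_of_le_of_card_ge hmH (Coprime.card_conj_smul _ _).ge)⟩,
      rfl⟩
  have hcop : (Nat.card H).Coprime (Nat.card Q) := by
    obtain ⟨j, hj⟩ := IsPGroup.iff_card.mp hQp
    rw [hj]
    exact ((hq.coprime_iff_not_dvd.mpr hqH).pow_left j).symm
  obtain ⟨a, ha, hae⟩ := Coprime.exists_conj_eq_of_le_sup ((hH.trans hSM).trans hMQ) hcop
    (Or.inr (solvable_of_ne_top hG (ne_top_of_le hM (hQS.trans hSM)))) hmH (Coprime.card_conj_smul _ _)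
  -- `a⁻¹ m` normalises `H`
  have hn : a⁻¹ * m ∈ normalizer (H : Set G) := by
    refine Coprime.mem_normalizer_of_conj_smul_eq ?_
    rw [Coprime.conj_smul_mul, ← hae, Coprime.conj_inv_smul_smul]
  refine ⟨a⁻¹ * m, ⟨M.mul_mem (M.inv_mem (hSM (hQS ha))) hm, hn⟩, ?_⟩
  set x' := a⁻¹ * m * x * (a⁻¹ * m)⁻¹
  have hx' : x' ∈ H := (mem_normalizer_iff.mp hn x).mp hx
  have hyx : x'⁻¹ * (m * x * m⁻¹) ∈ H ⊓ Q := by
    refine ⟨H.mul_mem (H.inv_mem hx') hgx, ?_⟩
    rw [show x'⁻¹ * (m * x * m⁻¹) = (x'⁻¹ * a * x'⁻¹⁻¹) * a⁻¹ by simp only [x']; group]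
    exact Q.mul_mem ((mem_normalizer_iff.mp (hMQ ((hH.trans hSM) (H.inv_mem hx'))) a).mp ha) (Q.inv_mem ha)
  rw [Coprime.inf_eq_bot_of_coprime hcop, mem_bot, inv_mul_eq_one] at hyx
  exact hyx

/-- The chain `1 ≠ M_F ≤ M_σ ≤ M' < M`, and `M'/M_F` is nilpotent. -/
theorem chain (hG : IsMinSimpleOddOrder G) (hM : IsCoatom M) :
    fittingHallOf M ≠ ⊥ ∧ fittingHallOf M ≤ sigmaCore M ∧ sigmaCore M ≤ ⁅M, M⁆ ∧ ⁅M, M⁆ < M ∧
      Group.IsNilpotent ↥((commutator ↥M).map (QuotientGroup.mk' (fittingHall ↥M))) := by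
  obtain ⟨K, U, hKU⟩ := exists_decomp hG hM
  have hSM : sigmaCore M ≤ M := map_subtype_le _
  have hM1 : M ≠ ⊥ := by
    intro h
    obtain ⟨q, hq, hd⟩ := Nat.exists_prime_and_dvd (n := Nat.card G) (by
      haveI := hG.2.1; exact Finite.one_lt_card.ne')
    haveI := Fact.mk hq
    obtain ⟨P⟩ : Nonempty (Sylow q G) := inferInstance
    exact pgroup_ne_top hG P.2 (hM.2 _ (by
      rw [h, bot_lt_iff_ne_bot]
      exact fun e => hq.ne_one (Nat.dvd_one.mp (card_bot (G := G) ▸ e ▸ P.dvd_card_of_dvd_card hd))))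
  refine ⟨?_, Signalizer.fittingHallOf_le_sigmaCore hG hM, sigmaCore_le_derived hG hM, ?_, ?_⟩
  · by_cases hne : fittingHallOf M = sigmaCore M
    · rw [hne]; exact sigmaCore_ne_bot hG hM hM1
    · obtain ⟨q, Q, h⟩ := Fcore.exists_structure hG hM hKU hne
      exact fun e => h.prime.ne_one (Nat.dvd_one.mp (card_bot (G := G) ▸ e ▸ h.dvd))
  · refine lt_of_le_of_ne (commutator_le_self M) fun h => ?_
    haveI := solvable_of_ne_top hG hM.1
    haveI := (nontrivial_iff_ne_bot M).mpr hM1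
    refine (Group.IsSolvable.commutator_lt_top_of_nontrivial M).ne (map_injective M.subtype_injective ?_)
    rw [map_subtype_commutator, h, ← MonoidHom.range_eq_map, range_subtype]
  set π := QuotientGroup.mk' (fittingHall ↥M) with hπ
  by_cases hne : fittingHallOf M = sigmaCore M
  · obtain ⟨E, hE⟩ := UPart.exists_compl hG hM
    haveI := (Cfsg.Agent.S1415.result hG M hM E hE).1
    haveI : Group.IsNilpotent ↥(⁅E.subgroupOf M, E.subgroupOf M⁆) := by
      haveI : Group.IsNilpotent ↥((⁅E.subgroupOf M, E.subgroupOf M⁆).map M.subtype) := by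
        rw [map_commutator, map_subgroupOf_eq_of_le hE.1]; infer_instance
      exact Group.nilpotent_of_mulEquiv
        ((⁅E.subgroupOf M, E.subgroupOf M⁆).equivMapOfInjective _ M.subtype_injective).symm
    have htop : (E.subgroupOf M).map π = ⊤ := eq_top_iff.mpr fun x _ => by
      obtain ⟨m, rfl⟩ := QuotientGroup.mk'_surjective _ x
      obtain ⟨a, ha, b, hb, he⟩ := hE.2.2.2 m m.2
      refine ⟨⟨a, hE.1 ha⟩, ha, QuotientGroup.eq.mpr ?_⟩
      rw [← Subgroup.mem_map_iff_mem M.subtype_injective]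
      show a⁻¹ * (m : G) ∈ fittingHallOf M
      rw [he, inv_mul_cancel_left, hne]
      exact hb
    have heq : (commutator ↥M).map π = (⁅E.subgroupOf M, E.subgroupOf M⁆).map π := by
      rw [commutator_def, map_commutator, map_commutator, htop, map_top_of_surjective _ (QuotientGroup.mk'_surjective _)]
    rw [heq]
    exact Group.nilpotent_of_surjective _ (π.subgroupMap_surjective _)
  · obtain ⟨q, Q, h⟩ := Fcore.exists_structure hG hM hKU hne
    obtain ⟨-, -, -, -, hD'⟩ := Fcore.basic hG hM hKU hne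
    obtain ⟨D, hD, -⟩ := h.exists_data
    haveI := (h.compl hG hM hKU hne hD).1
    have hDM : D ≤ M := hD.2.1.trans hSM
    haveI : Group.IsNilpotent (D.subgroupOf M) := Group.nilpotent_of_mulEquiv (subgroupOfEquivOfLe hDM).symm
    have heq : (commutator ↥M).map π = (D.subgroupOf M).map π := by
      have hc : commutator ↥M = (sigmaCore M).subgroupOf M := map_injective M.subtype_injective (by
        rw [map_subtype_commutator, hD', map_subgroupOf_eq_of_le hSM])
      rw [hc]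
      refine le_antisymm ?_ (map_mono fun z hz => hD.2.1 hz)
      rintro _ ⟨m, hm, rfl⟩
      obtain ⟨a, ha, b, hb, he⟩ := hD.2.2.2 m hm
      refine ⟨⟨b, hDM hb⟩, hb, QuotientGroup.eq.mpr ?_⟩
      rw [← Subgroup.mem_map_iff_mem M.subtype_injective]
      show b⁻¹ * (m : G) ∈ fittingHallOf M
      refine h.le_fitting ?_
      rw [he, show b⁻¹ * (a * b) = b⁻¹ * a * b⁻¹⁻¹ by group]
      exact (mem_normalizer_iff.mp (h.norm (M.inv_mem (hDM hb))) a).mp ha
    rw [heq]
    exact Group.nilpotent_of_surjective _ (π.subgroupMap_surjective _)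

set_option maxHeartbeats 1000000 in
/-- `C_M(M_F) ≤ F(M)`. -/
theorem centralizer_le_fitting (hG : IsMinSimpleOddOrder G) (hM : IsCoatom M) :
    M ⊓ centralizer (fittingHallOf M : Set G) ≤ fittingOf M := by
  obtain ⟨K, U, hKU⟩ := exists_decomp hG hM
  obtain ⟨hF1, hFS, hSD, -, -⟩ := chain hG hM
  have hSM : sigmaCore M ≤ M := map_subtype_le _
  obtain ⟨hFn, hFnil, hFc⟩ := fittingHall_mem (↥M)
  haveI := hFn
  set π := QuotientGroup.mk' (fittingHall ↥M) with hπ
  set C := (centralizer (fittingHall ↥M : Set ↥M)) with hCdef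
  have hCeq : C.map M.subtype = M ⊓ centralizer (fittingHallOf M : Set G) := by
    ext z
    constructor
    · rintro ⟨c, hc, rfl⟩
      refine ⟨c.2, mem_centralizer_iff.mpr ?_⟩
      rintro _ ⟨f, hf, rfl⟩
      exact congrArg Subtype.val (mem_centralizer_iff.mp hc f hf)
    · rintro ⟨hz, hc⟩
      exact ⟨⟨z, hz⟩, mem_centralizer_iff.mpr fun f hf =>
        Subtype.ext (mem_centralizer_iff.mp hc f (mem_map_of_mem M.subtype hf)), rfl⟩
  obtain ⟨X, hXc, hXτ, hXe⟩ := centralizer_hall hG hM hFS hF1 (by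
    have h := coprime_fittingHallOf_relIndex M
    exact h.coprime_dvd_right ⟨_, (relIndex_mul_relIndex _ _ _ hFS hSM).symm⟩)
  have hnilC : Group.IsNilpotent (C.map π) := by
    by_cases hne : fittingHallOf M = sigmaCore M
    · have hXM : X ≤ M := (le_sup_right.trans hXe.ge).trans inf_le_left
      haveI := hXc
      haveI : IsCyclic (X.subgroupOf M) := (subgroupOfEquivOfLe hXM).isCyclic.mpr inferInstance
      haveI : IsMulCommutative (X.subgroupOf M) := ⟨⟨(IsCyclic.commGroup (α := X.subgroupOf M)).mul_comm⟩⟩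
      have hle : C.map π ≤ (X.subgroupOf M).map π := by
        rintro _ ⟨c, hc, rfl⟩
        have hcG : (c : G) ∈ (sigmaCore M ⊓ centralizer (fittingHallOf M : Set G)) ⊔ X :=
          hXe.le (hCeq.le ⟨c, hc, rfl⟩)
        have hcG' : (c : G) ∈ X ⊔ sigmaCore M :=
          (sup_le (inf_le_left.trans le_sup_right) le_sup_left :
            (sigmaCore M ⊓ centralizer (fittingHallOf M : Set G)) ⊔ X ≤ X ⊔ sigmaCore M) hcG
        obtain ⟨b, hb, a, ha, he⟩ := (Coprime.mem_sup_of_le_normalizer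
          (A := X) (N := sigmaCore M) (hXM.trans (OddLocal.le_normalizer_piCoreOf (sigma M) M))).mp hcG'
        refine ⟨⟨b, hXM hb⟩, hb, QuotientGroup.eq.mpr ?_⟩
        rw [← Subgroup.mem_map_iff_mem M.subtype_injective]
        show b⁻¹ * (c : G) ∈ fittingHallOf M
        rw [← he, inv_mul_cancel_left, hne]
        exact ha
      haveI : Group.IsNilpotent ((X.subgroupOf M).map π) := by
        haveI : Group.IsNilpotent (X.subgroupOf M) := Subgroup.isNilpotent_of_ker_le_center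
          (1 : X.subgroupOf M →* Unit) fun z _ => mem_center_iff.mpr fun y =>
            (IsCyclic.commGroup (α := X.subgroupOf M)).mul_comm y z
        exact Group.nilpotent_of_surjective _ (π.subgroupMap_surjective _)
      exact Group.nilpotent_of_mulEquiv (subgroupOfEquivOfLe hle)
    · have hXbot : X = ⊥ := by
        by_contra hX1
        obtain ⟨p, hp, hpd⟩ := Nat.exists_prime_and_dvd (fun e => hX1 (X.eq_bot_of_card_eq e))
        haveI := Fact.mk hp
        have hτ := hXτ p hp hpd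
        obtain ⟨A, hAM, hA, hAc⟩ := elem_of_not_pRankLE hτ.2.2.2
        exact (Fcore.basic hG hM hKU hne).1 (Cfsg.Agent.S1417.result hG M hM p hτ A ⟨hAM, hA, hAc⟩).1
      rw [hXbot, sup_bot_eq] at hXe
      haveI := (chain hG hM).2.2.2.2
      have hle : C.map π ≤ (commutator ↥M).map π := map_mono fun c hc => by
        rw [← Subgroup.mem_map_iff_mem M.subtype_injective, map_subtype_commutator]
        exact hSD (hXe.le (hCeq.le ⟨c, hc, rfl⟩)).1
      exact Group.nilpotent_of_mulEquiv (subgroupOfEquivOfLe hle)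
  haveI : Group.IsNilpotent C := by
    haveI := hnilC
    refine Subgroup.isNilpotent_of_ker_le_center (π.subgroupMap C) fun c hc => mem_center_iff.mpr fun d => ?_
    have hcF : (c : ↥M) ∈ fittingHall ↥M :=
      (QuotientGroup.eq_one_iff _).mp (congrArg Subtype.val (MonoidHom.mem_ker.mp hc))
    exact Subtype.ext (mem_centralizer_iff.mp d.2 c hcF).symm
  haveI : C.Normal := Subgroup.normal_centralizer
  rw [← hCeq]
  exact map_mono (Hall.le_fittingSubgroup (N := C) inferInstance)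

set_option maxHeartbeats 800000 in
/-- `M'' ≤ F(M)`. -/
theorem second_derived (hG : IsMinSimpleOddOrder G) (hM : IsCoatom M) :
    ⁅⁅M, M⁆, ⁅M, M⁆⁆ ≤ fittingOf M := by
  obtain ⟨K, U, hKU⟩ := exists_decomp hG hM
  have hSM : sigmaCore M ≤ M := map_subtype_le _
  obtain ⟨hFn, hFnil, hFc⟩ := fittingHall_mem (↥M)
  haveI := hFn
  by_cases hne : fittingHallOf M = sigmaCore M
  · refine le_trans ?_ (hne.ge.trans (map_mono (Hall.le_fittingSubgroup hFnil)))
    obtain ⟨E, hE⟩ := UPart.exists_compl hG hM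
    have hab := (Cfsg.Agent.S1420.result hG M hM E hE).2.1
    haveI := hab
    have hMS : M ≤ normalizer (sigmaCore M : Set G) := OddLocal.le_normalizer_piCoreOf (sigma M) M
    haveI : ((sigmaCore M).subgroupOf M).Normal := (normal_subgroupOf_iff_le_normalizer hSM).mpr hMS
    let ρ := QuotientGroup.mk' ((sigmaCore M).subgroupOf M)
    have key : ∀ a b : M, (a : G) ∈ ⁅M, M⁆ → (b : G) ∈ ⁅M, M⁆ → ρ a * ρ b = ρ b * ρ a := by
      have hle : (commutator ↥M).map ρ ≤ (⁅E.subgroupOf M, E.subgroupOf M⁆).map ρ := by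
        have htop : (E.subgroupOf M).map ρ = ⊤ := eq_top_iff.mpr fun x _ => by
          obtain ⟨m, rfl⟩ := QuotientGroup.mk'_surjective _ x
          obtain ⟨a, ha, b, hb, he⟩ := hE.2.2.2 m m.2
          refine ⟨⟨a, hE.1 ha⟩, ha, QuotientGroup.eq.mpr ?_⟩
          show a⁻¹ * (m : G) ∈ sigmaCore M
          rwa [he, inv_mul_cancel_left]
        rw [commutator_def, map_commutator, map_commutator, htop,
          map_top_of_surjective _ (QuotientGroup.mk'_surjective _)]
      intro a b ha hb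
      have hmem : ∀ c : M, (c : G) ∈ ⁅M, M⁆ → ∃ e : M, (e : G) ∈ ⁅E, E⁆ ∧ ρ c = ρ e := by
        intro c hc
        rw [← map_subtype_commutator] at hc
        obtain ⟨e, he, hee⟩ := hle (mem_map_of_mem ρ ((Subgroup.mem_map_iff_mem M.subtype_injective).mp hc))
        refine ⟨e, ?_, hee.symm⟩
        have h := mem_map_of_mem M.subtype he
        rwa [map_commutator, map_subgroupOf_eq_of_le hE.1] at h
      obtain ⟨e, he, hea⟩ := hmem a ha
      obtain ⟨f, hf, hfb⟩ := hmem b hb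
      rw [hea, hfb, ← map_mul, ← map_mul]
      exact congrArg ρ (Subtype.ext (setLike_mul_comm he hf))
    rw [commutator_le]
    intro a ha b hb
    have h : ρ ⁅(⟨a, commutator_le_self M ha⟩ : M), ⟨b, commutator_le_self M hb⟩⁆ = 1 := by
      rw [map_commutatorElement, commutatorElement_eq_one_iff_mul_comm]
      exact key _ _ ha hb
    exact (QuotientGroup.eq_one_iff (N := (sigmaCore M).subgroupOf M)
      ⁅(⟨a, commutator_le_self M ha⟩ : M), (⟨b, commutator_le_self M hb⟩ : M)⁆).mp h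
  · obtain ⟨q, Q, h⟩ := Fcore.exists_structure hG hM hKU hne
    obtain ⟨-, -, -, -, hD'⟩ := Fcore.basic hG hM hKU hne
    obtain ⟨D, hD, -⟩ := h.exists_data
    obtain ⟨hDnil, -, -, -, -, hDQ, -⟩ := h.compl hG hM hKU hne hD
    haveI := Fact.mk h.prime
    haveI := h.pgroup.isNilpotent
    haveI := hDnil
    rw [hD']
    set S := sigmaCore M with hS
    set W := Q ⊔ ⁅D, D⁆ with hW
    have hD'S : ⁅D, D⁆ ≤ S := (commutator_le_self D).trans hD.2.1
    have hWn : S ≤ normalizer (W : Set G) := Fcore.le_normalizer_of_compl hD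
      (le_sup_left.trans le_normalizer) (fun d hd => Coprime.mem_normalizer_of_conj_smul_eq (by
        rw [hW, Subgroup.smul_sup, Coprime.conj_smul_eq_self (h.norm (hSM (hD.2.1 hd))),
          Coprime.conj_smul_eq_self (Coprime.left_le_normalizer_commutator D D hd)]))
    haveI : (W.subgroupOf S).Normal :=
      (normal_subgroupOf_iff_le_normalizer (sup_le h.le_sigma hD'S)).mpr hWn
    have hle : ⁅S, S⁆ ≤ W := by
      let ρ := QuotientGroup.mk' (W.subgroupOf S)
      have hmem : ∀ s : S, ∃ d : S, (d : G) ∈ D ∧ ρ s = ρ d := by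
        intro s
        obtain ⟨a, ha, b, hb, he⟩ := hD.2.2.2 s s.2
        refine ⟨⟨b, hD.2.1 hb⟩, hb, QuotientGroup.eq.mpr ?_⟩
        show (s : G)⁻¹ * b ∈ W
        rw [he, show (a * b)⁻¹ * b = b⁻¹ * a⁻¹ * b⁻¹⁻¹ by group]
        exact mem_sup_left ((mem_normalizer_iff.mp (h.norm (M.inv_mem (hSM (hD.2.1 hb)))) _).mp (Q.inv_mem ha))
      rw [commutator_le]
      intro a ha b hb
      obtain ⟨d, hd, h1⟩ := hmem ⟨a, ha⟩
      obtain ⟨e, he, h2⟩ := hmem ⟨b, hb⟩
      have h3 : ρ ⁅(⟨a, ha⟩ : S), ⟨b, hb⟩⁆ = 1 := by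
        rw [map_commutatorElement, h1, h2, ← map_commutatorElement]
        exact (QuotientGroup.eq_one_iff _).mpr (mem_sup_right (commutator_mem_commutator hd he) :
          ⁅(d : G), (e : G)⁆ ∈ W)
      exact (QuotientGroup.eq_one_iff (N := W.subgroupOf S) ⁅(⟨a, ha⟩ : S), (⟨b, hb⟩ : S)⁆).mp h3
    have hWnil : Group.IsNilpotent W := by
      haveI : Group.IsNilpotent ↥⁅D, D⁆ := Group.nilpotent_of_mulEquiv (subgroupOfEquivOfLe (commutator_le_self D))
      let f : Q × ↥⁅D, D⁆ →* W :=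
        { toFun := fun z => ⟨(z.1 : G) * z.2, mul_mem (mem_sup_left z.1.2) (mem_sup_right z.2.2)⟩
          map_one' := Subtype.ext (mul_one 1)
          map_mul' := fun z w => Subtype.ext (by
            show (z.1 : G) * w.1 * ((z.2 : G) * w.2) = z.1 * z.2 * (w.1 * w.2)
            have hc : (w.1 : G) * z.2 = z.2 * w.1 := mem_centralizer_iff.mp (hDQ z.2.2) w.1 w.1.2
            rw [mul_assoc, ← mul_assoc (w.1 : G), hc, mul_assoc (z.2 : G), ← mul_assoc]) }
      refine Group.nilpotent_of_surjective f fun w => ?_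
      obtain ⟨a, ha, b, hb, he⟩ := (Coprime.mem_sup_of_le_normalizer
        (hD'S.trans (hSM.trans h.norm))).mp (show (w : G) ∈ ⁅D, D⁆ ⊔ Q by rw [sup_comm]; exact w.2)
      refine ⟨(⟨b, hb⟩, ⟨a, ha⟩), Subtype.ext ?_⟩
      show b * a = (w : G)
      rw [← he, mem_centralizer_iff.mp (hDQ ha) b hb]
    -- `S'` is a nilpotent normal subgroup of `M`
    have hSS : ⁅S, S⁆ ≤ M := (commutator_le_self S).trans hSM
    have hMn : M ≤ normalizer (⁅S, S⁆ : Subgroup G) := fun m hm => Coprime.mem_normalizer_of_conj_smul_eq (by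
      show (⁅S, S⁆).map (MulAut.conj m).toMonoidHom = _
      rw [map_commutator]
      show ⁅MulAut.conj m • S, MulAut.conj m • S⁆ = _
      rw [Coprime.conj_smul_eq_self (H := S) (OddLocal.le_normalizer_piCoreOf (sigma M) M hm)])
    haveI : ((⁅S, S⁆).subgroupOf M).Normal := (normal_subgroupOf_iff_le_normalizer hSS).mpr hMn
    haveI := hWnil
    haveI : Group.IsNilpotent ↥⁅S, S⁆ := Group.nilpotent_of_mulEquiv (subgroupOfEquivOfLe hle)
    rw [← map_subgroupOf_eq_of_le hSS]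
    exact map_mono (Hall.le_fittingSubgroup (Group.nilpotent_of_mulEquiv (subgroupOfEquivOfLe hSS).symm))

/-- `M'' ≤ F(M) = C_M(M_F) M_F`, and `F(M) ≤ M'` if `κ(M) ≠ ∅`. -/
theorem fitting (hG : IsMinSimpleOddOrder G) (hM : IsCoatom M) :
    ⁅⁅M, M⁆, ⁅M, M⁆⁆ ≤ fittingOf M ∧
      fittingOf M = (M ⊓ centralizer (fittingHallOf M : Set G)) ⊔ fittingHallOf M ∧
      ((kappa M).Nonempty → fittingOf M ≤ ⁅M, M⁆) := by
  obtain ⟨K, U, hKU⟩ := exists_decomp hG hM
  obtain ⟨hF1, hFS, hSD, -, -⟩ := chain hG hM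
  have hSM : sigmaCore M ≤ M := map_subtype_le _
  obtain ⟨hFn, hFnil, hFc⟩ := fittingHall_mem (↥M)
  haveI := hFn
  refine ⟨second_derived hG hM,
    le_antisymm ?_ (sup_le (centralizer_le_fitting hG hM) (map_mono (Hall.le_fittingSubgroup hFnil))), ?_⟩
  · -- `F(M) ≤ C M_F`
    have hle : fittingSubgroup ↥M ≤ centralizer (fittingHall ↥M : Set ↥M) ⊔ fittingHall ↥M := by
      rw [Hall.fittingSubgroup_eq_iSup_pCore, iSup_le_iff]
      intro p
      haveI : Fact (p : ℕ).Prime := ⟨p.2⟩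
      by_cases hd : (p : ℕ) ∣ Nat.card (fittingHall ↥M)
      · refine le_sup_of_le_right (le_of_coprime_index ?_)
        obtain ⟨j, hj⟩ := IsPGroup.iff_card.mp (Hall.isPGroup_pCore (G := ↥M) (p : ℕ))
        rw [hj]
        exact (p.2.coprime_iff_not_dvd.mpr fun h => p.2.ne_one (Nat.eq_one_of_dvd_coprimes hFc hd h)).pow_left j
      · refine le_sup_of_le_left fun a ha => mem_centralizer_iff.mpr fun f hf => ?_
        have hdis : Disjoint (pCore (p : ℕ) ↥M) (fittingHall ↥M) := by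
          rw [disjoint_iff]
          obtain ⟨j, hj⟩ := IsPGroup.iff_card.mp (Hall.isPGroup_pCore (G := ↥M) (p : ℕ))
          refine Coprime.inf_eq_bot_of_coprime ?_
          rw [hj]
          exact (p.2.coprime_iff_not_dvd.mpr hd).pow_left j
        exact (commute_of_normal_of_disjoint _ _ inferInstance inferInstance hdis a f ha hf).eq.symm
    refine (map_mono hle).trans ?_
    rw [Subgroup.map_sup]
    refine sup_le_sup ?_ le_rfl
    rintro _ ⟨c, hc, rfl⟩
    refine ⟨c.2, mem_centralizer_iff.mpr ?_⟩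
    rintro _ ⟨f, hf, rfl⟩
    exact congrArg Subtype.val (mem_centralizer_iff.mp hc f hf)
  · rintro ⟨r, hr⟩
    have hK1 : K ≠ ⊥ := by
      rintro rfl
      refine hKU.hall.2.2 r hr.1 hr ?_
      rw [relIndex_bot_left]; exact hr.2.1
    obtain ⟨-, hYτ, hFeq⟩ := Cfsg.Agent.S1439.result hG M hM
    rw [hFeq, Decomposition.derived_eq hG hM hKU hK1]
    refine sup_le ((map_subtype_le _).trans le_sup_right) ?_
    set Y := piCoreOf {q | q.Prime ∧ q ∉ sigma M} (fittingOf M) with hY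
    have hYM : Y ≤ M := (map_subtype_le _).trans (map_subtype_le _)
    have hWM : U ⊔ sigmaCore M ≤ M := sup_le hKU.compl.1 hSM
    haveI : ((U ⊔ sigmaCore M).subgroupOf M).Normal :=
      (normal_subgroupOf_iff_le_normalizer hWM).mpr (UPart.normal_U_sigma hKU)
    have h : Y.subgroupOf M ≤ (U ⊔ sigmaCore M).subgroupOf M := le_of_coprime_index <| by
      rw [Coprime.card_subgroupOf hYM]
      refine Nat.coprime_of_dvd fun t ht h1 h2 => ?_
      haveI := Fact.mk ht
      have hτ := hYτ t ht h1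
      exact (Decomposition.hall_U hG hM hKU).2.2 t ht ⟨ht, Support.tau2_not_kappa hτ, hτ.2.1⟩
        (h2.trans (relIndex_dvd_of_le_left M le_sup_left))
    exact fun y hy => h (show (⟨y, hYM hy⟩ : M) ∈ Y.subgroupOf M from hy)


/-- `F(M)` is TI when `M_F ≠ M_σ`. -/
theorem fitting_ti (hG : IsMinSimpleOddOrder G) (hM : IsCoatom M) (hKU : IsSigmaDecomposition M K U)
    (hne : fittingHallOf M ≠ sigmaCore M) : IsTISubset (fittingOf M : Set G) := by
  obtain ⟨q, Q, h⟩ := Fcore.exists_structure hG hM hKU hne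
  obtain ⟨hnil, -, hK1, hKS, hD⟩ := Fcore.basic hG hM hKU hne
  haveI := Fact.mk h.prime
  intro g hg x hx hgx
  by_contra hx1
  have hgM : g ∉ M := fun hm => hg (by
    have := le_normalizer_map (H := fittingSubgroup ↥M) M.subtype
    exact this ⟨⟨g, hm⟩, by rw [normalizer_eq_top]; exact mem_top _, rfl⟩)
  have hne' : (kappa M).Nonempty := by
    obtain ⟨r, hr, hd⟩ := Nat.exists_prime_and_dvd (fun e => hK1 (K.eq_bot_of_card_eq e))
    exact ⟨r, hKU.hall.2.1 r hr hd⟩
  have hFS : fittingOf M ≤ sigmaCore M := ((fitting hG hM).2.2 hne').trans hD.le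
  obtain ⟨r, hr, hrd⟩ := Nat.exists_prime_and_dvd (mt orderOf_eq_one_iff.mp hx1)
  haveI := Fact.mk hr
  set z := x ^ (orderOf x / r) with hz
  have hzo : orderOf z = r := orderOf_pow_orderOf_div (orderOf_pos x).ne' hrd
  have hzF : z ∈ fittingOf M := pow_mem hx _
  have hzF' : g * z * g⁻¹ ∈ fittingOf M := by
    rw [hz, ← conj_pow]; exact pow_mem hgx _
  have hQF : Q ≤ fittingOf M := h.le_fitting.trans (map_mono (Hall.le_fittingSubgroup (fittingHall_mem (↥M)).2.1))
  have hqr : r ≠ q := by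
    rintro rfl
    obtain ⟨-, hnb, -⟩ := (Cfsg.Agent.S1426.result hG M hM K hKS).2.2 g hgM
    have hw : g * z * g⁻¹ ∈ sigmaCore M ⊓ M.map (MulAut.conj g).toMonoidHom :=
      ⟨hFS hzF', ⟨z, map_subtype_le _ hzF, rfl⟩⟩
    refine hnb r hr ?_ h.beta
    have ho : orderOf (g * z * g⁻¹) = r := by rw [← MulAut.conj_apply, MulEquiv.orderOf_eq, hzo]
    exact ho ▸ Subgroup.orderOf_dvd_natCard _ hw
  haveI : Group.IsNilpotent (fittingOf M) := by
    haveI := Hall.fittingSubgroup_isNilpotent (G := ↥M)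
    exact Group.nilpotent_of_mulEquiv ((fittingSubgroup ↥M).equivMapOfInjective _ M.subtype_injective)
  have hcent : ∀ w ∈ fittingOf M, orderOf w = r → Q ≤ centralizer ({w} : Set G) := by
    intro w hw hwo v hv
    refine mem_centralizer_singleton_iff.mpr ?_
    obtain ⟨j, hj⟩ := IsPGroup.iff_orderOf.mp h.pgroup ⟨v, hv⟩
    rw [orderOf_mk] at hj
    exact (congrArg Subtype.val (Cfsg.Agent.Lib.GS.commute_of_nilpotent (inferInstance : Group.IsNilpotent (fittingOf M))
      (x := (⟨v, hQF hv⟩ : fittingOf M)) (y := ⟨w, hw⟩) (p := q) (q := r) (a := j) (b := 1) h.prime hr (Ne.symm hqr)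
      (by rw [orderOf_mk, hj]) (by rw [orderOf_mk, hwo, pow_one])).eq)
  obtain ⟨hC, hU', hX⟩ := kappa_structure hG hM hKU.hall hK1
  obtain ⟨-, -, hS, -⟩ := KappaStar.star_props hG hM hKU.hall hK1 hU' hX
  have hsub : IsPGroup q (Q.subgroupOf (sigmaCore M)) := h.pgroup.of_equiv (subgroupOfEquivOfLe h.le_sigma).symm
  obtain ⟨hQu, hQM, -⟩ := hS q h.prime h.card_star.symm.dvd (hsub.toSylow h.hall)
  rw [show ((hsub.toSylow h.hall : Sylow q ↥(sigmaCore M)) : Subgroup ↥(sigmaCore M)) = Q.subgroupOf (sigmaCore M) from rfl,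
    map_subgroupOf_eq_of_le h.le_sigma] at hQu hQM
  have hne_top : centralizer ({z} : Set G) ≠ ⊤ :=
    minSimple_centralizer_ne_top hG fun e => hr.ne_one (by rw [← hzo, e, orderOf_one])
  obtain ⟨L, hL, hCL⟩ := exists_coatom_ge hne_top
  have hQL : Q ≤ L := (hcent z hzF hzo).trans hCL
  have hLM : L = M := max_eq hQu hL hM hQL hQM
  -- `Q^{g⁻¹}` centralizes `z`
  have hQg : MulAut.conj g⁻¹ • Q ≤ L := by
    refine le_trans ?_ hCL
    rintro _ ⟨v, hv, rfl⟩
    have h1 := mem_centralizer_singleton_iff.mp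
      (hcent _ hzF' (by rw [← MulAut.conj_apply, MulEquiv.orderOf_eq, hzo]) hv)
    refine mem_centralizer_singleton_iff.mpr ?_
    show g⁻¹ * v * g⁻¹⁻¹ * z = z * (g⁻¹ * v * g⁻¹⁻¹)
    calc g⁻¹ * v * g⁻¹⁻¹ * z = g⁻¹ * (v * (g * z * g⁻¹)) * g := by group
      _ = z * (g⁻¹ * v * g⁻¹⁻¹) := by rw [h1]; group
  have hQu' : InUniqueMaximal (MulAut.conj g⁻¹ • Q : Subgroup G) := KappaStar.inUnique_conj hQu g⁻¹
  have hMg : MulAut.conj g⁻¹ • M = M := max_eq hQu' (coatom_conj hM g⁻¹) hM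
    (pointwise_smul_le_pointwise_smul_iff.mpr hQM) (hQg.trans hLM.le)
  refine hgM (inv_mem_iff.mp ?_)
  have hmem := Coprime.mem_normalizer_of_conj_smul_eq hMg
  rwa [normalizer_eq_of_normal hG hM (fun e => h.prime.ne_one (by
    have h2 := h.card_star.symm.dvd.trans (card_dvd_of_le (inf_le_left.trans (map_subtype_le _)))
    rw [e, card_bot] at h2
    exact Nat.dvd_one.mp h2)) le_rfl le_normalizer] at hmem

end Cfsg.Agent.Lib.OddLocal.Fifteen
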