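import Cfsg.Agent.Lib.OddLocal.Decomposition
import Cfsg.Agent.Lib.Uniq.FrobeniusTypeMain
import Cfsg.Agent.S1361
import Cfsg.Agent.S1421
set_option autoImplicit false

/-! BG 15.1: a subgroup of `U` of the same exponent acting freely on `M_σ`. -/

namespace Cfsg.Agent.Lib.OddLocal.FreePart

open Subgroup
open scoped Pointwise
open Cfsg.Agent.Lib.Uniq

universe u

variable {G : Type u} [Group G] [Finite G] {M K U : Subgroup G}

/-- The element `u` acts freely on `M_σ`. -/
def Free (M : Subgroup G) (u : G) : Prop := ∀ y ∈ sigmaCore M, Commute u y → y = 1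

/-- A cyclic group of order `n` whose prime-order elements act freely, acts freely. -/
theorem free_zpowers {z : G} (h : ∀ p : ℕ, p.Prime → p ∣ orderOf z → Free M (z ^ (orderOf z / p)))
    {u : G} (hu : u ∈ zpowers z) (hu1 : u ≠ 1) : Free M u := by
  intro y hy hc
  obtain ⟨p, hp, hpd⟩ := Nat.exists_prime_and_dvd (mt orderOf_eq_one_iff.mp hu1)
  have hpz : p ∣ orderOf z := hpd.trans (by
    rw [← Nat.card_zpowers z]; exact (zpowers z).orderOf_dvd_natCard hu)
  set a := u ^ (orderOf u / p) with ha
  set b := z ^ (orderOf z / p) with hb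
  have hao : orderOf a = p := orderOf_pow_orderOf_div (orderOf_pos u).ne' hpd
  have hbo : orderOf b = p := orderOf_pow_orderOf_div (orderOf_pos z).ne' hpz
  have heq : zpowers b = zpowers a :=
    eq_of_card_eq_of_le_cyclic (W := zpowers z)
      (zpowers_le.2 (pow_mem (mem_zpowers z) _)) (zpowers_le.2 (pow_mem hu _))
      (by rw [Nat.card_zpowers, Nat.card_zpowers, hao, hbo])
  obtain ⟨n, hn⟩ := mem_zpowers_iff.mp (heq.le (mem_zpowers b))
  refine h p hp hpz y hy ?_
  show Commute b y
  rw [← hn]
  exact (hc.pow_left _).zpow_left n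

/-- In the abelian case some element of `U` of `p`-power order, maximal possible, has free bottom line. -/
theorem exists_free_part (hG : IsMinSimpleOddOrder G) (hM : IsCoatom M) (hKU : IsSigmaDecomposition M K U)
    (hc : IsMulCommutative U) {p : ℕ} [hp : Fact p.Prime] {x : G} {k : ℕ} (hk : k ≠ 0) (hx : x ∈ U)
    (hxo : orderOf x = p ^ k) (hmax : ∀ w ∈ U, ∀ j, orderOf w = p ^ j → j ≤ k) :
    ∃ z ∈ U, orderOf z = p ^ k ∧ Free M (z ^ (orderOf z / p)) := by
  by_contra hno
  push Not at hno
  have hpU : p ∣ Nat.card U := (dvd_pow_self p hk).trans (hxo ▸ U.orderOf_dvd_natCard hx)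
  obtain ⟨hpσ, hpκ⟩ := UPart.prime_U hG hM hKU hp.out hpU
  obtain ⟨P⟩ : Nonempty (Sylow p U) := inferInstance
  haveI := hc
  set P₁ := (P : Subgroup U).map U.subtype with hP₁
  have hP₁M : P₁ ≤ M := (map_subtype_le _).trans hKU.compl.1
  have hmem : ∀ w ∈ U, ∀ j, orderOf w = p ^ j → w ∈ P₁ := by
    intro w hw j hwo
    have hW : IsPGroup p (zpowers (⟨w, hw⟩ : U)) :=
      IsPGroup.iff_card.mpr ⟨j, by rw [Nat.card_zpowers, orderOf_mk, hwo]⟩
    obtain ⟨S, hS⟩ := hW.exists_le_sylow
    obtain ⟨a, ha⟩ := MulAction.exists_smul_eq U P S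
    rw [Sylow.smul_eq_of_normal] at ha
    exact ⟨⟨w, hw⟩, (ha.symm ▸ hS) (mem_zpowers _), rfl⟩
  -- `P` is a Sylow subgroup of `M`
  have hsub : IsPGroup p (P₁.subgroupOf M) :=
    (P.2.map U.subtype).of_equiv (subgroupOfEquivOfLe hP₁M).symm
  have hidx : ¬ p ∣ (P₁.subgroupOf M).index := by
    show ¬ p ∣ P₁.relIndex M
    rw [← relIndex_mul_relIndex _ _ _ (map_subtype_le _ : P₁ ≤ U) hKU.compl.1]
    intro hd
    rcases (Nat.Prime.dvd_mul hp.out).mp hd with h | h
    · rw [relIndex, subgroupOf, comap_map_eq_self_of_injective U.subtype_injective] at h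
      exact P.not_dvd_index h
    · exact (Decomposition.hall_U hG hM hKU).2.2 p hp.out ⟨hp.out, hpκ, hpσ⟩ h
  let S : Sylow p M := hsub.toSylow hidx
  have hS : (S : Subgroup M).map M.subtype = P₁ := map_subgroupOf_eq_of_le hP₁M
  refine hpσ ⟨hp.out, hpU.trans (card_dvd_of_le hKU.compl.1), S, ?_⟩
  rw [hS]
  intro g hg
  have key : ∀ z ∈ U, orderOf z = p ^ k →
      centralizer ((zpowers (z ^ (orderOf z / p)) : Subgroup G) : Set G) ≤ M ∧
      ∀ L : Subgroup G, IsCoatom L → centralizer ((zpowers (z ^ (orderOf z / p)) : Subgroup G) : Set G) ≤ L → L = M := by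
    intro z hz hzo
    set b := z ^ (orderOf z / p) with hb
    have hbo : orderOf b = p := orderOf_pow_orderOf_div (orderOf_pos z).ne' (hzo ▸ dvd_pow_self p hk)
    have hnf := hno z hz hzo
    unfold Free at hnf
    push Not at hnf
    obtain ⟨y, hy, hby, hy1⟩ := hnf
    refine Cfsg.Agent.S1361.result hG M hM K U hKU _ (zpowers_le.2 (U.pow_mem hz _))
      (zpowers_ne_bot.2 fun e => hp.out.ne_one (by rw [← hbo, e, orderOf_one])) fun e => hy1 ?_
    rw [← mem_bot, ← e, centralizer_zpowers]
    exact ⟨hy, mem_centralizer_singleton_iff.mpr hby.symm.eq⟩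
  have hxP := hmem x hx k hxo
  set x' := g * x * g⁻¹ with hx'
  have hx'U : x' ∈ U := map_subtype_le _ ((mem_normalizer_iff.mp hg x).mp hxP)
  have hx'o : orderOf x' = p ^ k := by
    rw [← hxo, hx', ← MulAut.conj_apply]
    exact MulEquiv.orderOf_eq _ x
  obtain ⟨h1, h2⟩ := key x hx hxo
  obtain ⟨-, h4⟩ := key x' hx'U hx'o
  obtain ⟨h3, -⟩ := key x' hx'U hx'o
  have hb : x' ^ (orderOf x' / p) = g * x ^ (orderOf x / p) * g⁻¹ := by
    rw [hx'o, ← hxo, hx', conj_pow]
  have hle : centralizer ((zpowers (x' ^ (orderOf x' / p)) : Subgroup G) : Set G) ≤ MulAut.conj g • M := by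
    intro c hc'
    rw [centralizer_zpowers, mem_centralizer_singleton_iff, hb] at hc'
    refine Coprime.mem_conj_smul.mpr (h1 ?_)
    rw [centralizer_zpowers, mem_centralizer_singleton_iff]
    calc g⁻¹ * c * g * x ^ (orderOf x / p) = g⁻¹ * (c * (g * x ^ (orderOf x / p) * g⁻¹)) * g := by group
      _ = x ^ (orderOf x / p) * (g⁻¹ * c * g) := by rw [hc']; group
  have hgM : MulAut.conj g • M = M := h4 _ (coatom_conj hM g) hle
  have hMM : normalizer (M : Set G) ≤ M := (normalizer_eq_of_normal hG hM (fun h => hp.out.ne_one (Nat.dvd_one.mp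
    (by have := hpU.trans (card_dvd_of_le hKU.compl.1); rwa [h, card_bot] at this))) le_rfl le_normalizer).le
  exact hMM (Coprime.mem_normalizer_of_conj_smul_eq hgM)

/-- BG 15.1 (c). -/
theorem exists_free (hG : IsMinSimpleOddOrder G) (hM : IsCoatom M) (hKU : IsSigmaDecomposition M K U) :
    ∃ U₀ : Subgroup G, U₀ ≤ U ∧ Monoid.exponent U₀ = Monoid.exponent U ∧ ∀ u ∈ U₀, u ≠ 1 → Free M u := by
  classical
  rcases eq_or_ne K ⊥ with hK | hK1
  · subst hK
    have hE : IsComplIn U (sigmaCore M) M := by simpa using hKU.compl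
    obtain ⟨-, E₀, hle, hexp, hgood⟩ := Cfsg.Agent.S1421.result hG M hM U hE fun e he he1 hτ => by
      by_contra hne
      obtain ⟨y, hy, hy1⟩ := (bot_or_exists_ne_one _).resolve_left hne
      obtain ⟨q, hq, hqd⟩ := Nat.exists_prime_and_dvd (mt orderOf_eq_one_iff.mp he1)
      haveI := Fact.mk hq
      obtain ⟨hσ, -⟩ := UPart.prime_U hG hM hKU hq (hqd.trans (U.orderOf_dvd_natCard he))
      have h2 := UPart.tau2_of_sigmaHat hG hM hKU he hy.1 hy1
        (mem_centralizer_singleton_iff.mp hy.2).symm q hq hqd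
      rcases hτ q hq hqd with h | h
      · exact h2.2.2.2 h.2.2.2.2
      · exact h2.2.2.2 h.2.2.2
    refine ⟨E₀, hle, hexp, fun u hu hu1 y hy hc => ?_⟩
    rw [← mem_bot, ← hgood u hu hu1]
    exact ⟨hy, mem_centralizer_singleton_iff.mpr hc.symm.eq⟩
  · obtain ⟨hcU, -⟩ := Decomposition.abelian_free hG hM hKU hK1
    haveI := hcU
    obtain ⟨x, hx⟩ : ∃ x : U, orderOf x = Monoid.exponent U :=
      letI : CommGroup U := { U.toGroup with mul_comm := fun a b => Std.Commutative.comm a b }
      Monoid.exists_orderOf_eq_exponent (Monoid.ExponentExists.of_finite)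
    set n := Monoid.exponent U with hn
    have hn0 : n ≠ 0 := by rw [← hx]; exact (orderOf_pos x).ne'
    have hw : ∀ w ∈ U, orderOf w ∣ n := fun w hw => by
      rw [show orderOf w = orderOf (⟨w, hw⟩ : U) from (orderOf_mk w hw).symm]
      exact Monoid.order_dvd_exponent _
    have main : ∀ s : Finset ℕ, s ⊆ n.primeFactors →
        ∃ z ∈ U, orderOf z = ∏ p ∈ s, p ^ n.factorization p ∧ ∀ p ∈ s, Free M (z ^ (orderOf z / p)) := by
      intro s
      induction s using Finset.induction_on with
      | empty => exact fun _ => ⟨1, U.one_mem, by simp, by simp⟩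
      | @insert p t hpt ih =>
        intro hs
        obtain ⟨z, hz, hzo, hzf⟩ := ih ((Finset.subset_insert _ _).trans hs)
        have hpn := hs (Finset.mem_insert_self _ _)
        have hpp : p.Prime := Nat.prime_of_mem_primeFactors hpn
        haveI := Fact.mk hpp
        have hk : n.factorization p ≠ 0 :=
          (hpp.factorization_pos_of_dvd hn0 (Nat.dvd_of_mem_primeFactors hpn)).ne'
        have hd : p ^ n.factorization p ∣ orderOf (x : G) := by
          rw [Subgroup.orderOf_coe, hx]; exact Nat.ordProj_dvd n p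
        obtain ⟨y, hy, hyo, hyf⟩ := exists_free_part hG hM hKU hcU hk
          (U.pow_mem x.2 (orderOf (x : G) / p ^ n.factorization p))
          (orderOf_pow_orderOf_div (orderOf_pos _).ne' hd)
          fun w hwU j hj => (hpp.pow_dvd_iff_le_factorization hn0).mp (hj ▸ hw w hwU)
        have hcom : Commute z y := setLike_mul_comm hz hy
        have hcop : (orderOf z).Coprime (orderOf y) := by
          rw [hzo, hyo]
          refine Nat.Coprime.prod_left fun r hr => Nat.Coprime.pow _ _ ?_
          exact (Nat.coprime_primes (Nat.prime_of_mem_primeFactors (hs (Finset.mem_insert_of_mem hr))) hpp).mpr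
            fun e => hpt (e ▸ hr)
        have ho := hcom.orderOf_mul_eq_mul_orderOf_of_coprime hcop
        refine ⟨z * y, U.mul_mem hz hy, by rw [ho, hzo, hyo, Finset.prod_insert hpt, mul_comm], fun r hr => ?_⟩
        rw [ho, hcom.mul_pow]
        rcases Finset.mem_insert.mp hr with e | hr'
        · subst e
          have hd' : r ∣ orderOf y := hyo ▸ dvd_pow_self r hk
          rw [Nat.mul_div_assoc _ hd', pow_mul, pow_orderOf_eq_one, one_pow, one_mul,
            mul_comm (orderOf z), pow_mul]
          intro v hv hcv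
          refine free_zpowers (z := y ^ (orderOf y / r)) (fun q hq hqd => ?_) (pow_mem (mem_zpowers _) _) ?_ v hv hcv
          · have hbo : orderOf (y ^ (orderOf y / r)) = r := orderOf_pow_orderOf_div (orderOf_pos y).ne' hd'
            rw [hbo] at hqd ⊢
            rw [(Nat.prime_dvd_prime_iff_eq hq hpp).mp hqd, Nat.div_self hpp.pos, pow_one]
            exact hyf
          · intro e
            have hbo : orderOf (y ^ (orderOf y / r)) = r := orderOf_pow_orderOf_div (orderOf_pos y).ne' hd'
            have := orderOf_dvd_of_pow_eq_one e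
            rw [hbo] at this
            exact hpp.ne_one (Nat.eq_one_of_dvd_coprimes hcop this hd')
        · have hrp : r.Prime := Nat.prime_of_mem_primeFactors (hs (Finset.mem_insert_of_mem hr'))
          have hd' : r ∣ orderOf z := by
            rw [hzo]
            refine dvd_trans (dvd_pow_self r ?_) (Finset.dvd_prod_of_mem _ hr')
            exact (hrp.factorization_pos_of_dvd hn0
              (Nat.dvd_of_mem_primeFactors (hs (Finset.mem_insert_of_mem hr')))).ne'
          rw [mul_comm (orderOf z), Nat.mul_div_assoc _ hd', pow_mul y, pow_orderOf_eq_one, one_pow, mul_one,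
            mul_comm (orderOf y), pow_mul]
          intro v hv hcv
          refine free_zpowers (z := z ^ (orderOf z / r)) (fun q hq hqd => ?_) (pow_mem (mem_zpowers _) _) ?_ v hv hcv
          · have hbo : orderOf (z ^ (orderOf z / r)) = r := orderOf_pow_orderOf_div (orderOf_pos z).ne' hd'
            rw [hbo] at hqd ⊢
            rw [(Nat.prime_dvd_prime_iff_eq hq hrp).mp hqd, Nat.div_self hrp.pos, pow_one]
            exact hzf r hr'
          · intro e
            have hbo : orderOf (z ^ (orderOf z / r)) = r := orderOf_pow_orderOf_div (orderOf_pos z).ne' hd'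
            have := orderOf_dvd_of_pow_eq_one e
            rw [hbo] at this
            exact hrp.ne_one (Nat.eq_one_of_dvd_coprimes hcop hd' this)
    obtain ⟨z, hz, hzo, hzf⟩ := main n.primeFactors subset_rfl
    rw [← Nat.prod_primeFactors_pow_factorization hn0] at hzo
    refine ⟨zpowers z, zpowers_le.2 hz, ?_, fun u hu hu1 => free_zpowers (fun p hp hd => hzf p ?_) hu hu1⟩
    · rw [IsCyclic.exponent_eq_card, Nat.card_zpowers, hzo]
    · exact Nat.mem_primeFactors.mpr ⟨hp, hzo ▸ hd, hn0⟩

end Cfsg.Agent.Lib.OddLocal.FreePart
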