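import Cfsg.Agent.Lib.OddLocal.CyclicFix
import Cfsg.Agent.Lib.OddLocal.CoprimeOdd
set_option autoImplicit false

/-! A Frobenius group `D K` acting on a `q`-group with fixed points of order `q` for the complement. -/

namespace Cfsg.Agent.Lib.OddLocal.FrobeniusPGroup

open Subgroup
open scoped Pointwise commutatorElement

universe u

variable {X : Type u} [Group X] [Finite X] {q : ℕ} [hq : Fact q.Prime] {Q D K : Subgroup X}

/-- The data: `D ⋊ K` is Frobenius, acts coprimely on the `q`-group `Q`, and `C_Q(k)` is the same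
group of order `q` for all `k ∈ K`, `k ≠ 1`. -/
structure Data (q : ℕ) (Q D K : Subgroup X) : Prop where
  pgroup : IsPGroup q Q
  ne : K ≠ ⊥
  norm : D ⊔ K ≤ normalizer (Q : Set X)
  conj : ∀ k ∈ K, ∀ d ∈ D, k * d * k⁻¹ ∈ D
  free : ∀ k ∈ K, k ≠ 1 → ∀ d ∈ D, k * d = d * k → d = 1
  cop : (Nat.card Q).Coprime (Nat.card ↥(D ⊔ K))
  fixed : Nat.card ↥(Q ⊓ centralizer (K : Set X)) = q
  prime : ∀ k ∈ K, k ≠ 1 → Q ⊓ centralizer ({k} : Set X) = Q ⊓ centralizer (K : Set X)
  act : ¬ D ≤ centralizer (Q : Set X)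

theorem fixed_all (hd : Data q Q D K) : Q ⊓ centralizer ((D ⊔ K : Subgroup X) : Set X) = ⊥ := by
  haveI := hd.pgroup.isNilpotent
  have hsolv : Group.IsSolvable Q := inferInstance
  set C := Q ⊓ centralizer ((D ⊔ K : Subgroup X) : Set X)
  have hle : C ≤ Q ⊓ centralizer (K : Set X) :=
    inf_le_inf_left Q (centralizer_le (SetLike.coe_subset_coe.mpr le_sup_right))
  rcases (Nat.dvd_prime hq.out).mp (hd.fixed ▸ card_dvd_of_le hle) with h | h
  · exact C.eq_bot_of_card_eq h
  · exfalso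
    have hf := Wielandt.formula D K hd.ne hd.conj hd.free _ Q rfl hsolv hd.norm hd.cop
    rw [h, hd.fixed] at hf
    have h2 : Q ⊓ centralizer (D : Set X) = Q :=
      eq_of_le_of_card_ge inf_le_left (Nat.eq_of_mul_eq_mul_left (pow_pos hq.out.pos _) hf).le
    exact hd.act fun d hd' => mem_centralizer_iff.mpr fun x hx =>
      ((mem_centralizer_iff.mp (h2.ge hx).2) d hd').symm

/-- Every `D K`-invariant subgroup of `Q` has order `#C(D) · #C(K) ^ #K`. -/
theorem card_invariant (hd : Data q Q D K) {H : Subgroup X} (hHQ : H ≤ Q) (hH : D ⊔ K ≤ normalizer (H : Set X)) :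
    Nat.card H = Nat.card ↥(H ⊓ centralizer (K : Set X)) ^ Nat.card K * Nat.card ↥(H ⊓ centralizer (D : Set X)) := by
  haveI := hd.pgroup.isNilpotent
  have hsolv : Group.IsSolvable H := Coprime.isSolvable_of_le hHQ inferInstance
  have hf := Wielandt.formula D K hd.ne hd.conj hd.free _ H rfl hsolv hH
    (hd.cop.coprime_dvd_left (card_dvd_of_le hHQ))
  have hb : H ⊓ centralizer ((D ⊔ K : Subgroup X) : Set X) = ⊥ :=
    eq_bot_iff.mpr ((inf_le_inf_right _ hHQ).trans (fixed_all hd).le)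
  rw [hb, card_bot, one_pow, one_mul] at hf
  exact hf

theorem card_eq (hd : Data q Q D K) :
    Nat.card Q = Nat.card ↥(Q ⊓ centralizer (D : Set X)) * q ^ Nat.card K := by
  rw [card_invariant hd le_rfl hd.norm, hd.fixed, mul_comm]

theorem centralizer_lt (hd : Data q Q D K) : Q ⊓ centralizer (D : Set X) < Q := by
  refine lt_of_le_of_ne inf_le_left fun h => ?_
  have hc := card_eq hd
  rw [h] at hc
  have h1 : 1 < q ^ Nat.card K := Nat.one_lt_pow Nat.card_pos.ne' hq.out.one_lt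
  have h2 := Nat.eq_of_mul_eq_mul_left (Nat.card_pos (α := Q)) ((mul_one _).trans hc)
  omega

/-- `K` has prime order. -/
theorem prime_card (hd : Data q Q D K) : (Nat.card K).Prime := by
  haveI := hd.pgroup.isNilpotent
  have hsolv : Group.IsSolvable Q := inferInstance
  obtain ⟨r, hr, hrd⟩ := Nat.exists_prime_and_dvd (fun h => hd.ne (K.eq_bot_of_card_eq h))
  haveI := Fact.mk hr
  obtain ⟨k₀, hk₀⟩ := exists_prime_orderOf_dvd_card' r hrd
  set k : X := (k₀ : X)
  have hko : orderOf k = r := by rw [Subgroup.orderOf_coe, hk₀]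
  have hk1 : k ≠ 1 := fun h => hr.ne_one (by rw [← hko, h, orderOf_one])
  have hKle : zpowers k ≤ K := zpowers_le.2 k₀.2
  have hfix : Q ⊓ centralizer ((zpowers k : Subgroup X) : Set X) = Q ⊓ centralizer (K : Set X) := by
    rw [Subgroup.zpowers_eq_closure, Subgroup.centralizer_closure]
    exact hd.prime k k₀.2 hk1
  have hS : D ⊔ zpowers k ≤ D ⊔ K := sup_le_sup_left hKle D
  have hf := Wielandt.formula D (zpowers k) (zpowers_ne_bot.2 hk1) (fun e he => hd.conj e (hKle he))
    (fun e he => hd.free e (hKle he)) _ Q rfl hsolv (hS.trans hd.norm)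
    (hd.cop.coprime_dvd_right (card_dvd_of_le hS))
  have hb : Q ⊓ centralizer ((D ⊔ zpowers k : Subgroup X) : Set X) = ⊥ := by
    refine eq_bot_iff.mpr (le_trans (le_inf inf_le_left ?_) (fixed_all hd).le)
    intro c hc
    rw [mem_centralizer_iff]
    have hc1 : c ∈ Q ⊓ centralizer (K : Set X) := hfix ▸
      ⟨hc.1, centralizer_le (SetLike.coe_subset_coe.mpr le_sup_right) hc.2⟩
    have hle : D ⊔ K ≤ centralizer ({c} : Set X) := by
      refine sup_le (fun d hd' => mem_centralizer_singleton_iff.mpr ?_) fun e he => mem_centralizer_singleton_iff.mpr ?_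
      · exact mem_centralizer_iff.mp hc.2 d (mem_sup_left hd')
      · exact mem_centralizer_iff.mp hc1.2 e he
    exact fun e he => mem_centralizer_singleton_iff.mp (hle he)
  rw [hb, hfix, hd.fixed, card_bot, one_pow, one_mul, Nat.card_zpowers, hko, card_eq hd, mul_comm] at hf
  rw [Nat.pow_right_injective hq.out.two_le (Nat.eq_of_mul_eq_mul_right Nat.card_pos hf)]
  exact hr

theorem eq_or_eq (hd : Data q Q D K) {H : Subgroup X} (h0 : Q ⊓ centralizer (D : Set X) ≤ H) (hHQ : H ≤ Q)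
    (hH : D ⊔ K ≤ normalizer (H : Set X)) : H = Q ⊓ centralizer (D : Set X) ∨ H = Q := by
  have hc := card_invariant hd hHQ hH
  have hD : H ⊓ centralizer (D : Set X) = Q ⊓ centralizer (D : Set X) :=
    le_antisymm (inf_le_inf_right _ hHQ) (le_inf h0 inf_le_right)
  rw [hD] at hc
  rcases (Nat.dvd_prime hq.out).mp (hd.fixed ▸ card_dvd_of_le (inf_le_inf_right _ hHQ :
      H ⊓ centralizer (K : Set X) ≤ Q ⊓ centralizer (K : Set X))) with h | h
  · rw [h, one_pow, one_mul] at hc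
    exact Or.inl (eq_of_le_of_card_ge h0 hc.le).symm
  · rw [h, mul_comm, ← card_eq hd] at hc
    exact Or.inr (eq_of_le_of_card_ge hHQ hc.ge)

theorem le_normalizer_fixed (hd : Data q Q D K) :
    D ⊔ K ≤ normalizer ((Q ⊓ centralizer (D : Set X) : Subgroup X) : Set X) := by
  refine sup_le ?_ fun k hk => ?_
  · intro d hd'
    refine mem_normalizer_iff.mpr fun x => ?_
    have key : ∀ y ∈ Q ⊓ centralizer (D : Set X), ∀ e ∈ D, e * y * e⁻¹ = y := fun y hy e he => by
      rw [mem_centralizer_iff.mp hy.2 e he, mul_inv_cancel_right]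
    refine ⟨fun hx => by rwa [key x hx d hd'], fun hx => ?_⟩
    have h := key _ hx d⁻¹ (D.inv_mem hd')
    simp only [inv_inv, mul_assoc, inv_mul_cancel, mul_one, inv_mul_cancel_left] at h
    rw [h, ← mul_assoc]
    exact hx
  · have hkD : k ∈ normalizer (D : Set X) := mem_normalizer_iff.mpr fun d =>
      ⟨fun h => hd.conj k hk d h, fun h => by simpa [mul_assoc] using hd.conj k⁻¹ (K.inv_mem hk) _ h⟩
    exact inf_normalizer_le_normalizer_inf
      ⟨hd.norm (mem_sup_right hk), Lib.Coprime.normalizer_le_normalizer_centralizer D hkD⟩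

theorem normal_fixed (hd : Data q Q D K) : Q ≤ normalizer ((Q ⊓ centralizer (D : Set X) : Subgroup X) : Set X) := by
  set Q0 := Q ⊓ centralizer (D : Set X) with hQ0
  set N := Q ⊓ normalizer (Q0 : Set X) with hN
  have hinv : D ⊔ K ≤ normalizer (N : Set X) :=
    (le_inf hd.norm ((le_normalizer_fixed hd).trans le_normalizer)).trans inf_normalizer_le_normalizer_inf
  rcases eq_or_eq hd (le_inf inf_le_left le_normalizer) inf_le_left hinv with h | h
  · exfalso
    haveI := hd.pgroup.isNilpotent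
    have hlt : Q0.subgroupOf Q < ⊤ := lt_top_iff_ne_top.mpr fun e =>
      (centralizer_lt hd).not_ge (subgroupOf_eq_top.mp e)
    obtain ⟨x, hx, hxn⟩ := SetLike.exists_of_lt (Group.normalizerCondition_of_isNilpotent _ hlt)
    refine hxn (show (x : X) ∈ Q0 from ?_)
    rw [hQ0, ← h]
    refine ⟨x.2, mem_normalizer_iff.mpr fun y => ⟨fun hy => ?_, fun hy => ?_⟩⟩
    · exact (mem_normalizer_iff.mp hx ⟨y, hy.1⟩).mp hy
    · have hyQ : y ∈ Q := by simpa [mul_assoc] using Q.mul_mem (Q.mul_mem (Q.inv_mem x.2) hy.1) x.2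
      exact (mem_normalizer_iff.mp hx ⟨y, hyQ⟩).mpr hy
  · exact h ▸ inf_le_right

theorem powComm_le (hd : Data q Q D K) : powCommSub q Q ≤ Q ⊓ centralizer (D : Set X) := by
  set Q0 := Q ⊓ centralizer (D : Set X) with hQ0
  set H := powCommSub q Q ⊔ Q0 with hH
  have hinv : D ⊔ K ≤ normalizer (H : Set X) := fun g hg => Coprime.mem_normalizer_of_conj_smul_eq (by
    rw [hH, Subgroup.smul_sup, Coprime.conj_smul_eq_self (le_normalizer_powCommSub q (hd.norm hg)),
      Coprime.conj_smul_eq_self (le_normalizer_fixed hd hg)])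
  have hHQ : H ≤ Q := sup_le (powCommSub_le q Q) inf_le_left
  rcases eq_or_eq hd le_sup_right hHQ hinv with h | h
  · exact le_sup_left.trans h.le
  exfalso
  haveI := hd.pgroup.isNilpotent
  obtain ⟨W, hW, hQW⟩ := (eq_top_or_exists_le_coatom (Q0.subgroupOf Q)).resolve_left fun e =>
    (centralizer_lt hd).not_ge (subgroupOf_eq_top.mp e)
  haveI : W.Normal := NormalizerCondition.normal_of_coatom W Group.normalizerCondition_of_isNilpotent hW
  haveI : IsSimpleGroup (Q ⧸ W) := by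
    haveI : Nontrivial (Q ⧸ W) := QuotientGroup.nontrivial_iff.mpr hW.1
    refine ⟨fun N hN => ?_⟩
    have hle : W ≤ N.comap (QuotientGroup.mk' W) := fun w hw => by
      rw [mem_comap, show QuotientGroup.mk' W w = 1 from (QuotientGroup.eq_one_iff w).mpr hw]; exact one_mem _
    rcases hle.lt_or_eq with h | h
    · right
      rw [← map_comap_eq_self_of_surjective (QuotientGroup.mk'_surjective W) N, hW.2 _ h,
        map_top_of_surjective _ (QuotientGroup.mk'_surjective W)]
    · left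
      rw [← map_comap_eq_self_of_surjective (QuotientGroup.mk'_surjective W) N, ← h]
      exact (Subgroup.map_eq_bot_iff _).mpr (QuotientGroup.ker_mk' W).ge
  have hQp : IsPGroup q (Q ⧸ W) := hd.pgroup.to_quotient W
  haveI : Group.IsNilpotent (Q ⧸ W) := hQp.isNilpotent
  have hcomm : ∀ a b : Q ⧸ W, a * b = b * a := fun a b => by
    have hz : Subgroup.center (Q ⧸ W) = ⊤ :=
      (IsSimpleGroup.eq_bot_or_eq_top_of_normal _ inferInstance).resolve_left (Group.IsNilpotent.center_ne_bot _)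
    exact mem_center_iff.mp (hz ▸ mem_top b) a
  have hpow : ∀ a : Q ⧸ W, a ^ q = 1 := by
    intro a
    letI : CommGroup (Q ⧸ W) := { (inferInstance : Group (Q ⧸ W)) with mul_comm := hcomm }
    have hpr := IsSimpleGroup.prime_card (α := Q ⧸ W)
    obtain ⟨n, hn⟩ := IsPGroup.iff_card.mp hQp
    rw [hn] at hpr
    have hn1 : n = 1 := (Nat.Prime.eq_one_of_pow hpr)
    have h := pow_card_eq_one' (x := a)
    rwa [hn, hn1, pow_one] at h
  have hle : powCommSub q Q ≤ W.map Q.subtype := by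
    refine (closure_le _).mpr ?_
    rintro z (⟨x, hx, rfl⟩ | ⟨x, hx, y, hy, rfl⟩)
    · refine ⟨⟨x, hx⟩ ^ q, (QuotientGroup.eq_one_iff _).mp ?_, rfl⟩
      rw [QuotientGroup.mk_pow]
      exact hpow _
    · refine ⟨⁅(⟨x, hx⟩ : Q), (⟨y, hy⟩ : Q)⁆, (QuotientGroup.eq_one_iff _).mp ?_, rfl⟩
      show QuotientGroup.mk' W ⁅(⟨x, hx⟩ : Q), (⟨y, hy⟩ : Q)⁆ = 1
      rw [map_commutatorElement, commutatorElement_eq_one_iff_mul_comm.mpr (hcomm _ _)]
  refine hW.1 (eq_top_iff.mpr fun x _ => ?_)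
  have hmap : H ≤ W.map Q.subtype := sup_le hle fun y hy => ⟨⟨y, hy.1⟩, hQW hy, rfl⟩
  obtain ⟨w, hw, hwe⟩ := hmap (h.ge x.2)
  rwa [← Subtype.ext (show (w : X) = x from hwe)]

/-- `D'` centralizes `Q`. -/
theorem derived_centralizes (hd : Data q Q D K) : ⁅D, D⁆ ≤ centralizer (Q : Set X) := by
  set Q0 := Q ⊓ centralizer (D : Set X) with hQ0
  set N := normalizer (Q0 : Set X) with hN
  have hQN : Q ≤ N := normal_fixed hd
  have hSN : D ⊔ K ≤ N := le_normalizer_fixed hd
  have hDN : D ≤ N := le_sup_left.trans hSN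
  have hKN : K ≤ N := le_sup_right.trans hSN
  haveI : (Q0.subgroupOf N).Normal := Subgroup.normal_subgroupOf_iff_le_normalizer le_normalizer |>.mpr le_rfl
  set π := QuotientGroup.mk' (Q0.subgroupOf N)
  have hker : ∀ x : N, π x = 1 ↔ (x : X) ∈ Q0 := fun x => QuotientGroup.eq_one_iff x
  have hinj : ∀ x : N, (x : X) ∈ D ⊔ K → π x = 1 → x = 1 := fun x hx h => by
    refine Subtype.ext ?_
    have : (x : X) ∈ (D ⊔ K) ⊓ Q := ⟨hx, ((hker x).mp h).1⟩
    rwa [Coprime.inf_eq_bot_of_coprime hd.cop.symm, mem_bot] at this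
  have hQsolv : Group.IsSolvable Q := by haveI := hd.pgroup.isNilpotent; infer_instance
  have lift : ∀ (S : Subgroup X) (hSN' : S ≤ N), S ≤ D ⊔ K → ∀ v ∈ (Q.subgroupOf N).map π,
      (∀ s : N, (s : X) ∈ S → π s * v = v * π s) →
      ∃ c : N, (c : X) ∈ Q ⊓ centralizer (S : Set X) ∧ π c = v := by
    intro S hSN' hS v hv hcomm
    obtain ⟨x, hx, rfl⟩ := hv
    obtain ⟨c, hc, hcx⟩ := Coprime.exists_centralizer_mem_coset (A := S) (N := Q0) (k := (x : X)) hSN'
      ((hd.cop.coprime_dvd_left (card_dvd_of_le inf_le_left)).symm.coprime_dvd_left (card_dvd_of_le hS))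
      (Or.inr (Coprime.isSolvable_of_le inf_le_left hQsolv)) fun a ha => by
        have h : π (x⁻¹ * (⟨a, hSN' ha⟩ * x * (⟨a, hSN' ha⟩ : N)⁻¹)) = 1 := by
          rw [map_mul, map_mul, map_mul, hcomm ⟨a, hSN' ha⟩ ha, map_inv, map_inv, mul_inv_cancel_right,
            inv_mul_cancel]
        exact (hker _).mp h
    have hcQ : c ∈ Q := by
      have h : (x : X) * ((x : X)⁻¹ * c) ∈ Q := Q.mul_mem hx hcx.1
      rwa [mul_inv_cancel_left] at h
    refine ⟨⟨c, hQN hcQ⟩, ⟨hcQ, hc⟩, ?_⟩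
    have h : π (x⁻¹ * ⟨c, hQN hcQ⟩) = 1 := (hker _).mpr hcx
    rw [map_mul, map_inv, inv_mul_eq_one] at h
    exact h.symm
  have hP : IsPGroup q ((Q.subgroupOf N).map π) :=
    ((hd.pgroup.of_equiv (subgroupOfEquivOfLe hQN).symm).map π)
  have h := CyclicFix.commutator_le_centralizer_of_isPGroup ((D.subgroupOf N).map π) ((K.subgroupOf N).map π)
    ((Q.subgroupOf N).map π) hP ?_ ?_ ?_ ?_ ?_ ?_ ?_
  · -- back to `X`
    have hcom : ∀ a ∈ ⁅D, D⁆, ∀ x ∈ Q, x⁻¹ * (a * x * a⁻¹) ∈ Q0 := by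
      intro a ha x hx
      have haN : a ∈ N := (commutator_le_self D).trans hDN ha
      have haπ : π ⟨a, haN⟩ ∈ ⁅(D.subgroupOf N).map π, (D.subgroupOf N).map π⁆ := by
        rw [← map_commutator]
        refine mem_map_of_mem π ?_
        have heq : (⁅D.subgroupOf N, D.subgroupOf N⁆).map N.subtype = ⁅D, D⁆ := by
          rw [map_commutator, map_subgroupOf_eq_of_le hDN]
        rw [← heq] at ha
        obtain ⟨w, hw, hwa⟩ := ha
        rwa [show (⟨a, haN⟩ : N) = w from Subtype.ext hwa.symm]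
      have h2 := mem_centralizer_iff.mp (h haπ) (π ⟨x, hQN hx⟩) (mem_map_of_mem π hx)
      refine (hker (⟨x, hQN hx⟩⁻¹ * (⟨a, haN⟩ * ⟨x, hQN hx⟩ * ⟨a, haN⟩⁻¹))).mp ?_
      rw [map_mul, map_mul, map_mul, ← h2, map_inv, map_inv, mul_inv_cancel_right, inv_mul_cancel]
    intro a ha
    rw [mem_centralizer_iff]
    intro x hx
    have hA : zpowers a ≤ ⁅D, D⁆ := zpowers_le.2 ha
    have hAD : zpowers a ≤ D := hA.trans (commutator_le_self D)
    obtain ⟨c, hc, hcx⟩ := Coprime.exists_centralizer_mem_coset (A := zpowers a) (N := Q0) (k := x)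
      (hAD.trans hDN)
      ((hd.cop.coprime_dvd_left (card_dvd_of_le inf_le_left)).symm.coprime_dvd_left
        (card_dvd_of_le (hAD.trans le_sup_left)))
      (Or.inr (Coprime.isSolvable_of_le inf_le_left hQsolv)) fun b hb => hcom b (hA hb) x hx
    have h1 : Commute a c := mem_centralizer_iff.mp hc a (mem_zpowers a)
    have h2 : Commute a (x⁻¹ * c) := mem_centralizer_iff.mp hcx.2 a (hAD (mem_zpowers a))
    have h3 : Commute a (c * (x⁻¹ * c)⁻¹) := h1.mul_right h2.inv_right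
    rw [show c * (x⁻¹ * c)⁻¹ = x by group] at h3
    exact h3.eq.symm
  · intro e
    rw [Subgroup.map_eq_bot_iff] at e
    refine hd.ne (eq_bot_iff.mpr fun k hk => mem_bot.mpr ?_)
    exact congrArg Subtype.val (hinj ⟨k, hKN hk⟩ (mem_sup_right hk) (MonoidHom.mem_ker.mp (e hk)))
  · rintro _ ⟨k, hk, rfl⟩ _ ⟨d, hd', rfl⟩
    exact ⟨k * d * k⁻¹, hd.conj _ hk _ hd', by rw [map_mul, map_mul, map_inv]⟩
  · rintro _ ⟨k, hk, rfl⟩ hk1 _ ⟨d, hd', rfl⟩ hkd
    have hk1' : (k : X) ≠ 1 := fun e => hk1 (by rw [show k = 1 from Subtype.ext e, map_one])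
    have hkd' : k * d = d * k := by
      have h1 : π (k * d * k⁻¹ * d⁻¹) = 1 := by rw [map_mul, map_mul, map_mul, hkd, map_inv, map_inv]; group
      have h2 := hinj _ ((D ⊔ K).mul_mem (mem_sup_left (hd.conj _ hk _ hd')) (mem_sup_left (D.inv_mem hd'))) h1
      rwa [mul_inv_eq_one, mul_inv_eq_iff_eq_mul] at h2
    rw [show d = 1 from Subtype.ext (hd.free _ hk hk1' _ hd' (congrArg Subtype.val hkd')), map_one]
  · rw [← Subgroup.map_sup, ← subgroupOf_sup hDN hKN]
    rintro _ ⟨s, hs, rfl⟩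
    refine (le_normalizer_map π) (mem_map_of_mem π ?_)
    rw [mem_normalizer_iff]
    exact fun y => mem_normalizer_iff.mp (hd.norm hs) y
  · rw [← Subgroup.map_sup, ← subgroupOf_sup hDN hKN]
    refine Nat.Coprime.coprime_dvd_left (card_map_dvd _ π) (Nat.Coprime.coprime_dvd_right (card_map_dvd _ π) ?_)
    rw [Coprime.card_subgroupOf hSN, Coprime.card_subgroupOf hQN]
    exact hd.cop.symm
  · rw [eq_bot_iff]
    rintro v ⟨hv, hvD⟩
    obtain ⟨c, hc, rfl⟩ := lift D hDN le_sup_left v hv fun s hs =>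
      mem_centralizer_iff.mp hvD _ (mem_map_of_mem π hs)
    exact mem_bot.mpr ((hker c).mpr hc)
  · have hle : (Q.subgroupOf N).map π ⊓ centralizer (((K.subgroupOf N).map π : Subgroup _) : Set (N ⧸ Q0.subgroupOf N))
        ≤ ((Q ⊓ centralizer (K : Set X)).subgroupOf N).map π := by
      rintro v ⟨hv, hvK⟩
      obtain ⟨c, hc, rfl⟩ := lift K hKN le_sup_right v hv fun s hs =>
        mem_centralizer_iff.mp hvK _ (mem_map_of_mem π hs)
      exact mem_map_of_mem π hc
    haveI : IsCyclic ↥(Q ⊓ centralizer (K : Set X)) := isCyclic_of_prime_card hd.fixed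
    haveI : IsCyclic ↥((Q ⊓ centralizer (K : Set X)).subgroupOf N) :=
      (subgroupOfEquivOfLe (inf_le_left.trans hQN)).isCyclic.mpr inferInstance
    haveI : IsCyclic ↥(((Q ⊓ centralizer (K : Set X)).subgroupOf N).map π) :=
      isCyclic_of_surjective (π.subgroupMap _) (π.subgroupMap_surjective _)
    exact (subgroupOfEquivOfLe hle).isCyclic.mp inferInstance

end Cfsg.Agent.Lib.OddLocal.FrobeniusPGroup
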