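import Cfsg.Agent.S1417
import Cfsg.Agent.S1420
import Cfsg.Agent.Lib.Uniq.FrobeniusTypeMain
import Cfsg.Agent.Lib.OddLocal.KappaStarProps
set_option autoImplicit false

/-! BG 14.3: elements of `σ(M)'`-order centralizing an element of `M_σ`, and BG 14.4: `C_G(x)` is transitive on
the conjugates of `M` containing a `σ(M)`-element `x`. -/

namespace Cfsg.Agent.Lib.OddLocal.SigmaPrimeElem

open Subgroup
open scoped Pointwise commutatorElement
open Cfsg.Agent.Lib.Uniq

universe u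

variable {G : Type u} [Group G] [Finite G] {M K : Subgroup G}

/-- A prime outside `σ(M)` of an element centralizing a nonidentity element of `M_σ` lies in `κ(M)` or `τ₂(M)`. -/
theorem kappa_or_tau2 (hG : IsMinSimpleOddOrder G) (hM : IsCoatom M) {q : ℕ} [hq : Fact q.Prime]
    (hqσ : q ∉ sigma M) {e : G} (heM : e ∈ M) (he : orderOf e = q) {x : G} (hx : x ∈ sigmaCore M) (hx1 : x ≠ 1)
    (hc : e * x = x * e) : q ∈ kappa M ∨ q ∈ tau2 M := by
  have hr2 := rank_two_of_not_sigma hG hM hq.out hqσ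
  by_cases hr1 : PRankLE q 1 M
  swap
  · exact Or.inr ⟨hq.out, hqσ, hr2, hr1⟩
  have hqM : q ∣ Nat.card M := he ▸ M.orderOf_dvd_natCard heM
  refine Or.inl ⟨hq.out, hqM, hqσ, fun P => ?_⟩
  have hcyc : IsCyclic P := by
    haveI : IsZGroup ↥((P : Subgroup M).map M.subtype) := rank_one_zgroup hG (map_subtype_le _) fun r hr hd => by
      rw [isPGroup_ne_dvd (P.2.map M.subtype) hr hd]; exact hr1
    haveI : Group.IsNilpotent ↥((P : Subgroup M).map M.subtype) := (P.2.map M.subtype).isNilpotent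
    haveI : IsCyclic ↥((P : Subgroup M).map M.subtype) := inferInstance
    exact isCyclic_of_surjective _
      ((P : Subgroup M).equivMapOfInjective M.subtype M.subtype_injective).symm.surjective
  refine ⟨hcyc, ?_⟩
  obtain ⟨T, hT⟩ := ((IsPGroup.of_card (n := 1) (by rw [Nat.card_zpowers, he, pow_one]) :
    IsPGroup q (zpowers e)).comap_subtype (K := M)).exists_le_sylow
  obtain ⟨m, hm⟩ := MulAction.exists_smul_eq ↥M T P
  refine ⟨m * ⟨e, heM⟩ * m⁻¹, ?_, ?_, (m : G) * x * (m : G)⁻¹, ?_, ?_, ?_⟩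
  · rw [← hm]
    exact ⟨⟨e, heM⟩, hT (mem_zpowers e), rfl⟩
  · intro h
    rw [conj_eq_one_iff] at h
    exact hq.out.ne_one (by rw [← he]; exact orderOf_eq_one_iff.mpr (congrArg Subtype.val h))
  · exact (mem_normalizer_iff.mp (OddLocal.le_normalizer_piCoreOf (sigma M) M m.2) x).mp hx
  · intro h
    rw [conj_eq_one_iff] at h
    exact hx1 h
  · push_cast
    calc (m : G) * e * (m : G)⁻¹ * ((m : G) * x * (m : G)⁻¹) = m * (e * x) * (m : G)⁻¹ := by group
      _ = _ := by rw [hc]; group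

/-- A `κ(M)`-element of `M` is conjugate into a Hall `κ(M)`-subgroup. -/
theorem exists_kappa_hall (hG : IsMinSimpleOddOrder G) (hM : IsCoatom M) {e : G} (heM : e ∈ M)
    (hπ : ∀ r : ℕ, r.Prime → r ∣ orderOf e → r ∈ kappa M) :
    ∃ K : Subgroup G, IsPiHallOf (kappa M) K M ∧ e ∈ K := by
  haveI := solvable_of_ne_top hG hM.1
  obtain ⟨H, hH, hHi⟩ := Hall.exists_piHall (G := ↥M) (kappa M)
  have hcH : (Nat.card H).Coprime H.index :=
    Nat.coprime_of_dvd fun r hr h1 h2 => hHi r hr (hH r hr h1) h2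
  obtain ⟨g, hg⟩ := Hall.exists_le_conj hcH (K := zpowers (⟨e, heM⟩ : M)) (by
    rw [Nat.card_zpowers, ← orderOf_coe]
    exact Nat.coprime_of_dvd fun r hr h1 h2 => hHi r hr (hπ r hr h1) h2)
  refine ⟨(MulAut.conj g • H).map M.subtype, ⟨map_subtype_le _, fun r hr hd => hH r hr ?_, fun r hr hrκ hd => ?_⟩,
    ⟨⟨e, heM⟩, hg (mem_zpowers _), rfl⟩⟩
  · rwa [card_map_of_injective M.subtype_injective, Coprime.card_conj_smul] at hd
  · refine hHi r hr hrκ ?_
    rw [relIndex, subgroupOf, comap_map_eq_self_of_injective M.subtype_injective] at hd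
    rwa [show (MulAut.conj g • H).index = H.index from
      index_map_of_bijective (MulAut.conj g).bijective H] at hd

/-- For two primes in `τ₂(M)` there is a maximal subgroup having both in `σ`. -/
theorem exists_sigma_over_tau2 (hG : IsMinSimpleOddOrder G) (hM : IsCoatom M) {p : ℕ} (hp : p ∈ tau2 M) :
    ∃ L : Subgroup G, IsCoatom L ∧ ∀ q ∈ tau2 M, q ∈ sigma L := by
  haveI := Fact.mk hp.1
  have hpM : ∀ q ∈ tau2 M, q ∣ Nat.card M := fun q hq => by
    haveI := Fact.mk hq.1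
    obtain ⟨A, hA, -, hAc⟩ := elem_of_not_pRankLE hq.2.2.2
    exact (dvd_pow_self q (Nat.succ_ne_zero 1)).trans (hAc ▸ card_dvd_of_le hA)
  obtain ⟨A, hAM, hA, hAc⟩ := elem_of_not_pRankLE hp.2.2.2
  obtain ⟨E, hE, hAE⟩ := exists_compl_ge hG hM hp.2.1 (elem_isPGroup hA) hAM
  by_cases hS : ∀ S : Sylow p G, IsMulCommutative (S : Subgroup G)
  swap
  · have hS' := fun S => sylow_comm_dichotomy hS S
    obtain ⟨honly, -⟩ := tau_two_nonabelian hG hM hE hp.2.1 hS' hA hAE hAc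
    obtain ⟨T⟩ : Nonempty (Sylow p G) := inferInstance
    have hT1 : (T : Subgroup G) ≠ ⊥ := fun e => hS' T (e ▸ inferInstance)
    obtain ⟨L, hL, hNL⟩ := exists_coatom_ge (minSimple_normalizer_ne_top hG hT1 (pgroup_ne_top hG T.2))
    refine ⟨L, hL, fun q hq => ?_⟩
    rw [honly q hq]
    exact ⟨hp.1, ((hpM p hp).trans M.card_subgroup_dvd_card |> T.dvd_card_of_dvd_card).trans
      (card_dvd_of_le (le_normalizer.trans hNL)), T.subtype (le_normalizer.trans hNL), by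
        rw [Sylow.coe_subtype, map_subgroupOf_eq_of_le (le_normalizer.trans hNL)]; exact hNL⟩
  obtain ⟨T, hAT, hTE, -, -, hTA, -⟩ := exists_normal_sylow hG hM hE hp.2.1 hS hA hAE hAc
  have hA1 : A ≠ ⊥ := fun e => by
    rw [e, card_bot] at hAc
    exact hp.1.ne_one ((Nat.pow_eq_one.mp hAc.symm).resolve_right (by norm_num))
  obtain ⟨L, hL, hNL⟩ := exists_coatom_ge (minSimple_normalizer_ne_top hG hA1 (pgroup_ne_top hG (elem_isPGroup hA)))
  have hNT : normalizer ((T : Subgroup G) : Set G) ≤ L := fun g hg => hNL <| by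
    refine Coprime.mem_normalizer_of_conj_smul_eq (eq_of_le_of_card_ge ?_ (Coprime.card_conj_smul g A).ge)
    rintro _ ⟨a, ha, rfl⟩
    exact hTA _ ((mem_normalizer_iff.mp hg a).mp (hAT ha))
      (show MulAut.conj g a ^ p = 1 by rw [← map_pow, hA.2 a ha, map_one])
  have hTL : (T : Subgroup G) ≤ L := le_normalizer.trans hNT
  have hpL : p ∈ sigma L := ⟨hp.1, ((hpM p hp).trans M.card_subgroup_dvd_card |> T.dvd_card_of_dvd_card).trans
    (card_dvd_of_le hTL), T.subtype hTL, by rw [Sylow.coe_subtype, map_subgroupOf_eq_of_le hTL]; exact hNT⟩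
  have hLM : L ≠ M := fun e => hp.2.1 (e ▸ hpL)
  refine ⟨L, hL, fun q hq => ?_⟩
  haveI := Fact.mk hq.1
  rcases eq_or_ne q p with rfl | hqp
  · exact hpL
  by_contra hqL
  obtain ⟨B, hBE, hB, hBc⟩ := exists_elem_compl hG hM hE hq
  have hBA : B ≤ centralizer (A : Set G) := by
    have h := centralizes_of_not_sigma hG hM hq.2.1 (hBE.trans hE.1) hB hBc (Ne.symm hqp) hp.2.1
      (elem_isPGroup hA) hAM (hBE.trans (le_normalizer_compl hG hM hE hp.2.1 hAE hA hAc).1)
    exact h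
  have hBL : B ≤ L := hBA.trans ((centralizer_le_normalizer _).trans hNL)
  have hbot := sigmaCore_inf_eq_bot hG hL hqL hBL hB hBc hM hLM.symm (hBE.trans hE.1)
  exact hA1 (eq_bot_iff.mpr (hbot ▸ le_inf
    (pgroup_le_sigmaCore hG hL hpL (elem_isPGroup hA) ((le_normalizer (H := A)).trans hNL)) hAM))

/-- BG 14.3, given BG 14.2. -/
theorem sigma_prime_element (hG : IsMinSimpleOddOrder G) (hM : IsCoatom M)
    (h30 : ∀ K : Subgroup G, IsPiHallOf (kappa M) K M → K ≠ ⊥ →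
      (∀ k ∈ K, k ≠ 1 → sigmaCore M ⊓ centralizer ({k} : Set G) = sigmaCore M ⊓ centralizer (K : Set G)) ∧
      (∃ U : Subgroup G, IsMulCommutative U ∧ IsPiHallOf {q | q.Prime ∧ q ∉ kappa M ∧ q ∉ sigma M} U M ∧
        K ≤ normalizer (U : Set G) ∧ ∀ k ∈ K, k ≠ 1 → U ⊓ centralizer ({k} : Set G) = ⊥) ∧
      ∀ X : Subgroup G, X ≤ K → (Nat.card X).Prime →
        M ⊓ normalizer (X : Set G) = K ⊔ (sigmaCore M ⊓ centralizer (K : Set G)))
    {x x' : G} (hx : x ∈ sigmaCore M) (hx1 : x ≠ 1) (hx' : x' ∈ M ⊓ centralizer ({x} : Set G)) (hx'1 : x' ≠ 1)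
    (hσ : ∀ p : ℕ, p.Prime → p ∣ orderOf x' → p ∉ sigma M) :
    ((∀ p : ℕ, p.Prime → p ∣ orderOf x' → p ∈ kappa M) ∧ centralizer ({x} : Set G) ≤ M) ∨
      ((∀ p : ℕ, p.Prime → p ∣ orderOf x' → p ∈ tau2 M) ∧
        (∃ L : Subgroup G, IsCoatom L ∧ ∀ p : ℕ, p.Prime → p ∣ orderOf x' → p ∈ sigma L) ∧
        (centralizer ({x'} : Set G) ≤ M ∧ ∀ L : Subgroup G, IsCoatom L → centralizer ({x'} : Set G) ≤ L → L = M)) := by
  have hcom : Commute x' x := mem_centralizer_singleton_iff.mp hx'.2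
  have hσM : sigmaCore M ≤ M := map_subtype_le _
  have hall : ∀ p : ℕ, p.Prime → p ∣ orderOf x' → p ∈ kappa M ∨ p ∈ tau2 M := fun p hp hd => by
    haveI := Fact.mk hp
    exact kappa_or_tau2 hG hM (hσ p hp hd) (M.pow_mem hx'.1 _)
      (orderOf_pow_orderOf_div (orderOf_pos x').ne' hd) hx hx1 (hcom.pow_left _).eq
  by_cases hκ : ∃ q : ℕ, q.Prime ∧ q ∣ orderOf x' ∧ q ∈ kappa M
  · left
    obtain ⟨q, hq, hqd, hqκ⟩ := hκ
    haveI := Fact.mk hq
    set e := x' ^ (orderOf x' / q) with he'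
    have he : orderOf e = q := orderOf_pow_orderOf_div (orderOf_pos x').ne' hqd
    have heM : e ∈ M := M.pow_mem hx'.1 _
    obtain ⟨K, hK, heK⟩ := exists_kappa_hall hG hM heM (fun r hr hd => by
      rw [he] at hd; rwa [(Nat.prime_dvd_prime_iff_eq hr hq).mp hd])
    have he1 : e ≠ 1 := fun h => hq.ne_one (by rw [← he, h, orderOf_one])
    have hK1 : K ≠ ⊥ := fun h => he1 (mem_bot.mp (h ▸ heK))
    obtain ⟨hC, ⟨U, hUc, hUH, hKU, hfree⟩, hN⟩ := h30 K hK hK1
    have hxK : x ∈ sigmaCore M ⊓ centralizer (K : Set G) :=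
      hC e heK he1 ▸ ⟨hx, mem_centralizer_singleton_iff.mpr (hcom.pow_left _).symm.eq⟩
    refine ⟨fun p hp hd => ?_, ?_⟩
    · have hmem : x' ∈ M ⊓ normalizer (zpowers e : Set G) := by
        refine ⟨hx'.1, centralizer_le_normalizer _ ?_⟩
        rw [centralizer_zpowers]
        exact mem_centralizer_singleton_iff.mpr (Commute.self_pow x' _).eq
      rw [hN _ (zpowers_le.2 heK) (by rw [Nat.card_zpowers, he]; exact hq)] at hmem
      have hKn : K ≤ normalizer ((sigmaCore M ⊓ centralizer (K : Set G) : Subgroup G) : Set G) :=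
        (le_inf (hK.1.trans (OddLocal.le_normalizer_piCoreOf (sigma M) M))
          (le_normalizer.trans (Coprime.normalizer_le_normalizer_centralizer K))).trans inf_normalizer_le_normalizer_inf
      have hd' := (hd.trans ((K ⊔ (sigmaCore M ⊓ centralizer (K : Set G))).orderOf_dvd_natCard hmem)).trans
        (Dvd.intro _ (Coprime.card_sup_mul_card_inf_of_le_normalizer hKn))
      rcases (Nat.Prime.dvd_mul hp).mp hd' with h | h
      · exact hK.2.1 p hp h
      · exact absurd (OddLocal.piCoreOf_isPi (sigma M) M p hp (h.trans (card_dvd_of_le inf_le_left))) (hσ p hp hd)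
    · obtain ⟨r, hr, hrd⟩ := Nat.exists_prime_and_dvd (fun h => hx1 (orderOf_eq_one_iff.mp h))
      haveI := Fact.mk hr
      obtain ⟨S⟩ : Nonempty (Sylow r ↥(sigmaCore M)) := inferInstance
      have h := (KappaStar.centralizer_unique hG hM hK hUc hUH hKU heK (hfree e heK he1) (pow_mem hxK _)
        (orderOf_pow_orderOf_div (orderOf_pos x).ne' hrd) S).1.1
      refine le_trans (fun c hc => mem_centralizer_singleton_iff.mpr ?_) h
      exact ((show Commute c x from mem_centralizer_singleton_iff.mp hc).pow_right _).eq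
  · right
    push Not at hκ
    have hτ : ∀ p : ℕ, p.Prime → p ∣ orderOf x' → p ∈ tau2 M := fun p hp hd =>
      (hall p hp hd).resolve_left (hκ p hp hd)
    refine ⟨hτ, ?_, tau_two_element_unique hG hM hx'.1 hx'1 hτ ⟨hx'.1, x, hx, hx1, hcom.eq⟩⟩
    obtain ⟨p, hp, hd⟩ := Nat.exists_prime_and_dvd (fun h => hx'1 (orderOf_eq_one_iff.mp h))
    obtain ⟨L, hL, hLσ⟩ := exists_sigma_over_tau2 hG hM (hτ p hp hd)
    exact ⟨L, hL, fun r hr hrd => hLσ r (hτ r hr hrd)⟩

/-- BG 14.4: `C_G(x)` is transitive on the conjugates of `M` containing the `σ(M)`-element `x`. -/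
theorem exists_mul_centralizer (hG : IsMinSimpleOddOrder G) (hM : IsCoatom M) {x : G} (hx : x ∈ sigmaCore M)
    {g : G} (hg : g * x * g⁻¹ ∈ M) : ∃ m ∈ M, ∃ c ∈ centralizer ({x} : Set G), g = m * c := by
  rcases eq_or_ne x 1 with rfl | hx1
  · exact ⟨1, M.one_mem, g, mem_centralizer_singleton_iff.mpr (by simp), (one_mul g).symm⟩
  obtain ⟨p, hp, hpd⟩ := Nat.exists_prime_and_dvd (fun h => hx1 (orderOf_eq_one_iff.mp h))
  haveI := Fact.mk hp
  have hσM : sigmaCore M ≤ M := map_subtype_le _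
  set y := x ^ (orderOf x / p) with hy'
  have hy : orderOf y = p := orderOf_pow_orderOf_div (orderOf_pos x).ne' hpd
  have hxy : x ∈ centralizer ({y} : Set G) := mem_centralizer_singleton_iff.mpr (Commute.self_pow x _).eq
  have hpσ : p ∈ sigma M := OddLocal.piCoreOf_isPi (sigma M) M p hp
    (hpd.trans ((sigmaCore M).orderOf_dvd_natCard hx))
  set Y := zpowers y with hY
  have hYp : IsPGroup p Y := IsPGroup.of_card (n := 1) (by rw [hY, Nat.card_zpowers, hy, pow_one])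
  have hY1 : Y ≠ ⊥ := zpowers_ne_bot.2 fun h => hp.ne_one (by rw [← hy]; exact orderOf_eq_one_iff.mpr h)
  have hyM : y ∈ M := M.pow_mem (hσM hx) _
  have hYM : Y ≤ M := zpowers_le.2 hyM
  obtain ⟨m, hm, c, hc, hgc⟩ := (S1404.result hG M hM p hpσ Y hYp hY1 hYM).1 g (by
    rw [hY, MonoidHom.map_zpowers]
    refine zpowers_le.2 ?_
    show g * x ^ (orderOf x / p) * g⁻¹ ∈ M
    rw [← conj_pow]; exact M.pow_mem hg _)
  suffices h : ∃ m' ∈ M, ∃ c' ∈ centralizer ({x} : Set G), c = m' * c' by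
    obtain ⟨m', hm', c', hc', he⟩ := h
    exact ⟨m * m', M.mul_mem hm hm', c', hc', by rw [hgc, he, mul_assoc]⟩
  have hcx : c * x * c⁻¹ ∈ M := by
    have h := M.mul_mem (M.mul_mem (M.inv_mem hm) hg) hm
    rw [hgc] at h
    simpa [mul_assoc] using h
  obtain ⟨H, hH, hNH⟩ := exists_coatom_ge (minSimple_normalizer_ne_top hG hY1 (pgroup_ne_top hG hYp))
  have hCH : centralizer ({y} : Set G) ≤ H := by
    rw [← centralizer_zpowers]
    exact (centralizer_le_normalizer _).trans hNH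
  have hcy : c ∈ centralizer ({y} : Set G) := by rwa [hY, centralizer_zpowers] at hc
  rcases eq_or_ne H M with rfl | hne
  · exact ⟨c, hCH hcy, 1, one_mem _, (mul_one c).symm⟩
  have hyH : y ∈ H := hCH (mem_centralizer_singleton_iff.mpr rfl)
  -- a Sylow subgroup of `M ⊓ H` containing `Y` is one of `H`
  obtain ⟨R, hYR, hR⟩ := Finite.exists_le_maximal
    (p := fun Q : Subgroup G => IsPGroup p Q ∧ Q ≤ M ⊓ H) (a := Y) ⟨hYp, le_inf hYM (zpowers_le.2 hyH)⟩
  obtain ⟨hnc, hNR, hRH⟩ := sylow_inter_props hG hM hpσ hYp hY1 hYM hH hne hNH hR.prop.1 hR.prop.2 hYR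
    fun Q hQ hQI hRQ => (hR.eq_of_ge ⟨hQ, hQI⟩ hRQ)
  obtain ⟨S, hS⟩ := (hR.prop.1.comap_subtype (K := H)).exists_le_sylow
  have hSR : (S : Subgroup H).map H.subtype = R := hRH _ (S.2.map _) (map_subtype_le _)
    fun r hr => ⟨⟨r, (hR.prop.2 hr).2⟩, hS hr, rfl⟩
  obtain ⟨W, hWH, hWn, hW, hWσ, -⟩ := exists_factor hG hM hH hpσ hnc hY1 hNH S (hSR ▸ hYR)
    (hSR ▸ (hR.prop.2.trans inf_le_left)) (hSR ▸ hNR)
  haveI hsol : Group.IsSolvable H := solvable_of_ne_top hG hH.1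
  have hcopx : (Nat.card (zpowers x)).Coprime (Nat.card W) := by
    rw [Nat.card_zpowers]
    exact Nat.coprime_of_dvd fun r hr h1 h2 => hWσ r hr h2
      (OddLocal.piCoreOf_isPi (sigma M) M r hr (h1.trans ((sigmaCore M).orderOf_dvd_natCard hx)))
  have hxH : x ∈ H := hCH hxy
  -- write `c = a k` with `a ∈ C_M(y)` and `k ∈ W ∩ C(y)`
  have hsup : c ∈ (M ⊓ H) ⊔ W := hW.ge (hCH hcy)
  obtain ⟨a, ha, k, hk, hak⟩ := (Coprime.mem_sup_of_le_normalizer (inf_le_right.trans hWn)).mp hsup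
  have hyn : zpowers y ≤ normalizer ((W ⊓ M : Subgroup G) : Set G) :=
    (le_inf ((zpowers_le.2 hyH).trans hWn) (hYM.trans le_normalizer)).trans inf_normalizer_le_normalizer_inf
  obtain ⟨a', ha'C, ha'⟩ := Coprime.exists_centralizer_mem_coset hyn
    ((hcopx.coprime_dvd_left (card_dvd_of_le (zpowers_le.2 (pow_mem (mem_zpowers x) _)))).coprime_dvd_right
      (card_dvd_of_le inf_le_left))
    (Or.inl (solvable_of_ne_top hG (ne_top_of_le hM hYM))) (k := a) (by
      intro z hz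
      have hzM : z ∈ M := hYM hz
      refine ⟨?_, M.mul_mem (M.inv_mem ha.1) (M.mul_mem (M.mul_mem hzM ha.1) (M.inv_mem hzM))⟩
      have hzH : z ∈ H := (zpowers_le.2 hyH) hz
      have hzk : z * k * z⁻¹ ∈ W := (mem_normalizer_iff.mp (hWn hzH) k).mp hk
      have hzc : z * c = c * z := by
        rw [← centralizer_zpowers] at hcy
        exact (mem_centralizer_iff.mp hcy z hz)
      have : a⁻¹ * (z * a * z⁻¹) = k * (z * k * z⁻¹)⁻¹ := by
        have h1 : a = c * k⁻¹ := by rw [← hak]; group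
        rw [h1]
        calc (c * k⁻¹)⁻¹ * (z * (c * k⁻¹) * z⁻¹) = k * c⁻¹ * (z * c) * k⁻¹ * z⁻¹ := by group
          _ = k * (z * k * z⁻¹)⁻¹ := by rw [hzc]; group
      rw [this]
      exact W.mul_mem hk (W.inv_mem hzk))
  rw [centralizer_zpowers] at ha'C
  set k' := a'⁻¹ * c with hk'
  have hk'W : k' ∈ W := by
    have e : k' = (a⁻¹ * a')⁻¹ * k := by rw [hk', ← hak]; group
    rw [e]; exact W.mul_mem (W.inv_mem ha'.1) hk
  have hk'y : k' ∈ centralizer ({y} : Set G) :=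
    (centralizer ({y} : Set G)).mul_mem ((centralizer ({y} : Set G)).inv_mem ha'C) hcy
  have ha'M : a' ∈ M := by
    have e : a' = a * (a⁻¹ * a') := by group
    rw [e]; exact M.mul_mem ha.1 ha'.2
  have hk'x : k' * x * k'⁻¹ ∈ M := by
    have h := M.mul_mem (M.mul_mem (M.inv_mem ha'M) hcx) ha'M
    simpa [hk', mul_assoc] using h
  -- conjugacy of complements inside `⟨x⟩ (W ∩ M ∩ C(y))`
  set N := W ⊓ M ⊓ centralizer ({y} : Set G) with hN
  have hxN : zpowers x ≤ normalizer (N : Set G) :=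
    (le_inf ((le_inf ((zpowers_le.2 hxH).trans hWn) ((zpowers_le.2 (hσM hx)).trans le_normalizer)).trans
      inf_normalizer_le_normalizer_inf) ((zpowers_le.2 hxy).trans le_normalizer)).trans inf_normalizer_le_normalizer_inf
  have hmem : k' * x * k'⁻¹ * x⁻¹ ∈ N := by
    refine ⟨⟨?_, M.mul_mem hk'x (M.inv_mem (hσM hx))⟩, ?_⟩
    · have e : k' * x * k'⁻¹ * x⁻¹ = k' * (x * k'⁻¹ * x⁻¹) := by group
      rw [e]; exact W.mul_mem hk'W ((mem_normalizer_iff.mp (hWn hxH) _).mp (W.inv_mem hk'W))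
    · exact (centralizer ({y} : Set G)).mul_mem ((centralizer ({y} : Set G)).mul_mem
        ((centralizer ({y} : Set G)).mul_mem hk'y hxy) ((centralizer ({y} : Set G)).inv_mem hk'y))
        ((centralizer ({y} : Set G)).inv_mem hxy)
  have hNk : k' * x * k'⁻¹ ∈ zpowers x ⊔ N := by
    have e : k' * x * k'⁻¹ = (k' * x * k'⁻¹ * x⁻¹) * x := by group
    rw [e]
    exact mul_mem (mem_sup_right hmem) (mem_sup_left (mem_zpowers x))
  obtain ⟨j, hj, hjx⟩ := Coprime.exists_conj_eq_of_le_sup hxN (hcopx.coprime_dvd_right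
      (card_dvd_of_le (inf_le_left.trans inf_le_left)))
    (Or.inl (solvable_of_ne_top hG (ne_top_of_le hM (zpowers_le.2 (hσM hx)))))
    (B := zpowers (k' * x * k'⁻¹)) (zpowers_le.2 hNk)
    (by rw [Nat.card_zpowers, Nat.card_zpowers]; exact (MulAut.conj k').orderOf_eq x)
  have hjeq : j * x * j⁻¹ = k' * x * k'⁻¹ := by
    obtain ⟨i, hi⟩ := mem_zpowers_iff.mp (hjx.le (smul_mem_pointwise_smul x (MulAut.conj j) _ (mem_zpowers x)))
    rw [MulAut.smul_def, MulAut.conj_apply] at hi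
    -- compare modulo `N`
    have h1 : x⁻¹ * (j * x * j⁻¹) ∈ N := by
      have e : x⁻¹ * (j * x * j⁻¹) = x⁻¹ * j * x * j⁻¹ := by group
      rw [e]
      exact N.mul_mem (by simpa [mul_assoc] using (mem_normalizer_iff.mp (hxN (inv_mem (mem_zpowers x))) j).mp hj)
        (N.inv_mem hj)
    have h2 : (k' * x * k'⁻¹) ^ (i - 1) ∈ N := by
      have e : (k' * x * k'⁻¹) ^ (i - 1) = (j * x * j⁻¹) * (k' * x * k'⁻¹)⁻¹ := by rw [← hi, zpow_sub, zpow_one]
      have e2 : (j * x * j⁻¹) * (k' * x * k'⁻¹)⁻¹ =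
          x * (x⁻¹ * (j * x * j⁻¹)) * (x⁻¹) * (k' * x * k'⁻¹ * x⁻¹)⁻¹ := by group
      rw [e, e2]
      exact N.mul_mem ((mem_normalizer_iff.mp (hxN (mem_zpowers x)) _).mp h1) (N.inv_mem hmem)
    have h3 : (k' * x * k'⁻¹) ^ (i - 1) ∈ zpowers (k' * x * k'⁻¹) ⊓ N := ⟨zpow_mem (mem_zpowers _) _, h2⟩
    rw [Coprime.inf_eq_bot_of_coprime (by
      rw [Nat.card_zpowers, ← MulAut.conj_apply, (MulAut.conj k').orderOf_eq, ← Nat.card_zpowers]
      exact hcopx.coprime_dvd_right (card_dvd_of_le (inf_le_left.trans inf_le_left))), mem_bot,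
      zpow_sub, zpow_one, mul_inv_eq_one] at h3
    rw [← hi, h3]
  refine ⟨a' * j, M.mul_mem ha'M hj.1.2, j⁻¹ * k', mem_centralizer_singleton_iff.mpr ?_, by rw [hk']; group⟩
  calc j⁻¹ * k' * x = j⁻¹ * (k' * x * k'⁻¹) * k' := by group
    _ = x * (j⁻¹ * k') := by rw [← hjeq]; group

end Cfsg.Agent.Lib.OddLocal.SigmaPrimeElem
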