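import Cfsg.Agent.Lib.Uniq.SigmaDisjoint
import Cfsg.Agent.Lib.Uniq.KappaStructure
import Cfsg.Agent.Lib.OddLocal.SigmaPrimeElem
set_option autoImplicit false

/-! BG 13.9 and 14.2 in the forms taken as hypotheses by the files on BG 14.3-14.5. -/

namespace Cfsg.Agent.Lib.OddLocal.KappaData

open Subgroup
open scoped Pointwise
open Cfsg.Agent.Lib.Uniq

universe u

variable {G : Type u} [Group G] [Finite G]

theorem disjoint_sigma (hG : IsMinSimpleOddOrder G) :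
    ∀ A B : Subgroup G, IsCoatom A → IsCoatom B → ∀ p : ℕ, p ∈ sigma A → p ∈ sigma B →
      ∃ g : G, B = MulAut.conj g • A :=
  fun _ _ hA hB _ h1 h2 => conj_of_sigma_sigma hG hA hB h1 h2

theorem data (hG : IsMinSimpleOddOrder G) :
    ∀ A : Subgroup G, IsCoatom A → ∀ K : Subgroup G, IsPiHallOf (kappa A) K A → K ≠ ⊥ →
      (∀ k ∈ K, k ≠ 1 → sigmaCore A ⊓ centralizer ({k} : Set G) = sigmaCore A ⊓ centralizer (K : Set G)) ∧
      (∃ U : Subgroup G, IsMulCommutative U ∧ IsPiHallOf {q | q.Prime ∧ q ∉ kappa A ∧ q ∉ sigma A} U A ∧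
        K ≤ normalizer (U : Set G) ∧ ∀ k ∈ K, k ≠ 1 → U ⊓ centralizer ({k} : Set G) = ⊥) ∧
      ∀ X : Subgroup G, X ≤ K → (Nat.card X).Prime →
        A ⊓ normalizer (X : Set G) = K ⊔ (sigmaCore A ⊓ centralizer (K : Set G)) := by
  intro A hA K hK hK1
  obtain ⟨h1, h2, h3⟩ := kappa_structure hG hA hK hK1
  exact ⟨h1, h2, fun X hX hXp => (h3 X hX hXp).1⟩

end Cfsg.Agent.Lib.OddLocal.KappaData
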