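import Cfsg.Agent.Lib.Uniq.PLengthAll
import Cfsg.Agent.Lib.Uniq.EStruct
import Cfsg.Agent.Lib.Uniq.SigmaTools
import Cfsg.Agent.Lib.Transfer.Hall
import Cfsg.Agent.Lib.Uniq.Fitting
import Cfsg.Agent.Lib.PLength.Series
set_option autoImplicit false

/-! In a solvable group of `p`-length one for all `p`, the normaliser of a nilpotent Hall subgroup controls fusion. -/

namespace Cfsg.Agent.Lib.OddLocal.NilHallFusion

open Subgroup
open scoped Pointwise commutatorElement

universe u

variable {G : Type u} [Group G] [Finite G]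

/-- If no nontrivial normal subgroup has order prime to that of the nilpotent Hall subgroup `H`, then `H` is normal. -/
theorem hall_normal [Group.IsSolvable G] (hpl : ∀ p : ℕ, p.Prime → PLengthLE p 1 G) (H : Subgroup G)
    (hH : Group.IsNilpotent H) (hHall : (Nat.card H).Coprime H.index)
    (hno : ∀ W : Subgroup G, W.Normal → (Nat.card W).Coprime (Nat.card H) → W = ⊥) :
    ∀ g : G, ∀ h ∈ H, g * h * g⁻¹ ∈ H := by
  classical
  intro g h hh
  suffices key : ∀ q k : ℕ, q.Prime → q ^ k ∣ orderOf h → g * h ^ (orderOf h / q ^ k) * g⁻¹ ∈ H by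
    set D : Subgroup G := H.comap (MulAut.conj g).toMonoidHom
    have : h ∈ D := by
      set E := zpowers h ⊓ D
      have hdvd : orderOf h ∣ Nat.card E := by
        refine (Nat.dvd_iff_prime_pow_dvd_dvd _ _).mpr fun q k hq hqk => ?_
        have hm : h ^ (orderOf h / q ^ k) ∈ E := ⟨pow_mem (mem_zpowers h) _, key q k hq hqk⟩
        have ho : orderOf (h ^ (orderOf h / q ^ k)) = q ^ k := by
          rw [orderOf_pow, Nat.gcd_eq_right (Nat.div_dvd_of_dvd hqk), Nat.div_div_self hqk (orderOf_pos h).ne']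
        exact ho ▸ E.orderOf_dvd_natCard hm
      have : E = zpowers h := eq_of_le_of_card_ge inf_le_left (by
        rw [Nat.card_zpowers]; exact Nat.le_of_dvd Nat.card_pos hdvd)
      exact (this.ge (mem_zpowers h)).2
    exact this
  intro q k hq hqk
  rcases Nat.eq_zero_or_pos k with rfl | hk
  · rw [pow_zero, Nat.div_one, pow_orderOf_eq_one, mul_one, mul_inv_cancel]; exact one_mem _
  haveI := Fact.mk hq
  set z := h ^ (orderOf h / q ^ k) with hz
  have hzH : z ∈ H := pow_mem hh _
  have hzq : z ^ q ^ k = 1 := by rw [hz, ← pow_mul, Nat.div_mul_cancel hqk, pow_orderOf_eq_one]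
  have hqH : q ∣ Nat.card H := ((dvd_pow_self q hk.ne').trans hqk).trans (H.orderOf_dvd_natCard hh)
  -- a Sylow `q`-subgroup of `G` inside `H`
  obtain ⟨P₀⟩ : Nonempty (Sylow q ↥H) := inferInstance
  set P := (P₀ : Subgroup H).map H.subtype with hP
  have hPH : P ≤ H := map_subtype_le _
  have hPp : IsPGroup q P := P₀.2.map _
  set N := pPrimeCore q G with hN
  haveI : N.Normal := Hall.pPrimeCore_normal (G := G) q
  have hNcop : (Nat.card N).Coprime q := Hall.coprime_card_pPrimeCore (G := G) q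
  -- the Fitting subgroup of `N` lies in `H`
  set F := fittingOf N with hF
  have hFN : F ≤ N := map_subtype_le _
  haveI hFn : F.Normal := by
    rw [hF, fittingOf]; infer_instance
  haveI hFnil : Group.IsNilpotent ↥F := by
    haveI := Hall.fittingSubgroup_isNilpotent (G := N)
    exact Group.nilpotent_of_mulEquiv (equivMapOfInjective _ _ N.subtype_injective)
  have hFπ : ∀ r : ℕ, r.Prime → r ∣ Nat.card F → r ∣ Nat.card H := fun r hr hd => by
    by_contra hnd
    haveI := Fact.mk hr
    obtain ⟨R⟩ : Nonempty (Sylow r ↥F) := inferInstance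
    haveI : (R : Subgroup F).Normal :=
      ((Group.isNilpotent_of_finite_tfae (G := F)).out 0 3 rfl rfl).mp hFnil r (Fact.mk hr) R
    haveI := R.characteristic_of_normal inferInstance
    haveI : ((R : Subgroup F).map F.subtype).Normal := inferInstance
    have h1 := hno ((R : Subgroup F).map F.subtype) inferInstance (Nat.coprime_of_dvd fun s hs h1 h2 =>
      hnd (Uniq.isPGroup_ne_dvd (R.2.map F.subtype) hs h1 ▸ h2))
    rw [map_eq_bot_iff_of_injective _ F.subtype_injective] at h1
    exact hr.ne_one (Nat.dvd_one.mp (card_bot (G := F) ▸ h1 ▸ R.dvd_card_of_dvd_card hd))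
  have hFH : F ≤ H := by
    rw [← sup_eq_right]
    refine le_antisymm ?_ le_sup_right
    rw [← relIndex_eq_one]
    have hcard := Coprime.card_sup_mul_card_inf_of_le_normalizer (A := H) (N := F)
      (by rw [normalizer_eq_top]; exact le_top)
    have hdvd : H.relIndex (F ⊔ H) ∣ Nat.card H * Nat.card F :=
      (relIndex_dvd_card H (F ⊔ H)).trans (by rw [sup_comm]; exact Dvd.intro _ hcard)
    have hidx : H.relIndex (F ⊔ H) ∣ H.index :=
      Dvd.intro _ (relIndex_mul_index (le_sup_right : H ≤ F ⊔ H))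
    rw [Nat.eq_one_iff_not_exists_prime_dvd]
    intro r hr hd
    have hrH : r ∣ Nat.card H := ((Nat.Prime.dvd_mul hr).mp (hd.trans hdvd)).elim id (hFπ r hr)
    exact hr.ne_one (Nat.eq_one_of_dvd_coprimes hHall hrH (hd.trans hidx))
  have hFcop : (Nat.card F).Coprime q := hNcop.coprime_dvd_left (card_dvd_of_le hFN)
  -- `P` centralizes `F`
  have hPF : ∀ a ∈ P, ∀ f ∈ F, a * f = f * a := by
    rintro _ ⟨a, ha, rfl⟩ f hf
    haveI := hH
    obtain ⟨j, hj⟩ := IsPGroup.iff_orderOf.mp P₀.2 ⟨a, ha⟩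
    rw [Subgroup.orderOf_mk] at hj
    exact congrArg Subtype.val (Transfer.commute_of_coprime_orderOf (x := a) (y := (⟨f, hFH hf⟩ : H)) (by
      rw [hj, orderOf_mk]
      exact ((hFcop.coprime_dvd_left (F.orderOf_dvd_natCard hf)).symm).pow_left j)).eq
  -- hence `N`
  have hPN : P ≤ centralizer (N : Set G) := by
    have hPn : P ≤ normalizer (N : Set G) := by rw [normalizer_eq_top]; exact le_top
    have hcop : (Nat.card P).Coprime (Nat.card N) := by
      obtain ⟨j, hj⟩ := IsPGroup.iff_card.mp hPp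
      rw [hj]; exact hNcop.symm.pow_left j
    have hle : ⁅N, P⁆ ≤ centralizer (P : Set G) := by
      rw [commutator_le]
      intro n hn a ha
      have hdN : ⁅n, a⁆ ∈ N :=
        Coprime.commutator_le_of_le_normalizer' hPn (commutator_mem_commutator hn ha)
      have hdF : ⁅n, a⁆ ∈ F := by
        refine ⟨⟨⁅n, a⁆, hdN⟩, Hall.centralizer_fittingSubgroup_le (mem_centralizer_iff.mpr ?_), rfl⟩
        rintro ⟨f, hfN⟩ hf
        have hfF : f ∈ F := ⟨⟨f, hfN⟩, hf, rfl⟩
        have hf' : n⁻¹ * f * n ∈ F := by simpa using hFn.conj_mem f hfF n⁻¹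
        have e1 := hPF a ha _ hf'
        have e2 : Commute a f := hPF a ha f hfF
        apply Subtype.ext
        show f * ⁅n, a⁆ = ⁅n, a⁆ * f
        calc f * ⁅n, a⁆ = n * ((n⁻¹ * f * n) * a) * n⁻¹ * a⁻¹ := by rw [commutatorElement_def]; group
          _ = n * a * n⁻¹ * (f * a⁻¹) := by rw [← e1]; group
          _ = ⁅n, a⁆ * f := by rw [← e2.inv_left.eq, commutatorElement_def]; group
      exact mem_centralizer_iff.mpr fun b hb => hPF b hb _ hdF
    have h0 : ⁅⁅N, P⁆, P⁆ = ⊥ := commutator_eq_bot_iff_le_centralizer.mpr hle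
    rw [Coprime.commutator_commutator hPn hcop (Or.inr inferInstance), commutator_comm] at h0
    exact commutator_eq_bot_iff_le_centralizer.mp h0
  -- so `P` is normal
  obtain ⟨T, hTn, hTp, hTi⟩ := Uniq.pl1_series (p := q) (hpl q hq)
  haveI := hTn
  have hPT : P ≤ T := by
    refine Uniq.le_of_coprime_index ?_
    obtain ⟨j, hj⟩ := IsPGroup.iff_card.mp hPp
    rw [hj]; exact (hq.coprime_iff_not_dvd.mpr hTi).pow_left j
  have hPi : ¬ q ∣ P.index := by
    intro hd
    rw [← relIndex_mul_index hPH] at hd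
    rcases (Nat.Prime.dvd_mul hq).mp hd with h1 | h1
    · refine P₀.not_dvd_index ?_
      rwa [relIndex, hP, subgroupOf, comap_map_eq_self_of_injective H.subtype_injective] at h1
    · exact hq.ne_one (Nat.eq_one_of_dvd_coprimes hHall hqH h1)
  have hTPN : T ≤ P ⊔ N := by
    rw [← relIndex_eq_one, Nat.eq_one_iff_not_exists_prime_dvd]
    intro r hr hd
    by_cases hrq : r = q
    · subst hrq
      exact hPi ((hd.trans (relIndex_dvd_of_le_left T le_sup_left)).trans
        (Dvd.intro _ (relIndex_mul_index hPT)))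
    · have hd2 : r ∣ N.relIndex T := hd.trans (relIndex_dvd_of_le_left T le_sup_right)
      obtain ⟨j, hj⟩ := IsPGroup.iff_card.mp hTp
      have hker : N.relIndex T = Nat.card (T.map (QuotientGroup.mk' N)) := by
        rw [← relIndex_bot_left, ← relIndex_comap, MonoidHom.comap_bot, QuotientGroup.ker_mk']
      rw [hker, hj] at hd2
      exact hrq ((Nat.prime_dvd_prime_iff_eq hr hq).mp (hr.dvd_of_dvd_pow hd2))
  have hzP : z ∈ P := by
    have hz' : (⟨z, hzH⟩ : H) ∈ (P₀ : Subgroup H) := by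
      haveI := hH
      haveI : (P₀ : Subgroup H).Normal :=
        ((Group.isNilpotent_of_finite_tfae (G := H)).out 0 3 rfl rfl).mp hH q (Fact.mk hq) P₀
      have hzp : IsPGroup q (zpowers (⟨z, hzH⟩ : H)) := fun w => by
        obtain ⟨i, hi⟩ := mem_zpowers_iff.mp w.2
        refine ⟨k, Subtype.ext ?_⟩
        show ((w : H) ^ q ^ k) = 1
        rw [← hi, ← zpow_natCast, ← zpow_mul, mul_comm, zpow_mul, zpow_natCast,
          show (⟨z, hzH⟩ : H) ^ q ^ k = 1 from Subtype.ext hzq, one_zpow]
      obtain ⟨Q, hQ⟩ := hzp.exists_le_sylow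
      haveI := Sylow.unique_of_normal P₀ inferInstance
      exact (Subsingleton.elim Q P₀) ▸ hQ (mem_zpowers _)
    exact ⟨⟨z, hzH⟩, hz', rfl⟩
  apply hPH
  have hgT : g * z * g⁻¹ ∈ P ⊔ N := hTPN (hTn.conj_mem z (hPT hzP) g)
  obtain ⟨a, ha, n, hn, he⟩ := (Coprime.mem_sup_of_le_normalizer
    (by rw [normalizer_eq_top]; exact le_top : P ≤ normalizer (N : Set G))).mp hgT
  have hcom : Commute a n := (mem_centralizer_iff.mp (hPN ha) n hn).symm
  obtain ⟨j, hj⟩ := hPp ⟨a, ha⟩
  have haj : a ^ q ^ j = 1 := congrArg Subtype.val hj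
  have hn1 : n ^ q ^ (k + j) = 1 := by
    have e : (g * z * g⁻¹) ^ q ^ (k + j) = 1 := by
      rw [conj_pow, pow_add, pow_mul, hzq, one_pow, mul_one, mul_inv_cancel]
    rw [← he, hcom.mul_pow] at e
    rwa [show a ^ q ^ (k + j) = 1 by rw [add_comm, pow_add, pow_mul, haj, one_pow], one_mul] at e
  have hn' : n = 1 := orderOf_eq_one_iff.mp (Nat.eq_one_of_dvd_coprimes (hNcop.pow_right (k + j))
    (N.orderOf_dvd_natCard hn) (orderOf_dvd_of_pow_eq_one hn1))
  rw [← he, hn', mul_one]
  exact ha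

/-- The normaliser of a nilpotent Hall subgroup controls its fusion. -/
theorem fusion : ∀ (m : ℕ) (G : Type u) [Group G] [Finite G] [Group.IsSolvable G], Nat.card G ≤ m →
    (∀ p : ℕ, p.Prime → PLengthLE p 1 G) → ∀ H : Subgroup G, Group.IsNilpotent H →
    (Nat.card H).Coprime H.index → ∀ x ∈ H, ∀ g : G, g * x * g⁻¹ ∈ H →
    ∃ n ∈ normalizer (H : Set G), n * x * n⁻¹ = g * x * g⁻¹ := by
  intro m
  induction m with
  | zero => intro G _ _ _ h; exact absurd h (by have := Nat.card_pos (α := G); omega)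
  | succ m ih =>
    intro G _ _ _ hcard hpl H hH hHall x hx g hgx
    by_cases hex : ∃ W : Subgroup G, W.Normal ∧ (Nat.card W).Coprime (Nat.card H) ∧ W ≠ ⊥
    swap
    · push Not at hex
      refine ⟨g, Coprime.mem_normalizer_of_conj_smul_eq (eq_of_le_of_card_ge ?_ (Coprime.card_conj_smul g H).ge), rfl⟩
      rintro _ ⟨h, hh, rfl⟩
      exact hall_normal hpl H hH hHall hex g h hh
    obtain ⟨W, hWn, hWcop, hW1⟩ := hex
    haveI := hWn
    set π := QuotientGroup.mk' W
    have hπ : Function.Surjective π := QuotientGroup.mk'_surjective W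
    have hlt : Nat.card (G ⧸ W) ≤ m := by
      have hW2 : 1 < Nat.card W := (one_lt_card_iff_ne_bot W).mpr hW1
      have := W.card_eq_card_quotient_mul_card_subgroup
      have hpos : 0 < Nat.card (G ⧸ W) := Nat.card_pos
      nlinarith
    haveI : Group.IsSolvable (G ⧸ W) := Group.isSolvable_of_surjective hπ
    haveI := hH
    obtain ⟨n₀, hn₀, hn₀x⟩ := ih (G ⧸ W) hlt
      (fun p hp => haveI := Fact.mk hp; PLength.pLengthLE_of_surjective hπ (hpl p hp)) (H.map π)
      (Group.nilpotent_of_surjective (π.subgroupMap H) (π.subgroupMap_surjective H))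
      (Nat.Coprime.coprime_dvd_left (card_map_dvd H π) (hHall.coprime_dvd_right (index_map_dvd H hπ)))
      (π x) (mem_map_of_mem π hx) (π g) (by rw [← map_mul, ← map_inv, ← map_mul]; exact mem_map_of_mem π hgx)
    obtain ⟨n, rfl⟩ := hπ n₀
    have hHW : H ≤ normalizer (W : Set G) := by rw [normalizer_eq_top]; exact le_top
    have hle : MulAut.conj n • H ≤ H ⊔ W := by
      rintro _ ⟨h, hh, rfl⟩
      have h1 := (mem_normalizer_iff.mp hn₀ (π h)).mp (mem_map_of_mem π hh)
      rw [← map_mul, ← map_inv, ← map_mul] at h1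
      have h2 : n * h * n⁻¹ ∈ (H.map π).comap π := h1
      rwa [comap_map_eq, QuotientGroup.ker_mk'] at h2
    obtain ⟨w, hw, hwe⟩ := Coprime.exists_conj_eq_of_le_sup hHW hWcop.symm (Or.inl inferInstance) hle
      (Coprime.card_conj_smul n H)
    refine ⟨w⁻¹ * n, Coprime.mem_normalizer_of_conj_smul_eq (by
      rw [map_mul, mul_smul, ← hwe, map_inv, inv_smul_smul]), ?_⟩
    set a := w⁻¹ * n * x * (w⁻¹ * n)⁻¹
    set b := g * x * g⁻¹
    have hmem : a * b⁻¹ ∈ H ⊓ W := by
      refine ⟨H.mul_mem ?_ (H.inv_mem hgx), ?_⟩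
      · have h3 : n * x * n⁻¹ ∈ MulAut.conj w • H := hwe ▸ smul_mem_pointwise_smul x (MulAut.conj n) H hx
        rw [Coprime.mem_conj_smul] at h3
        simpa [a, mul_assoc] using h3
      · refine (QuotientGroup.eq_one_iff _).mp ?_
        show π (a * b⁻¹) = 1
        have hwπ : π w = 1 := (QuotientGroup.eq_one_iff w).mpr hw
        simp only [a, b, map_mul, map_inv, hwπ, inv_one, one_mul]
        rw [hn₀x]; group
    rw [Coprime.inf_eq_bot_of_coprime hWcop.symm, mem_bot, mul_inv_eq_one] at hmem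
    exact hmem

end Cfsg.Agent.Lib.OddLocal.NilHallFusion
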