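import Cfsg.Agent.S1410
import Cfsg.Agent.Lib.OddLocal.NilHallFusion
import Cfsg.Agent.Lib.OddLocal.SigmaPrimeElem
set_option autoImplicit false

/-! Nilpotent Hall subgroups of `G`, given BG 14.2. -/

namespace Cfsg.Agent.Lib.OddLocal.NilHallCor

open Subgroup
open scoped Pointwise commutatorElement
open Cfsg.Agent.Lib.Uniq

universe u

variable {G : Type u} [Group G] [Finite G]

/-- A nilpotent Hall subgroup of `G` controls its fusion by its normaliser. -/
theorem fusion (hG : IsMinSimpleOddOrder G)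
    (h30 : ∀ A : Subgroup G, IsCoatom A → ∀ K : Subgroup G, IsPiHallOf (kappa A) K A → K ≠ ⊥ →
      (∀ k ∈ K, k ≠ 1 → sigmaCore A ⊓ centralizer ({k} : Set G) = sigmaCore A ⊓ centralizer (K : Set G)) ∧
      (∃ U : Subgroup G, IsMulCommutative U ∧ IsPiHallOf {q | q.Prime ∧ q ∉ kappa A ∧ q ∉ sigma A} U A ∧
        K ≤ normalizer (U : Set G) ∧ ∀ k ∈ K, k ≠ 1 → U ⊓ centralizer ({k} : Set G) = ⊥) ∧
      ∀ X : Subgroup G, X ≤ K → (Nat.card X).Prime →
        A ⊓ normalizer (X : Set G) = K ⊔ (sigmaCore A ⊓ centralizer (K : Set G)) ∧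
          A ⊓ normalizer (K : Set G) = K ⊔ (sigmaCore A ⊓ centralizer (K : Set G)) ∧
          ∀ Mstar : Subgroup G, IsCoatom Mstar → normalizer (X : Set G) ≤ Mstar → X ≤ sigmaCore Mstar)
    {H : Subgroup G} (hHn : Group.IsNilpotent H) (hHall : (Nat.card H).Coprime H.index) :
    ∀ x ∈ H, ∀ g : G, g * x * g⁻¹ ∈ H → ∃ n ∈ normalizer (H : Set G), n * x * n⁻¹ = g * x * g⁻¹ := by
  classical
  intro x hx g hgx
  rcases eq_or_ne H ⊥ with rfl | hH1
  · rw [mem_bot] at hx
    exact ⟨1, one_mem _, by simp [hx]⟩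
  obtain ⟨p, hp, hpH⟩ := Nat.exists_prime_and_dvd (fun e => hH1 (eq_bot_of_card_eq H e))
  haveI := Fact.mk hp
  obtain ⟨P₀⟩ : Nonempty (Sylow p ↥H) := inferInstance
  set P := (P₀ : Subgroup H).map H.subtype with hP
  have hPH : P ≤ H := map_subtype_le _
  have hPp : IsPGroup p P := P₀.2.map _
  have hP1 : P ≠ ⊥ := by
    rw [hP, Ne, map_eq_bot_iff_of_injective _ H.subtype_injective]
    exact fun e => hp.ne_one (Nat.dvd_one.mp (card_bot (G := H) ▸ e ▸ P₀.dvd_card_of_dvd_card hpH))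
  haveI := hHn
  haveI hP₀n : (P₀ : Subgroup H).Normal :=
    ((Group.isNilpotent_of_finite_tfae (G := H)).out 0 3 rfl rfl).mp hHn p (Fact.mk hp) P₀
  have hHP : H ≤ normalizer (P : Set G) := Components.MaxLocal.le_normalizer_map_subtype _
  obtain ⟨M, hM, hNM⟩ := exists_coatom_ge (minSimple_normalizer_ne_top hG hP1 (pgroup_ne_top hG hPp))
  have hHM : H ≤ M := hHP.trans hNM
  have hHσ : ∀ r : ℕ, r.Prime → r ∣ Nat.card H → ∀ R : Sylow r ↥H,
      ¬ r ∣ ((R : Subgroup H).map H.subtype).index := by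
    intro r hr hrH R hd
    haveI := Fact.mk hr
    rw [← relIndex_mul_index (map_subtype_le _ : (R : Subgroup H).map H.subtype ≤ H)] at hd
    rcases (Nat.Prime.dvd_mul hr).mp hd with h1 | h1
    · refine R.not_dvd_index ?_
      rwa [relIndex, subgroupOf, comap_map_eq_self_of_injective H.subtype_injective] at h1
    · exact hr.ne_one (Nat.eq_one_of_dvd_coprimes hHall hrH h1)
  obtain ⟨PG, hPG⟩ : ∃ S : Sylow p G, (S : Subgroup G) = P := ⟨hPp.toSylow (hHσ p hp hpH P₀), rfl⟩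
  have hPM : P ≤ M := hPH.trans hHM
  have hpσ : p ∈ sigma M := ⟨hp, hpH.trans (card_dvd_of_le hHM), PG.subtype (hPG.le.trans hPM), by
    rw [Sylow.coe_subtype, map_subgroupOf_eq_of_le (hPG.le.trans hPM), hPG]; exact hNM⟩
  have hPσ : P ≤ sigmaCore M := pgroup_le_sigmaCore hG hM hpσ hPp hPM
  have hrσ : ∀ r : ℕ, r.Prime → r ∣ Nat.card H → r ∈ sigma M := by
    intro r hr hrH
    haveI := Fact.mk hr
    by_contra hrσ
    have hrp : r ≠ p := fun e => hrσ (e ▸ hpσ)
    obtain ⟨R₀⟩ : Nonempty (Sylow r ↥H) := inferInstance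
    set R := (R₀ : Subgroup H).map H.subtype with hR
    have hRH : R ≤ H := map_subtype_le _
    have hRc : R ≤ centralizer (P : Set G) := fun a ha => mem_centralizer_iff.mpr fun b hb => by
      have hab : (orderOf b).Coprime (orderOf a) :=
        ((coprime_pgroups hrp hPp (R₀.2.map H.subtype)).coprime_dvd_left (P.orderOf_dvd_natCard hb)).coprime_dvd_right
          (R.orderOf_dvd_natCard ha)
      exact congrArg Subtype.val (Transfer.commute_of_coprime_orderOf (G := H) (x := ⟨b, hPH hb⟩)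
        (y := ⟨a, hRH ha⟩) (by rwa [orderOf_mk, orderOf_mk])).eq
    obtain ⟨e, he⟩ := exists_prime_orderOf_dvd_card' (G := ↥R) r (by
      rw [hR, card_map_of_injective H.subtype_injective]; exact R₀.dvd_card_of_dvd_card hrH)
    rw [← orderOf_coe] at he
    obtain ⟨y, hy, hy1⟩ := (bot_or_exists_ne_one P).resolve_left hP1
    rcases SigmaPrimeElem.kappa_or_tau2 hG hM hrσ (hRH.trans hHM e.2) he (hPσ hy) hy1
      (mem_centralizer_iff.mp (hRc e.2) y hy).symm with hκ | hτ
    · obtain ⟨K, hK, heK⟩ := SigmaPrimeElem.exists_kappa_hall hG hM (hRH.trans hHM e.2) (fun s hs hd => by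
        rw [he] at hd; rwa [(Nat.prime_dvd_prime_iff_eq hs hr).mp hd])
      have he1 : (e : G) ≠ 1 := fun h => hr.ne_one (by rw [← he, h, orderOf_one])
      have hK1 : K ≠ ⊥ := fun h => he1 (mem_bot.mp (h ▸ heK))
      obtain ⟨hC, hU, hX⟩ := h30 M hM K hK hK1
      have hPK : P ≤ sigmaCore M ⊓ centralizer (K : Set G) := fun a ha => by
        rw [← hC e heK he1]
        exact ⟨hPσ ha, mem_centralizer_singleton_iff.mpr (mem_centralizer_iff.mp (hRc e.2) a ha)⟩
      have hPi : ¬ p ∣ (P.subgroupOf (sigmaCore M)).index := fun hd =>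
        hHσ p hp hpH P₀ (hd.trans (Dvd.intro _ (relIndex_mul_index hPσ)))
      have h := ((KappaStar.star_props hG hM hK hK1 hU hX).2.2.1 p hp
        (((card_map_of_injective H.subtype_injective).symm ▸ P₀.dvd_card_of_dvd_card hpH :
          p ∣ Nat.card P).trans (card_dvd_of_le hPK))
        ((hPp.comap_subtype (K := sigmaCore M)).toSylow hPi)).2.2
      refine h (le_trans (le_of_eq ?_) hPK)
      exact map_subgroupOf_eq_of_le hPσ
    · obtain ⟨B, hBM, hB, hBc⟩ := elem_of_not_pRankLE hτ.2.2.2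
      obtain ⟨RG, hRG⟩ : ∃ S : Sylow r G, (S : Subgroup G) = R :=
        ⟨(R₀.2.map H.subtype).toSylow (hHσ r hr hrH R₀), rfl⟩
      obtain ⟨m, hm, hmB⟩ := exists_conj_le_sylow RG (hRG.le.trans (hRH.trans hHM)) (elem_isPGroup hB) hBM
      have hBR : MulAut.conj m⁻¹ • B ≤ R := by
        rintro _ ⟨b, hb, rfl⟩
        show m⁻¹ * b * m⁻¹⁻¹ ∈ R
        rw [← hRG]; simpa using hmB b hb
      have h := sigmaCore_inf_centralizer_elem hG hM hrσ ((hBR.trans hRH).trans hHM) (elem_of_conj _ hB)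
        (by rw [Coprime.card_conj_smul, hBc])
      refine hP1 (eq_bot_iff.mpr (h ▸ le_inf hPσ ?_))
      exact (le_centralizer_iff.mp hRc).trans (centralizer_le hBR)
  have hHσM : H ≤ sigmaCore M := le_sigmaCore hG hM hHM hrσ
  obtain ⟨m, hm, c, hc, hgc⟩ := SigmaPrimeElem.exists_mul_centralizer hG hM (hHσM hx) (g := g) (hHM hgx)
  have hmx : m * x * m⁻¹ = g * x * g⁻¹ := by
    have hcx : c * x = x * c := mem_centralizer_singleton_iff.mp hc
    rw [hgc]
    calc m * x * m⁻¹ = m * (x * c) * c⁻¹ * m⁻¹ := by group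
      _ = m * c * x * (m * c)⁻¹ := by rw [← hcx]; group
  haveI := solvable_of_ne_top hG hM.1
  obtain ⟨n, hn, hnx⟩ := NilHallFusion.fusion (Nat.card ↥M) ↥M le_rfl
    (fun r hr => haveI := Fact.mk hr; pl1_of_injective (MonoidHom.id ↥M) Function.injective_id (S1410.result hG r M hM.1))
    (H.subgroupOf M) (Group.nilpotent_of_mulEquiv (subgroupOfEquivOfLe hHM).symm)
    (by rw [Coprime.card_subgroupOf hHM]; exact hHall.coprime_dvd_right (Dvd.intro _ (relIndex_mul_index hHM)))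
    ⟨x, hHM hx⟩ hx ⟨m, hm⟩ (show m * x * m⁻¹ ∈ H from hmx ▸ hgx)
  refine ⟨n, ?_, (congrArg Subtype.val hnx).trans hmx⟩
  have := le_normalizer_map M.subtype (mem_map_of_mem M.subtype hn)
  rwa [map_subgroupOf_eq_of_le hHM] at this

end Cfsg.Agent.Lib.OddLocal.NilHallCor
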