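import Mathlib.FieldTheory.Finite.GaloisField
import Mathlib.Algebra.Polynomial.Roots
set_option autoImplicit false

open Polynomial Finset

namespace Cfsg.Agent.Lib.OddLocal

/-- The exponent of the norm map from the field with `p ^ q` elements to the prime field. -/
def normExp (p q : ℕ) : ℕ := ∑ i ∈ range q, p ^ i

theorem normExp_eq_div (p q : ℕ) (hp : 1 < p) : normExp p q = (p ^ q - 1) / (p - 1) :=
  Nat.geomSum_eq hp q

theorem galois_norm_eq_one_iff (p q : ℕ) [Fact p.Prime] (hq : q ≠ 0) (a : GaloisField p q) :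
    Algebra.norm (ZMod p) a = 1 ↔ a ^ normExp p q = 1 := by
  have hp : 1 < p := (Fact.out : p.Prime).one_lt
  haveI : Finite (GaloisField p q) :=
    Nat.finite_of_card_ne_zero (by rw [GaloisField.card p q hq]; exact pow_ne_zero _ (by omega))
  have h := FiniteField.algebraMap_norm_eq_pow (K := ZMod p) (K' := GaloisField p q) (x := a)
  rw [GaloisField.card p q hq, Nat.card_zmod, ← normExp_eq_div p q hp] at h
  constructor
  · intro h1; rw [← h, h1, map_one]
  · intro h1
    apply (algebraMap (ZMod p) (GaloisField p q)).injective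
    rw [h, h1, map_one]

variable {F : Type*} [Field F] (p : ℕ) [hp : Fact p.Prime] [CharP F p]

/-- `∏ (1 + k d ^ p ^ i)` is the norm of `1 + k d` for `k` in the prime field. -/
theorem prod_one_add_eq_pow (q : ℕ) (d : F) (k : ℕ) :
    ∏ i ∈ range q, (1 + (k : F) * d ^ p ^ i) = (1 + (k : F) * d) ^ normExp p q := by
  rw [normExp, ← Finset.prod_pow_eq_pow_sum]
  refine Finset.prod_congr rfl fun i hi => ?_
  clear hi
  rw [add_pow_char_pow, one_pow, mul_pow]
  have : (k : F) ^ p ^ i = k := by
    induction i with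
    | zero => simp
    | succ n ih =>
      rw [pow_succ, pow_mul, ih, ← frobenius_def, map_natCast]
  rw [this]

/-- The Appendix C argument: a set closed under `a ↦ 2 - a` and inversion inside the norm-one elements forces
`p ≤ q` as soon as it contains an element other than `1`. -/
theorem le_of_norm_pair_inv_closed (q : ℕ) (hq : q ≠ 0) (a : F) (ha1 : a ≠ 1)
    (ha : a ^ normExp p q = 1 ∧ (2 - a) ^ normExp p q = 1)
    (hinv : ∀ b : F, b ^ normExp p q = 1 → (2 - b) ^ normExp p q = 1 →
      (2 - b⁻¹) ^ normExp p q = 1) :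
    p ≤ q := by
  set e := normExp p q with he
  have he0 : e ≠ 0 := by
    have : p ^ 0 ≤ e := Finset.single_le_sum (f := fun i => p ^ i) (fun i _ => Nat.zero_le _)
      (Finset.mem_range.mpr (Nat.pos_of_ne_zero hq))
    simp at this; omega
  have ne0 : ∀ x : F, x ^ e = 1 → x ≠ 0 := by
    intro x hx h0; rw [h0, zero_pow he0] at hx; exact zero_ne_one hx
  have key : ∀ k : ℕ, (1 + (k : F) * (1 - a)) ^ e = 1 ∧
      (1 + ((k : F) + 1) * (1 - a)) ^ e = 1 ∧ (1 + ((k : F) - 1) * (1 - a)) ^ e = 1 := by
    intro k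
    induction k with
    | zero =>
      refine ⟨by simp, ?_, ?_⟩
      · simpa [show (1 : F) + (1 - a) = 2 - a by ring] using ha.2
      · simpa [show (1 : F) + (-1) * (1 - a) = a by ring] using ha.1
    | succ k ih =>
      obtain ⟨hX, hY, hZ⟩ := ih
      refine ⟨by push_cast; exact hY, ?_, ?_⟩
      · push_cast
        generalize hxd : (1 + (k : F) * (1 - a)) = x at hX
        generalize hyd : (1 + ((k : F) + 1) * (1 - a)) = y at hY
        have hx : x ≠ 0 := ne0 x hX
        have hy : y ≠ 0 := ne0 y hY
        have hz : 1 + ((k : F) - 1) * (1 - a) = 2 * x - y := by rw [← hxd, ← hyd]; ring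
        have hw : 1 + ((k : F) + 1 + 1) * (1 - a) = y * (2 - (y / x)⁻¹) := by
          have h5 : y * (2 - (y / x)⁻¹) = 2 * y - x := by field_simp
          rw [h5, ← hxd, ← hyd]; ring
        have hb : (y / x) ^ e = 1 := by rw [div_pow, hX, hY, div_one]
        have hb2 : (2 - y / x) ^ e = 1 := by
          have : 2 - y / x = (2 * x - y) / x := by
            rw [sub_div, mul_div_cancel_right₀ _ hx]
          rw [this, div_pow, hX, div_one, ← hz]; exact hZ
        rw [hw, mul_pow, hY, hinv (y / x) hb hb2, one_mul]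
      · push_cast
        simpa using hX
  by_contra hcon
  rw [not_le] at hcon
  let P : F[X] := ∏ i ∈ range q, (1 + X * C ((1 - a) ^ p ^ i)) - 1
  have hdeg : P.natDegree ≤ q := by
    refine (natDegree_sub_le _ _).trans ?_
    simp only [natDegree_one, max_le_iff, zero_le, and_true]
    refine (natDegree_prod_le _ _).trans ?_
    refine (Finset.sum_le_card_nsmul _ _ 1 fun i _ => ?_).trans (by simp)
    compute_degree
  have hzero : P = 0 := by
    refine Polynomial.eq_zero_of_natDegree_lt_card_of_eval_eq_zero P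
      (f := fun i : Fin p => ((i : ℕ) : F)) ?_ ?_ (by simpa using lt_of_le_of_lt hdeg hcon)
    · intro i j hij
      have := (CharP.natCast_eq_natCast F p).mp hij
      exact Fin.ext (by rwa [Nat.ModEq, Nat.mod_eq_of_lt i.2, Nat.mod_eq_of_lt j.2] at this)
    · intro i
      simp only [P, eval_sub, eval_prod, eval_add, eval_one, eval_mul, eval_X, eval_C]
      rw [prod_one_add_eq_pow, (key i).1, sub_self]
  have hd : (1 - a) ≠ 0 := sub_ne_zero.mpr (Ne.symm ha1)
  have h0 := congrArg (fun Q : F[X] => Q.eval (-(1 - a)⁻¹)) hzero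
  simp only [P, eval_sub, eval_prod, eval_add, eval_one, eval_mul, eval_X, eval_C, eval_zero] at h0
  rw [Finset.prod_eq_zero (Finset.mem_range.mpr (Nat.pos_of_ne_zero hq))
    (by simp [inv_mul_cancel₀ hd])] at h0
  simp at h0

end Cfsg.Agent.Lib.OddLocal
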