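import Cfsg.Agent.Lib.OddLocal.NormField
import Mathlib.NumberTheory.LegendreSymbol.Complex
import Mathlib.Algebra.Polynomial.SpecificDegree
import Mathlib.RingTheory.AdjoinRoot
set_option autoImplicit false

/-! There is a nontrivial pair of norm-one elements adding up to `2`. -/

namespace Cfsg.Agent.Lib.OddLocal

open Finset Polynomial
open scoped ComplexConjugate

variable {F : Type*} [Field F] [Fintype F]

/-- If `U` is the group of `n`-th roots of unity in a field with `Q ≤ R²` elements, `n ∣ Q - 1`, and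
`n² > Q + Q R`, then some `u ≠ 1` has both `u` and `2 - u` in `U`. -/
theorem exists_pair_of_char_sum (n R : ℕ) (two_ne : (2 : F) ≠ 0) (hn : n ∣ Fintype.card F - 1) (hR : Fintype.card F ≤ R ^ 2)
    (hbig : Fintype.card F + Fintype.card F * R < n ^ 2) :
    ∃ u : F, u ≠ 1 ∧ u ^ n = 1 ∧ (2 - u) ^ n = 1 := by
  classical
  set Q := Fintype.card F with hQ
  have hQ2 : 2 ≤ Q := Fintype.one_lt_card
  have hn0 : 0 < n := Nat.pos_of_ne_zero fun h => by simp [h] at hbig
  set U : Finset F := univ.filter fun u => u ^ n = 1 with hU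
  have hmemU : ∀ u, u ∈ U ↔ u ^ n = 1 := by simp [hU]
  have hU0 : ∀ u ∈ U, u ≠ 0 := fun u hu h => by
    have := (hmemU u).mp hu
    rw [h, zero_pow hn0.ne'] at this
    exact zero_ne_one this
  have hUcard : U.card = n := by
    obtain ⟨g, hg⟩ := IsCyclic.exists_ofOrder_eq_natCard (α := Fˣ)
    rw [Nat.card_eq_fintype_card, Fintype.card_units] at hg
    have hprim : IsPrimitiveRoot ((g : F) ^ ((Q - 1) / n)) n := by
      have h1 : IsPrimitiveRoot (g : F) (Q - 1) := by
        rw [hQ, ← hg, ← orderOf_units]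
        exact IsPrimitiveRoot.orderOf _
      exact h1.pow (by omega) (Nat.div_mul_cancel hn).symm
    have hUe : U = nthRootsFinset n (1 : F) := by
      ext u; rw [hmemU, mem_nthRootsFinset hn0]
    rw [hUe, hprim.card_nthRootsFinset]
  let ψ : AddChar F ℂ := AddChar.FiniteField.primitiveChar_to_Complex F
  have hψ : ψ.IsPrimitive := AddChar.FiniteField.primitiveChar_to_Complex_isPrimitive F
  have orth : ∀ b : F, ∑ c : F, ψ (c * b) = if b = 0 then (Q : ℂ) else 0 := fun b => by
    rw [AddChar.sum_mulShift b hψ]; split <;> simp [hQ]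
  let η : F → ℂ := fun c => ∑ u ∈ U, ψ (c * u)
  have η0 : η 0 = n := by simp [η, hUcard]
  have ηmul : ∀ c, ∀ w ∈ U, η (c * w) = η c := by
    intro c w hw
    refine Finset.sum_nbij' (fun u => w * u) (fun u => w⁻¹ * u) ?_ ?_ ?_ ?_ ?_
    · intro u hu
      rw [hmemU, mul_pow, (hmemU u).mp hu, (hmemU w).mp hw, one_mul]
    · intro u hu
      rw [hmemU, mul_pow, inv_pow, (hmemU u).mp hu, (hmemU w).mp hw, inv_one, one_mul]
    · intro u _; simp [← mul_assoc, hU0 w hw]
    · intro u _; simp [← mul_assoc, hU0 w hw]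
    · intro u _; simp [mul_assoc]
  -- the second moment
  have hsum : ∑ c : F, (‖η c‖ : ℝ) ^ 2 = Q * n := by
    have h : (((∑ c : F, (‖η c‖ : ℝ) ^ 2 : ℝ)) : ℂ) = ((Q * n : ℝ) : ℂ) := by
      push_cast
      calc ∑ c : F, (‖η c‖ : ℂ) ^ 2 = ∑ c : F, η c * conj (η c) :=
            sum_congr rfl fun c _ => (Complex.mul_conj' (η c)).symm
        _ = ∑ c : F, ∑ u ∈ U, ∑ v ∈ U, ψ (c * (u - v)) := by
            refine sum_congr rfl fun c _ => ?_
            rw [map_sum, Finset.sum_mul_sum]
            refine sum_congr rfl fun u _ => sum_congr rfl fun v _ => ?_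
            rw [← AddChar.map_neg_eq_conj, ← AddChar.map_add_eq_mul]
            ring_nf
        _ = ∑ u ∈ U, ∑ v ∈ U, ∑ c : F, ψ (c * (u - v)) := by
            rw [Finset.sum_comm]
            exact sum_congr rfl fun u _ => Finset.sum_comm
        _ = (Q : ℂ) * n := by
            simp only [orth, sub_eq_zero]
            simp [Finset.sum_ite_eq, hUcard, mul_comm]
    exact_mod_cast h
  have hrest : ∑ c ∈ univ.erase (0 : F), (‖η c‖ : ℝ) ^ 2 = Q * n - n ^ 2 := by
    rw [Finset.sum_erase_eq_sub (mem_univ _), hsum, η0]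
    simp
  have hbound : ∀ c : F, c ≠ 0 → ‖η c‖ ≤ R := by
    intro c hc
    have h1 : ∑ d ∈ U.image (fun u => c * u), (‖η d‖ : ℝ) ^ 2 = n * ‖η c‖ ^ 2 := by
      rw [Finset.sum_image fun u _ v _ h => mul_left_cancel₀ hc h,
        sum_congr rfl fun u hu => by rw [ηmul c u hu]]
      simp [hUcard]
    have h2 : (n : ℝ) * ‖η c‖ ^ 2 ≤ Q * n - n ^ 2 := by
      rw [← h1, ← hrest]
      refine Finset.sum_le_sum_of_subset_of_nonneg ?_ fun _ _ _ => sq_nonneg _
      intro d hd
      obtain ⟨u, hu, rfl⟩ := Finset.mem_image.mp hd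
      exact mem_erase.mpr ⟨mul_ne_zero hc (hU0 u hu), mem_univ _⟩
    have h3 : (Q : ℝ) ≤ (R : ℝ) ^ 2 := by exact_mod_cast hR
    have hnR : (0 : ℝ) < n := by exact_mod_cast hn0
    have h4 : ‖η c‖ ^ 2 ≤ (R : ℝ) ^ 2 := by
      refine le_of_mul_le_mul_left ?_ hnR
      nlinarith
    exact (sq_le_sq₀ (norm_nonneg _) (Nat.cast_nonneg R)).mp h4
  -- the twisted sum
  set T : ℂ := ∑ c ∈ univ.erase (0 : F), η c ^ 2 * ψ (c * (-2)) with hT
  have hnT : (n : ℂ) * T = ∑ c ∈ univ.erase (0 : F), η c ^ 2 * η (c * (-2)) := by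
    have h : ∀ w ∈ U, T = ∑ c ∈ univ.erase (0 : F), η c ^ 2 * ψ (c * (-2) * w) := by
      intro w hw
      refine Finset.sum_nbij' (fun c => c * w⁻¹) (fun c => c * w) ?_ ?_ ?_ ?_ ?_
      · intro c hc; simpa [hU0 w hw] using hc
      · intro c hc; simpa [hU0 w hw] using hc
      · intro c _; simp [mul_assoc, hU0 w hw]
      · intro c _; simp [mul_assoc, hU0 w hw]
      · intro c _
        have : η (c * w⁻¹) = η c := ηmul c _ (by rw [hmemU, inv_pow, (hmemU w).mp hw, inv_one])
        rw [this]
        congr 2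
        field_simp [hU0 w hw]
    calc (n : ℂ) * T = ∑ w ∈ U, T := by simp [hUcard]
      _ = ∑ w ∈ U, ∑ c ∈ univ.erase (0 : F), η c ^ 2 * ψ (c * (-2) * w) := sum_congr rfl h
      _ = _ := by rw [Finset.sum_comm]; simp only [η, Finset.mul_sum]
  have hTn : (n : ℝ) * ‖T‖ ≤ R * (Q * n - n ^ 2) := by
    rw [← hrest, Finset.mul_sum]
    calc (n : ℝ) * ‖T‖ = ‖(n : ℂ) * T‖ := by simp
      _ ≤ ∑ c ∈ univ.erase (0 : F), ‖η c ^ 2 * η (c * (-2))‖ := by rw [hnT]; exact norm_sum_le _ _
      _ ≤ _ := by
        refine Finset.sum_le_sum fun c hc => ?_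
        rw [norm_mul, norm_pow, mul_comm (R : ℝ)]
        refine mul_le_mul_of_nonneg_left ?_ (sq_nonneg _)
        exact hbound _ (mul_ne_zero (mem_erase.mp hc).1 (neg_ne_zero.mpr two_ne))
  by_contra hcon
  push Not at hcon
  have hcount : ∑ c : F, η c ^ 2 * ψ (c * (-2)) = (Q : ℂ) := by
    have h1U : (1 : F) ∈ U := by simp [hmemU]
    calc ∑ c : F, η c ^ 2 * ψ (c * (-2)) = ∑ c : F, ∑ u ∈ U, ∑ v ∈ U, ψ (c * (u + v - 2)) := by
          refine sum_congr rfl fun c _ => ?_
          rw [sq, Finset.sum_mul_sum, Finset.sum_mul]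
          refine sum_congr rfl fun u _ => ?_
          rw [Finset.sum_mul]
          refine sum_congr rfl fun v _ => ?_
          rw [← AddChar.map_add_eq_mul, ← AddChar.map_add_eq_mul]
          ring_nf
      _ = ∑ u ∈ U, ∑ v ∈ U, ∑ c : F, ψ (c * (u + v - 2)) := by
          rw [Finset.sum_comm]
          exact sum_congr rfl fun u _ => Finset.sum_comm
      _ = ∑ u ∈ U, ∑ v ∈ U, if u = 1 ∧ v = 1 then (Q : ℂ) else 0 := by
          refine sum_congr rfl fun u hu => sum_congr rfl fun v hv => ?_
          rw [orth]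
          refine if_congr ⟨fun h => ?_, ?_⟩ rfl rfl
          · have h1 : u = 1 := by
              by_contra hne
              exact hcon u hne ((hmemU u).mp hu) (by
                rw [← show v = 2 - u by linear_combination h]; exact (hmemU v).mp hv)
            exact ⟨h1, by subst h1; linear_combination h⟩
          · rintro ⟨rfl, rfl⟩; ring
      _ = (Q : ℂ) := by simp [ite_and, Finset.sum_ite_eq', h1U]
  have hT2 : (T : ℂ) = Q - n ^ 2 := by
    rw [hT, Finset.sum_erase_eq_sub (mem_univ _), hcount, η0]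
    simp
  have h1 : ‖T‖ = (n : ℝ) ^ 2 - Q := by
    rw [hT2, show (Q : ℂ) - n ^ 2 = ((Q - n ^ 2 : ℝ) : ℂ) by push_cast; ring, Complex.norm_real,
      Real.norm_eq_abs, abs_of_nonpos, neg_sub]
    have : (Q : ℝ) + Q * R < n ^ 2 := by exact_mod_cast hbig
    nlinarith [(Nat.cast_nonneg Q : (0 : ℝ) ≤ Q), (Nat.cast_nonneg R : (0 : ℝ) ≤ R)]
  have h2 : (Q : ℝ) + Q * R < n ^ 2 := by exact_mod_cast hbig
  have hnR : (0 : ℝ) < n := by exact_mod_cast hn0
  rw [h1] at hTn
  nlinarith [(Nat.cast_nonneg R : (0 : ℝ) ≤ R)]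

/-- The case of cubic fields. -/
theorem exists_pair_cubic (p : ℕ) [hp : Fact p.Prime] :
    ∃ a : GaloisField p 3, a ≠ 1 ∧ a ^ normExp p 3 = 1 ∧ (2 - a) ^ normExp p 3 = 1 := by
  classical
  let g : ZMod p → (ZMod p)[X] := fun s => X ^ 3 + C s * X ^ 2 + C (-(2 * s + 3)) * X + C (-1)
  obtain ⟨s, hs⟩ : ∃ s : ZMod p, ∀ x : ZMod p, (g s).eval x ≠ 0 := by
    by_contra hcon
    push Not at hcon
    choose root hroot using hcon
    simp only [g, eval_add, eval_mul, eval_pow, eval_X, eval_C] at hroot
    have hne0 : ∀ s, root s ≠ 0 := fun s h => by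
      have := hroot s; rw [h] at this; simp at this
    have hinj : Function.Injective root := by
      intro s t h
      have h1 := hroot s
      have h2 := hroot t
      rw [h] at h1
      have h3 : (s - t) * (root t * (root t - 2)) = 0 := by linear_combination h1 - h2
      rcases mul_eq_zero.mp h3 with h4 | h4
      · exact sub_eq_zero.mp h4
      · rcases mul_eq_zero.mp h4 with h5 | h5
        · exact absurd h5 (hne0 t)
        · rw [sub_eq_zero.mp h5] at h2
          exact absurd (show (1 : ZMod p) = 0 by linear_combination h2) one_ne_zero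
    obtain ⟨s, hs⟩ := (Finite.injective_iff_surjective.mp hinj) 0
    exact hne0 s hs
  have hdeg : (g s).natDegree = 3 := by simp only [g]; compute_degree!
  have hmon : (g s).Monic := by simp only [g]; monicity!
  have hirr : Irreducible (g s) := by
    rw [hmon.irreducible_iff_roots_eq_zero_of_degree_le_three (by omega) (by omega)]
    refine Multiset.eq_zero_of_forall_notMem fun x hx => ?_
    exact hs x (isRoot_of_mem_roots hx)
  haveI : Fact (Irreducible (g s)) := ⟨hirr⟩
  let pb := AdjoinRoot.powerBasis hirr.ne_zero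
  haveI : Finite (AdjoinRoot (g s)) := Finite.of_equiv _ pb.basis.equivFun.toEquiv.symm
  have hcard : Nat.card (AdjoinRoot (g s)) = p ^ 3 := by
    rw [Nat.card_congr pb.basis.equivFun.toEquiv]
    simp [AdjoinRoot.powerBasis_dim, pb, hdeg]
  let e := GaloisField.algEquivGaloisField p 3 hcard
  set a : GaloisField p 3 := e (AdjoinRoot.root (g s)) with ha
  have hga : a ^ 3 + algebraMap (ZMod p) _ s * a ^ 2 +
      algebraMap (ZMod p) _ (-(2 * s + 3)) * a + algebraMap (ZMod p) _ (-1) = 0 := by
    have h : Polynomial.aeval a (g s) = 0 := by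
      rw [ha, ← AlgEquiv.coe_toAlgHom e, Polynomial.aeval_algHom_apply, AdjoinRoot.aeval_eq, AdjoinRoot.mk_self, map_zero]
    simpa [g, map_add, map_mul] using h
  have hnot : ∀ x : ZMod p, algebraMap (ZMod p) (GaloisField p 3) x ≠ a := by
    intro x hx
    rw [← hx] at hga
    simp only [← map_pow, ← map_mul, ← map_add, map_eq_zero] at hga
    exact hs x (by simpa [g] using hga)
  set σ := frobenius (GaloisField p 3) p with hσ
  have hfix : ∀ x : ZMod p, σ (algebraMap (ZMod p) (GaloisField p 3) x) = algebraMap _ _ x := by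
    intro x; rw [hσ, frobenius_def, ← map_pow, ZMod.pow_card]
  have hfixed : ∀ y : GaloisField p 3, σ y = y → ∃ x : ZMod p, algebraMap _ _ x = y := by
    intro y hy
    by_contra hne
    push Not at hne
    haveI : Finite (GaloisField p 3) := Finite.of_equiv _ e.toEquiv
    haveI := Fintype.ofFinite (GaloisField p 3)
    let P : (GaloisField p 3)[X] := X ^ p - X
    have hP : P ≠ 0 := FiniteField.X_pow_card_sub_X_ne_zero _ hp.out.one_lt
    have hsub : insert y (univ.image (algebraMap (ZMod p) (GaloisField p 3))) ⊆ P.roots.toFinset := by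
      intro z hz
      rw [Multiset.mem_toFinset, mem_roots hP]
      rcases Finset.mem_insert.mp hz with rfl | hz
      · simpa [P, sub_eq_zero, frobenius_def, hσ] using hy
      · obtain ⟨x, -, rfl⟩ := Finset.mem_image.mp hz
        simpa [P, sub_eq_zero, frobenius_def, hσ] using hfix x
    have h1 := (Finset.card_le_card hsub).trans (Multiset.toFinset_card_le _)
    rw [Finset.card_insert_of_notMem (by simpa using fun x => hne x),
      Finset.card_image_of_injective _ (algebraMap (ZMod p) (GaloisField p 3)).injective,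
      Finset.card_univ, ZMod.card] at h1
    have h2 := Polynomial.card_roots' P
    rw [FiniteField.X_pow_card_sub_X_natDegree_eq _ hp.out.one_lt] at h2
    omega
  generalize hS : algebraMap (ZMod p) (GaloisField p 3) s = S at *
  simp only [map_neg, map_add, map_mul, map_ofNat, map_one, hS] at hga
  set b := σ a with hb
  set c := σ b with hc
  have hgb : b ^ 3 + S * b ^ 2 + -(2 * S + 3) * b + -1 = 0 := by
    have h := congrArg σ hga
    simp only [map_add, map_mul, map_pow, map_neg, map_one, map_ofNat, map_zero, ← hS, hfix] at h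
    rw [hS] at h
    exact h
  have hgc : c ^ 3 + S * c ^ 2 + -(2 * S + 3) * c + -1 = 0 := by
    have h := congrArg σ hgb
    simp only [map_add, map_mul, map_pow, map_neg, map_one, map_ofNat, map_zero, ← hS, hfix] at h
    rw [hS] at h
    exact h
  have hab : a ≠ b := fun h => by
    obtain ⟨x, hx⟩ := hfixed a h.symm
    exact hnot x hx
  have hbc : b ≠ c := fun h => hab ((frobenius_inj (GaloisField p 3) p) h)
  have hac : a ≠ c := by
    intro h
    -- `σ² a = a` and `σ³ a = a` force `σ a = a`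
    haveI : Finite (GaloisField p 3) := Finite.of_equiv _ e.toEquiv
    haveI := Fintype.ofFinite (GaloisField p 3)
    have h3 : σ c = a := by
      have h0 := FiniteField.pow_card a
      rw [← Nat.card_eq_fintype_card, GaloisField.card p 3 (by norm_num)] at h0
      simp only [hc, hb, hσ, frobenius_def, ← pow_mul]
      rw [show p * p * p = p ^ 3 by ring]
      exact h0
    exact hab (h3 ▸ (congrArg σ h).symm)
  have e1 : a ^ 2 + a * b + b ^ 2 + S * (a + b) + -(2 * S + 3) = 0 :=
    mul_left_cancel₀ (sub_ne_zero.mpr hab) (by linear_combination hga - hgb)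
  have e2 : a ^ 2 + a * c + c ^ 2 + S * (a + c) + -(2 * S + 3) = 0 :=
    mul_left_cancel₀ (sub_ne_zero.mpr hac) (by linear_combination hga - hgc)
  have e3 : a + b + c + S = 0 :=
    mul_left_cancel₀ (sub_ne_zero.mpr hbc) (by linear_combination e1 - e2)
  have e4 : a * b + b * c + c * a = -(2 * S + 3) := by
    linear_combination (-1 : GaloisField p 3) * e1 + (a + b) * e3
  have e5 : a * b * c = 1 := by
    linear_combination hga + (-(a ^ 2)) * e3 + a * e4
  have hexp : ∀ x : GaloisField p 3, x ^ normExp p 3 = x * σ x * σ (σ x) := by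
    intro x
    simp [normExp, Finset.sum_range_succ, pow_add, hσ, frobenius_def, ← pow_mul, pow_two]
  refine ⟨a, fun h => hnot 1 (by rw [map_one, h]), by rw [hexp]; exact e5, ?_⟩
  rw [hexp]
  simp only [map_sub, map_ofNat, ← hb, ← hc]
  linear_combination (-4 : GaloisField p 3) * e3 + 2 * e4 - e5

end Cfsg.Agent.Lib.OddLocal
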