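import Cfsg.Agent.Lib.OddLocal.SigmaPrimeElem
import Cfsg.Agent.Lib.Uniq.TauTwoUnique
import Cfsg.Agent.Lib.Uniq.TauTwoRegular
set_option autoImplicit false

/-! BG 14.5: the cosets `x R(x)` are disjoint. -/

namespace Cfsg.Agent.Lib.OddLocal.Signalizer

open Subgroup
open scoped Pointwise commutatorElement
open Cfsg.Agent.Lib.Uniq

universe u

variable {G : Type u} [Group G] [Finite G] {M N L : Subgroup G}

omit [Finite G] in
theorem fittingHall_sup_le (L : Subgroup G) : fittingHallOf L ≤ L := map_subtype_le _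

/-- `L_F ≤ L_σ`. -/
theorem fittingHallOf_le_sigmaCore (hG : IsMinSimpleOddOrder G) (hL : IsCoatom L) :
    fittingHallOf L ≤ sigmaCore L := by
  refine map_mono (sSup_le ?_)
  rintro N ⟨hN, hnil, hcop⟩
  haveI := hN
  refine OddLocal.le_piCore fun r hr hd => ?_
  haveI := Fact.mk hr
  obtain ⟨Q⟩ : Nonempty (Sylow r N) := inferInstance
  haveI := hnil
  haveI : (Q : Subgroup N).Normal :=
    ((Group.isNilpotent_of_finite_tfae (G := N)).out 0 3 rfl rfl).mp hnil r (Fact.mk hr) Q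
  haveI := Q.characteristic_of_normal inferInstance
  obtain ⟨P⟩ : Nonempty (Sylow r L) := inferInstance
  have hPN : (P : Subgroup L) ≤ N := by
    refine le_of_coprime_index (Nat.coprime_of_dvd fun s hs h1 h2 => ?_)
    obtain rfl := isPGroup_ne_dvd P.2 hs h1
    exact hr.ne_one (Nat.eq_one_of_dvd_coprimes hcop hd h2)
  have hPQ : (Q : Subgroup N).map N.subtype = P := by
    haveI : ((Q : Subgroup N).map N.subtype).Normal := inferInstance
    refine P.3 (Q.2.map _) fun z hz => ?_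
    obtain ⟨g, hg⟩ := MulAction.exists_smul_eq ↥N (P.subtype hPN) Q
    have hP' : (P : Subgroup L) = MulAut.conj (g : L)⁻¹ • (Q : Subgroup N).map N.subtype := by
      rw [← hg, Sylow.coe_subgroup_smul, ← map_subgroupOf_eq_of_le hPN]
      erw [Coprime.map_conj_smul]
      rw [← mul_smul, ← map_mul]
      simp
    rw [hP', Coprime.conj_smul_eq_self (by rw [normalizer_eq_top]; trivial)] at hz
    exact hz
  haveI : (P : Subgroup L).Normal := hPQ ▸ inferInstance
  refine ⟨hr, hd.trans (card_subgroup_dvd_card N), P, ?_⟩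
  have hP1 : (P : Subgroup L).map L.subtype ≠ ⊥ := by
    rw [Ne, map_eq_bot_iff_of_injective _ L.subtype_injective]
    exact fun e => hr.ne_one (Nat.dvd_one.mp (card_bot (G := L) ▸ e ▸
      P.dvd_card_of_dvd_card (hd.trans (card_subgroup_dvd_card N))))
  exact (normalizer_eq_of_normal hG hL hP1 (map_subtype_le _)
    (Components.MaxLocal.le_normalizer_map_subtype _)).le

theorem supportR_cases (M : Subgroup G) (x : G) :
    supportR M x = ⊥ ∨ ∃ L : Subgroup G, IsCoatom L ∧ ¬ centralizer ({x} : Set G) ≤ M ∧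
      centralizer ({x} : Set G) ≤ L ∧ supportR M x ≤ fittingHallOf L ⊓ centralizer ({x} : Set G) := by
  classical
  by_cases h : ¬ centralizer ({x} : Set G) ≤ M ∧
      ∃! L : Subgroup G, IsCoatom L ∧ centralizer ({x} : Set G) ≤ L
  · obtain ⟨hL, hCL⟩ := Classical.choose_spec h.2.exists
    exact Or.inr ⟨_, hL, h.1, hCL, le_of_eq (by rw [supportR, dif_pos h])⟩
  · exact Or.inl (by rw [supportR, dif_neg h])

/-- If `x ∈ M_σ`, `C_G(x) ≤ L` and `C_G(x) ⊄ M`, then `L` is not conjugate to `M`. -/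
theorem not_conj (hG : IsMinSimpleOddOrder G) (hM : IsCoatom M) {x : G} (hx : x ∈ sigmaCore M)
    (hne : ¬ centralizer ({x} : Set G) ≤ M) (hCL : centralizer ({x} : Set G) ≤ L) :
    ∀ g : G, L ≠ MulAut.conj g • M := by
  intro g hg
  have hxL : x ∈ L := hCL (mem_centralizer_singleton_iff.mpr rfl)
  obtain ⟨m, hm, c, hc, he⟩ := SigmaPrimeElem.exists_mul_centralizer hG hM hx (g := g⁻¹) (by
    rw [hg, Coprime.mem_conj_smul] at hxL; simpa using hxL)
  have hcL : c⁻¹ ∈ L := L.inv_mem (hCL hc)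
  have hLc : L = MulAut.conj c⁻¹ • M := by
    rw [hg, ← inv_inv g, he, mul_inv_rev, map_mul, mul_smul,
      Coprime.conj_smul_eq_self (le_normalizer (M.inv_mem hm))]
  have hMe : M = L := by
    rw [← Coprime.conj_smul_eq_self (le_normalizer hcL)] at hLc
    exact (MulAction.injective (MulAut.conj c⁻¹) hLc).symm
  exact hne (hMe ▸ hCL)

/-- A congruence exponent separating two coprime orders. -/
theorem exists_exponent {a b : ℕ} (hab : a.Coprime b) :
    ∃ n : ℕ, (∀ u : G, u ^ a = 1 → u ^ n = u) ∧ ∀ v : G, v ^ b = 1 → v ^ n = 1 := by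
  obtain ⟨n, hn1, hn2⟩ := Nat.chineseRemainder hab 1 0
  refine ⟨n, fun u hu => ?_, fun v hv => ?_⟩
  · conv_rhs => rw [← pow_one u]
    rw [pow_eq_pow_mod n hu, pow_eq_pow_mod 1 hu, show n % a = 1 % a from hn1]
  · rw [pow_eq_pow_mod n hv, show n % b = 0 % b from hn2, Nat.zero_mod, pow_zero]

/-- For a `τ₂(L)`-element `x` of `σ(H)`-order with `C_G(x) ≤ L`, `L_σ` meets `H` trivially. -/
theorem tau2_meet (hG : IsMinSimpleOddOrder G) (hL : IsCoatom L) {H : Subgroup G} (hH : IsCoatom H) (hne : H ≠ L)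
    {x : G} (hx1 : x ≠ 1) (hxL : x ∈ L) (hxH : x ∈ sigmaCore H) (hCL : centralizer ({x} : Set G) ≤ L)
    (hτ : ∀ q : ℕ, q.Prime → q ∣ orderOf x → q ∈ tau2 L) : sigmaCore L ⊓ H = ⊥ := by
  classical
  obtain ⟨p, hp, hpd⟩ := Nat.exists_prime_and_dvd (fun e => hx1 (orderOf_eq_one_iff.mp e))
  haveI := Fact.mk hp
  have hpτ := hτ p hp hpd
  obtain ⟨E, hE, -⟩ := exists_compl_ge hG hL hpτ.2.1 (IsPGroup.of_bot (p := p)) bot_le
  obtain ⟨m, hm, hmx⟩ := exists_conj_le_compl' hG hL hE (Y := zpowers x) (fun r hr hd => by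
    rw [Nat.card_zpowers] at hd; exact (hτ r hr hd).2.1) (zpowers_le.2 hxL)
  set x' := m * x * m⁻¹ with hx'
  have hx'E : x' ∈ E := hmx (smul_mem_pointwise_smul x (MulAut.conj m) _ (mem_zpowers x))
  obtain ⟨A, hAE, hA, hAc⟩ := exists_elem_compl hG hL hE hpτ
  have hEA := (le_normalizer_compl hG hL hE hpτ.2.1 hAE hA hAc).1
  have hxA : x' ∈ centralizer (A : Set G) := abelian_of_prime_pow_parts fun q k hq hqk => by
    haveI := Fact.mk hq
    set z := x' ^ (orderOf x' / q ^ k) with hz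
    have hzE : z ∈ E := E.pow_mem hx'E _
    have hzk : z ^ q ^ k = 1 := by
      rw [hz, ← pow_mul, Nat.div_mul_cancel hqk, pow_orderOf_eq_one]
    rcases Nat.eq_zero_or_pos k with rfl | hk
    · rw [pow_zero, pow_one] at hzk; rw [hzk]; exact one_mem _
    have hqx : q ∣ orderOf x := by
      rw [← show orderOf x' = orderOf x from (MulAut.conj m).orderOf_eq x]
      exact (dvd_pow_self q hk.ne').trans hqk
    have hqτ := hτ q hq hqx
    by_cases hqp : q = p
    · subst hqp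
      have hzA : zpowers z ≤ normalizer (A : Set G) := (zpowers_le.2 hzE).trans hEA
      have hzp : IsPGroup q (zpowers z) := by
        obtain ⟨j, -, hj⟩ := (Nat.dvd_prime_pow hq).mp (orderOf_dvd_of_pow_eq_one hzk)
        exact IsPGroup.of_card (n := j) (by rw [Nat.card_zpowers, hj])
      have hU : IsPGroup q ↥(zpowers z ⊔ A) := hzp.to_sup_of_normal_right' (elem_isPGroup hA) hzA
      exact mem_centralizer_iff.mpr fun a ha => pgroup_comm_of_not_sigma hG hL hpτ.2.1 hU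
        (sup_le ((zpowers_le.2 hzE).trans hE.1) (hAE.trans hE.1)) a (mem_sup_right ha) z
        (mem_sup_left (mem_zpowers z))
    by_cases hS : ∀ S : Sylow q G, IsMulCommutative (S : Subgroup G)
    swap
    · obtain ⟨B, hBE, hB, hBc⟩ := exists_elem_compl hG hL hE hqτ
      exact absurd ((tau_two_nonabelian hG hL hE hqτ.2.1 (fun S => sylow_comm_dichotomy hS S) hB hBE hBc).1 p hpτ)
        (Ne.symm hqp)
    obtain ⟨B, hBE, hB, hBc⟩ := exists_elem_compl hG hL hE hqτ
    obtain ⟨T, -, hTE, hET, -⟩ := exists_normal_sylow hG hL hE hqτ.2.1 hS hB hBE hBc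
    have hzT := mem_sylow_of_normal T hTE hET hzE hzk
    have hbot : ⁅(T : Subgroup G), A⁆ = ⊥ := le_bot_iff.mp ((le_inf
      (Coprime.commutator_le_of_le_normalizer' (hAE.trans hET))
      ((commutator_comm (T : Subgroup G) A).le.trans
        (Coprime.commutator_le_of_le_normalizer' (hTE.trans hEA)))).trans
      (Coprime.inf_eq_bot_of_coprime (coprime_pgroups (Ne.symm hqp) T.2 (elem_isPGroup hA))).le)
    exact commutator_eq_bot_iff_le_centralizer.mp hbot hzT
  set A₁ := MulAut.conj m⁻¹ • A with hA₁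
  have hA₁x : A₁ ≤ centralizer ({x} : Set G) := by
    intro a ha
    rw [hA₁, Coprime.mem_conj_smul, inv_inv] at ha
    have h := mem_centralizer_iff.mp hxA _ ha
    rw [mem_centralizer_singleton_iff]
    calc a * x = m⁻¹ * ((m * a * m⁻¹) * (m * x * m⁻¹)) * m := by group
      _ = x * a := by rw [h, hx']; group
  -- conjugate `⟨x⟩ A₁` into `H_σ`
  set Y := zpowers x ⊔ A₁ with hYdef
  have hxA₁ : zpowers x ≤ normalizer (A₁ : Set G) :=
    (zpowers_le.2 (mem_centralizer_iff.mpr fun a ha => mem_centralizer_singleton_iff.mp (hA₁x ha))).trans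
      (centralizer_le_normalizer _)
  obtain ⟨g, hg⟩ := exists_conj_le_sigmaCore hG hH (Y := Y)
    (fun e => hx1 (mem_bot.mp (e ▸ (mem_sup_left (mem_zpowers x) : x ∈ Y)))) fun r hr hd => by
      have hd' := hd.trans (Dvd.intro _ (Coprime.card_sup_mul_card_inf_of_le_normalizer hxA₁))
      rcases hr.dvd_mul.mp hd' with h | h
      · rw [Nat.card_zpowers] at h
        exact OddLocal.piCoreOf_isPi (sigma H) H r hr (h.trans ((sigmaCore H).orderOf_dvd_natCard hxH))
      · rw [hA₁, Coprime.card_conj_smul, hAc] at h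
        rw [(Nat.prime_dvd_prime_iff_eq hr hp).mp (hr.dvd_of_dvd_pow h)]
        exact OddLocal.piCoreOf_isPi (sigma H) H p hp (hpd.trans ((sigmaCore H).orderOf_dvd_natCard hxH))
  have hσH : sigmaCore H ≤ H := map_subtype_le _
  obtain ⟨h, hh, c, hc, hgc⟩ := SigmaPrimeElem.exists_mul_centralizer hG hH hxH (g := g)
    (hσH (hg (smul_mem_pointwise_smul x (MulAut.conj g) _ (mem_sup_left (mem_zpowers x)))))
  have hA₂H : MulAut.conj c • A₁ ≤ H := by
    rintro _ ⟨a, ha, rfl⟩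
    show c * a * c⁻¹ ∈ H
    have h1 : g * a * g⁻¹ ∈ H := hσH (hg (smul_mem_pointwise_smul a (MulAut.conj g) _ (mem_sup_right ha)))
    have h2 := H.mul_mem (H.mul_mem (H.inv_mem hh) h1) hh
    rw [hgc] at h2
    simpa [mul_assoc] using h2
  have hA₂L : MulAut.conj c • A₁ ≤ L := by
    rintro _ ⟨a, ha, rfl⟩
    exact L.mul_mem (L.mul_mem (hCL hc) (hCL (hA₁x ha))) (L.inv_mem (hCL hc))
  exact sigmaCore_inf_eq_bot hG hL hpτ.2.1 hA₂L (elem_of_conj _ (elem_of_conj _ hA))
    (by rw [Coprime.card_conj_smul, hA₁, Coprime.card_conj_smul, hAc]) hH hne hA₂H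

/-- BG 14.5, given the disjointness of `σ` for non-conjugate maximal subgroups and BG 14.3. -/
theorem coset_disjoint (hG : IsMinSimpleOddOrder G)
    (hdisj : ∀ A B : Subgroup G, IsCoatom A → IsCoatom B → ∀ p : ℕ, p ∈ sigma A → p ∈ sigma B →
      ∃ g : G, B = MulAut.conj g • A)
    (h32 : ∀ A : Subgroup G, IsCoatom A → ∀ a : G, a ∈ sigmaCore A → a ≠ 1 → ∀ b : G,
      b ∈ A ⊓ centralizer ({a} : Set G) → b ≠ 1 → (∀ p : ℕ, p.Prime → p ∣ orderOf b → p ∉ sigma A) →
      (∀ p : ℕ, p.Prime → p ∣ orderOf b → p ∈ tau2 A) ∧ centralizer ({b} : Set G) ≤ A ∨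
        centralizer ({a} : Set G) ≤ A)
    (hM : IsCoatom M) (hN : IsCoatom N) {x y : G} (hx : x ∈ sigmaCore M) (hy : y ∈ sigmaCore N)
    (hx1 : x ≠ 1) (hy1 : y ≠ 1) (hxy : x ≠ y) :
    ∀ r ∈ supportR M x, ∀ s ∈ supportR N y, x * r ≠ y * s := by
  intro r hr s hs h
  have hnσ : ∀ {A : Subgroup G}, IsCoatom A → ∀ {a : G}, a ∈ sigmaCore A → ∀ {b : G}, b ∈ supportR A a →
      Commute a b ∧ (∀ p : ℕ, p.Prime → p ∣ orderOf b → p ∉ sigma A) ∧
      (b ≠ 1 → ∃ L : Subgroup G, IsCoatom L ∧ ¬ centralizer ({a} : Set G) ≤ A ∧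
        centralizer ({a} : Set G) ≤ L ∧ b ∈ sigmaCore L) := by
    intro A hA a ha b hb
    rcases supportR_cases A a with h | ⟨L, hL, hne, hCL, hle⟩
    · rw [h, mem_bot] at hb
      subst hb
      exact ⟨Commute.one_right a, fun p hp hd => absurd (orderOf_one (G := G) ▸ hd) hp.not_dvd_one,
        fun e => absurd rfl e⟩
    · have hbL : b ∈ sigmaCore L := fittingHallOf_le_sigmaCore hG hL (hle hb).1
      refine ⟨(mem_centralizer_singleton_iff.mp (hle hb).2).symm, fun p hp hd hσ => ?_,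
        fun _ => ⟨L, hL, hne, hCL, hbL⟩⟩
      obtain ⟨g, hg⟩ := hdisj A L hA hL p hσ
        (OddLocal.piCoreOf_isPi (sigma L) L p hp (hd.trans ((sigmaCore L).orderOf_dvd_natCard hbL)))
      exact not_conj hG hA ha hne hCL g hg
  obtain ⟨cxr, hrσ, hrL⟩ := hnσ hM hx hr
  obtain ⟨cys, hsσ, hsL⟩ := hnσ hN hy hs
  have hxσ : ∀ p : ℕ, p.Prime → p ∣ orderOf x → p ∈ sigma M := fun p hp hd =>
    OddLocal.piCoreOf_isPi (sigma M) M p hp (hd.trans ((sigmaCore M).orderOf_dvd_natCard hx))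
  have hyσ : ∀ p : ℕ, p.Prime → p ∣ orderOf y → p ∈ sigma N := fun p hp hd =>
    OddLocal.piCoreOf_isPi (sigma N) N p hp (hd.trans ((sigmaCore N).orderOf_dvd_natCard hy))
  by_cases hconj : ∃ g : G, N = MulAut.conj g • M
  · -- both are the `σ(M)`-part of the product
    obtain ⟨g, hg⟩ := hconj
    have hg' : M = MulAut.conj g⁻¹ • N := by rw [hg, map_inv, inv_smul_smul]
    obtain ⟨n, hn1, hn2⟩ := exists_exponent (G := G) (a := orderOf x * orderOf y)
      (b := orderOf r * orderOf s) (Nat.coprime_of_dvd fun p hp h1 h2 => by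
        have hpσ : p ∈ sigma M := (hp.dvd_mul.mp h1).elim (hxσ p hp)
          fun h => sigma_conj hM hG hg (hyσ p hp h)
        rcases hp.dvd_mul.mp h2 with h | h
        · exact hrσ p hp h hpσ
        · exact hsσ p hp h (sigma_conj hN hG hg' hpσ))
    have e : (x * r) ^ n = (y * s) ^ n := congrArg (· ^ n) h
    rw [cxr.mul_pow, cys.mul_pow, hn1 x (by rw [pow_mul, pow_orderOf_eq_one, one_pow]),
      hn1 y (by rw [mul_comm, pow_mul, pow_orderOf_eq_one, one_pow]),
      hn2 r (by rw [pow_mul, pow_orderOf_eq_one, one_pow]),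
      hn2 s (by rw [mul_comm, pow_mul, pow_orderOf_eq_one, one_pow]), mul_one, mul_one] at e
    exact hxy e
  -- the `σ(M)`-part `x` lies in `⟨s⟩` and the `σ(N)`-part `y` in `⟨r⟩`
  have hdis : ∀ p : ℕ, p ∈ sigma M → p ∉ sigma N := fun p h1 h2 => hconj (hdisj M N hM hN p h1 h2)
  have part : ∀ {a b c d : G}, a * b = c * d → Commute a b → Commute c d →
      (orderOf a).Coprime (orderOf b * orderOf c) → a ∈ zpowers d := by
    intro a b c d he hab hcd hcop
    obtain ⟨n, hn1, hn2⟩ := exists_exponent (G := G) hcop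
    have e : (a * b) ^ n = (c * d) ^ n := congrArg (· ^ n) he
    rw [hab.mul_pow, hcd.mul_pow, hn1 a (pow_orderOf_eq_one a),
      hn2 b (by rw [pow_mul, pow_orderOf_eq_one, one_pow]),
      hn2 c (by rw [mul_comm, pow_mul, pow_orderOf_eq_one, one_pow]), mul_one, one_mul] at e
    exact e ▸ pow_mem (mem_zpowers d) n
  have hxs : x ∈ zpowers s := part h cxr cys (Nat.coprime_of_dvd fun p hp h1 h2 => by
    rcases hp.dvd_mul.mp h2 with h | h
    · exact hrσ p hp h (hxσ p hp h1)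
    · exact hdis p (hxσ p hp h1) (hyσ p hp h))
  have hyr : y ∈ zpowers r := part h.symm cys cxr (Nat.coprime_of_dvd fun p hp h1 h2 => by
    rcases hp.dvd_mul.mp h2 with h | h
    · exact hsσ p hp h (hyσ p hp h1)
    · exact hdis p (hxσ p hp h) (hyσ p hp h1))
  obtain ⟨L, hL, hneM, hCxL, hrL'⟩ := hrL fun e => hy1 (by rw [e, zpowers_one_eq_bot, mem_bot] at hyr; exact hyr)
  obtain ⟨L', hL', hneN, hCyL', hsL'⟩ := hsL fun e => hx1 (by rw [e, zpowers_one_eq_bot, mem_bot] at hxs; exact hxs)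
  have hyL : y ∈ sigmaCore L := zpowers_le.2 hrL' hyr
  have hxL' : x ∈ sigmaCore L' := zpowers_le.2 hsL' hxs
  have hxy' : x * y = y * x := by
    obtain ⟨i, hi⟩ := mem_zpowers_iff.mp hyr
    rw [← hi]; exact (cxr.zpow_right i).eq
  have hxL : x ∈ L := hCxL (mem_centralizer_singleton_iff.mpr rfl)
  have hxnL : ∀ p : ℕ, p.Prime → p ∣ orderOf x → p ∉ sigma L := fun p hp hd hσ => by
    obtain ⟨g, hg⟩ := hdisj M L hM hL p (hxσ p hp hd) hσ
    exact not_conj hG hM hx hneM hCxL g hg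
  rcases h32 L hL y hyL hy1 x ⟨hxL, mem_centralizer_singleton_iff.mpr hxy'⟩ hx1 hxnL with ⟨hτ, hCx⟩ | hCy
  · have hne : L' ≠ L := by
      rintro rfl
      obtain ⟨p, hp, hd⟩ := Nat.exists_prime_and_dvd (fun e => hx1 (orderOf_eq_one_iff.mp e))
      exact hxnL p hp hd (OddLocal.piCoreOf_isPi (sigma L') L' p hp
        (hd.trans ((sigmaCore L').orderOf_dvd_natCard hxL')))
    have hyL' : y ∈ L' := hCyL' (mem_centralizer_singleton_iff.mpr rfl)
    exact hy1 (mem_bot.mp (tau2_meet hG hL hL' hne hx1 hxL hxL' hCx hτ ▸ (⟨hyL, hyL'⟩ : y ∈ sigmaCore L ⊓ L')))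
  · obtain ⟨p, hp, hd⟩ := Nat.exists_prime_and_dvd (fun e => hy1 (orderOf_eq_one_iff.mp e))
    obtain ⟨g, hg⟩ := hdisj N L hN hL p (hyσ p hp hd)
      (OddLocal.piCoreOf_isPi (sigma L) L p hp (hd.trans ((sigmaCore L).orderOf_dvd_natCard hyL)))
    exact not_conj hG hN hy hneN hCy g hg

end Cfsg.Agent.Lib.OddLocal.Signalizer
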