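import Cfsg.Agent.Lib.OddLocal.Support
import Cfsg.Agent.Lib.OddLocal.FcoreStructure
import Cfsg.Agent.Lib.Uniq.SigmaPart
import Cfsg.Agent.Lib.Uniq.PairFrobeniusMain
import Cfsg.Agent.Lib.Uniq.TypeP2Main
import Cfsg.Agent.Lib.Hall.NarrowPrime
import Cfsg.Agent.Lib.Hall.CoprimeProduct
import Cfsg.Agent.Lib.FPF.FrobeniusKernel
set_option autoImplicit false
set_option linter.style.haveILetI false

/-! BG 16.1: two maximal subgroups over a `σ`-element. -/

namespace Cfsg.Agent.Lib.OddLocal.TwoSigma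

open Subgroup
open scoped Pointwise commutatorElement
open Cfsg.Agent.Lib.Uniq

universe u

variable {G : Type u} [Group G] [Finite G] {M N P A : Subgroup G} {p q : ℕ}

omit [Finite G] in
theorem le_ne_bot_of_elem [hp : Fact p.Prime] (hAc : Nat.card A = p ^ 2) : A ≠ ⊥ := fun e => by
  rw [e, card_bot] at hAc
  exact (Nat.one_lt_pow two_ne_zero hp.out.one_lt).ne hAc

/-- An element of prime order acting on a `p`-group with a small maximal elementary subgroup has small order. -/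
theorem lt_of_act [hp : Fact p.Prime] [hq : Fact q.Prime] (hp2 : p ≠ 2) (hq2 : q ≠ 2) (hqp : q ≠ p)
    (hP : IsPGroup p P) (hA : IsElementaryAbelian p A) (hAc : Nat.card A = p ^ 2) (hAP : A ≤ P)
    (hmax : ∀ B : Subgroup G, IsElementaryAbelian p B → A ≤ B → B = A) {b : G}
    (hbn : b ∈ normalizer (P : Set G)) (hbq : b ^ q = 1) (hbc : b ∉ centralizer (P : Set G)) : q < p := by
  classical
  set β : MulAut P := P.normalizerMonoidHom ⟨b, hbn⟩ with hβ
  have hβq : β ^ q = 1 := by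
    rw [hβ, ← map_pow, show (⟨b, hbn⟩ : normalizer (P : Set G)) ^ q = 1 from Subtype.ext (by simpa using hbq),
      map_one]
  have hβ1 : β ≠ 1 := fun e => hbc (mem_centralizer_iff.mpr fun z hz => by
    have h1 : b * z * b⁻¹ = z := congrArg Subtype.val (DFunLike.congr_fun e (⟨z, hz⟩ : P))
    exact (mul_inv_eq_iff_eq_mul.mp h1).symm)
  have hpm : q ∣ p - 1 → q < p := fun h => by
    have h1 := Nat.le_of_dvd (Nat.sub_pos_of_lt hp.out.one_lt) h
    have h2 := hp.out.one_lt
    omega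
  by_cases hr : PRankLE p 2 P
  · by_cases hd : q ∣ p * (p - 1)
    · rcases hq.out.dvd_mul.mp hd with h | h
      · exact absurd ((Nat.prime_dvd_prime_iff_eq hq.out hp.out).mp h) hqp
      · exact hpm h
    · obtain ⟨c, hc⟩ := (Hall.rank_two_prime hp2 hP hr hd β hβq hβ1).1
      have hpo : Odd p := hp.out.odd_of_ne_two hp2
      have hqo : Odd q := hq.out.odd_of_ne_two hq2
      rcases Nat.lt_or_ge c 2 with hc2 | hc2
      · interval_cases c
        · omega
        · obtain ⟨a, ha⟩ := hpo; obtain ⟨d, hd'⟩ := hqo; omega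
      · have := Nat.mul_le_mul_left q hc2
        have := hp.out.one_lt
        omega
  · have hA' : IsElementaryAbelian p (A.subgroupOf P) :=
      ⟨⟨⟨fun a b => Subtype.ext (Subtype.ext (elem_comm hA (mem_subgroupOf.mp a.2) (mem_subgroupOf.mp b.2)))⟩⟩,
        fun a ha => Subtype.ext (hA.2 _ ha)⟩
    obtain ⟨a, hap, hC⟩ := Lib.Uniq.exists_small_elem hP hA' (by rw [Coprime.card_subgroupOf hAP, hAc])
      fun B hB hAB => by
        refine map_injective P.subtype_injective ?_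
        rw [map_subgroupOf_eq_of_le hAP]
        refine hmax _ ?_ (by rw [← map_subgroupOf_eq_of_le hAP]; exact map_mono hAB)
        refine ⟨⟨⟨?_⟩⟩, ?_⟩
        · rintro ⟨_, x, hx, rfl⟩ ⟨_, y, hy, rfl⟩
          exact Subtype.ext (congrArg P.subtype (elem_comm hB hx hy))
        · rintro _ ⟨x, hx, rfl⟩
          rw [← map_pow, hB.2 x hx, map_one]
    obtain ⟨D⟩ := Hall.narrowData_of_small hP hr a hap hC
    obtain ⟨k, hk⟩ := Hall.narrowData_act_pPow hp2 hP D (MonoidHom.id _) (β ^ (p - 1)) (Or.inr ⟨β, rfl⟩)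
    rw [MonoidHom.id_apply, ← pow_mul] at hk
    have hdvd : q ∣ (p - 1) * p ^ k := orderOf_eq_prime hβq hβ1 ▸ orderOf_dvd_of_pow_eq_one hk
    rcases hq.out.dvd_mul.mp hdvd with h | h
    · exact hpm h
    · exact absurd ((Nat.prime_dvd_prime_iff_eq hq.out hp.out).mp (hq.out.dvd_of_dvd_pow h)) hqp

/-- BG 16.1, the comparison of primes. -/
theorem lt_core (hG : IsMinSimpleOddOrder G) (hM : IsCoatom M) {H : Subgroup G} (hH : IsCoatom H)
    [hp : Fact p.Prime] [hq : Fact q.Prime] (hpM : p ∈ tau2 M) (hpH : p ∈ sigma H)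
    (hnil : Group.IsNilpotent ↥(sigmaCore H)) (hqp : q ≠ p) {B : Subgroup G} (hBH : B ≤ H)
    (hB : ∀ b ∈ B, b ^ q = 1) (hfree : sigmaCore H ⊓ centralizer (B : Set G) = ⊥) : q < p := by
  classical
  haveI := hnil
  obtain ⟨A₀, hA₀M, hA₀, hA₀c⟩ := elem_of_not_pRankLE hpM.2.2.2
  obtain ⟨g, hg⟩ := exists_conj_le_sigmaCore hG hH (le_ne_bot_of_elem hA₀c) fun r hr hd =>
    isPGroup_ne_dvd (elem_isPGroup hA₀) hr hd ▸ hpH
  set A := MulAut.conj g • A₀
  have hAσ : A ≤ sigmaCore H := hg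
  have hA : IsElementaryAbelian p A := elem_of_conj g hA₀
  have hAc : Nat.card A = p ^ 2 := (Coprime.card_conj_smul _ _).trans hA₀c
  set P := (pCore p ↥(sigmaCore H)).map (sigmaCore H).subtype
  have hP : IsPGroup p P := (Hall.isPGroup_pCore (G := ↥(sigmaCore H)) p).map (sigmaCore H).subtype
  have hAP : A ≤ P := fun z hz => by
    obtain ⟨S, hS⟩ := ((elem_isPGroup hA).comap_subtype (K := sigmaCore H)).exists_le_sylow
    haveI : (S : Subgroup ↥(sigmaCore H)).Normal :=
      Sylow.normal_of_normalizerCondition Group.normalizerCondition_of_isNilpotent S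
    exact ⟨⟨z, hAσ hz⟩, Hall.le_pCore S.2 (hS hz), rfl⟩
  have hmax : ∀ C : Subgroup G, IsElementaryAbelian p C → A ≤ C → C = A := fun C hC hAC => by
    have h := elem_two_maximal hG hM hpM.2.2.1 hA₀M hA₀ hA₀c (elem_of_conj g⁻¹ hC) (by
      rw [map_inv]; exact Subgroup.subset_pointwise_smul_iff.mpr (by rw [inv_inv]; exact hAC))
    rw [map_inv, inv_smul_eq_iff] at h
    exact h
  obtain ⟨b, hb, hbc⟩ : ∃ b ∈ B, b ∉ centralizer (P : Set G) := by
    by_contra! h
    refine le_ne_bot_of_elem hAc (le_bot_iff.mp (hfree ▸ le_inf hAσ (hAP.trans ?_)))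
    exact le_centralizer_iff.mp h
  have hodd : ∀ r : ℕ, r ∣ Nat.card G → r ≠ 2 := fun r hr e => hG.1.not_two_dvd_nat (e ▸ hr)
  have hb1 : b ≠ 1 := fun e => hbc (e ▸ one_mem _)
  refine lt_of_act (hodd p ((dvd_pow_self p two_ne_zero).trans (hAc ▸ A.card_subgroup_dvd_card)))
    (hodd q (orderOf_eq_prime (hB b hb) hb1 ▸ orderOf_dvd_natCard b)) hqp hP hA hAc hAP hmax ?_ (hB b hb) hbc
  exact PL.normalizer_le_normalizer_map_char _ (pCore p ↥(sigmaCore H))
    (OddLocal.le_normalizer_piCoreOf (sigma H) H (hBH hb))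

/-- A Frobenius group with cyclic complement has no `τ₂`-prime. -/
theorem tau2_eq_empty (hG : IsMinSimpleOddOrder G) (hM : IsCoatom M) {E : Subgroup ↥M}
    (hE : IsFrobeniusComplement E) (hEc : IsCyclic E) : tau2 M = ∅ := by
  classical
  rw [Set.eq_empty_iff_forall_notMem]
  intro q hq
  haveI := Fact.mk hq.1
  obtain ⟨A, hAM, hA, hAc⟩ := elem_of_not_pRankLE hq.2.2.2
  obtain ⟨N, -, hn, hc, hnil⟩ := FPF.exists_frobenius_kernel_nilpotent hE
  haveI := hn
  haveI := hnil
  by_cases hqN : q ∣ Nat.card N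
  · obtain ⟨Q⟩ : Nonempty (Sylow q N) := inferInstance
    haveI : (Q : Subgroup N).Characteristic := Q.characteristic_of_normal
      (Sylow.normal_of_normalizerCondition Group.normalizerCondition_of_isNilpotent Q)
    set Q' := (Q : Subgroup N).map N.subtype
    haveI hQn : Q'.Normal := ConjAct.normal_of_characteristic_of_normal
    obtain ⟨S, hS⟩ := (Q.2.map N.subtype).exists_le_sylow
    have hqE : ¬ q ∣ Nat.card E := fun hd => by
      have h1 := Hall.fc_index_mod_card hE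
      rw [← hc.index_eq_card] at hqN
      have h2 : q ∣ E.index % Nat.card E := (Nat.dvd_mod_iff hd).mpr hqN
      rw [h1] at h2
      exact hq.1.not_dvd_one ((Nat.dvd_mod_iff hd).mp h2)
    have hSQ : (S : Subgroup M) = Q' := (eq_of_le_of_card_ge hS (by
      rw [card_map_of_injective N.subtype_injective, Q.card_eq_multiplicity, S.card_eq_multiplicity,
        ← hc.card_mul_card, Nat.factorization_mul Nat.card_pos.ne' Nat.card_pos.ne', Finsupp.add_apply,
        Nat.factorization_eq_zero_of_not_dvd hqE, add_zero])).symm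
    refine hq.2.1 ⟨hq.1, hqN.trans N.card_subgroup_dvd_card, S, (normalizer_eq_of_normal hG hM ?_
      (map_subtype_le _) ?_).le⟩
    · rw [hSQ, ne_eq, map_eq_bot_iff_of_injective _ M.subtype_injective,
        map_eq_bot_iff_of_injective _ N.subtype_injective]
      exact Q.ne_bot_of_dvd_card hqN
    · intro m hm
      refine mem_normalizer_iff_map_conj_eq.mpr (eq_of_le_of_card_ge ?_
        (card_map_of_injective (MulAut.conj m).injective).ge)
      rintro _ ⟨_, ⟨z, hz, rfl⟩, rfl⟩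
      rw [hSQ] at hz
      exact ⟨⟨m, hm⟩ * z * ⟨m, hm⟩⁻¹, hSQ.ge (hQn.conj_mem z hz _), rfl⟩
  · have hsurj : Function.Surjective ((QuotientGroup.mk' N).comp E.subtype) := by
      intro w
      obtain ⟨m, rfl⟩ := QuotientGroup.mk'_surjective N w
      obtain ⟨⟨n, e⟩, hne, -⟩ := isComplement_iff_existsUnique.mp hc m
      refine ⟨e, ?_⟩
      rw [← hne, map_mul, show QuotientGroup.mk' N (n : M) = 1 from
        (QuotientGroup.eq_one_iff _).mpr n.2, one_mul]
      rfl
    haveI := hEc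
    haveI : IsCyclic (M ⧸ N) := isCyclic_of_surjective _ hsurj
    let φ : A →* M ⧸ N := (QuotientGroup.mk' N).comp (Subgroup.inclusion hAM)
    have hφ : Function.Injective φ := (injective_iff_map_eq_one φ).mpr fun a ha => by
      have haN : Subgroup.inclusion hAM a ∈ N := (QuotientGroup.eq_one_iff _).mp ha
      by_contra ha1
      refine hqN ?_
      have h := N.orderOf_dvd_natCard haN
      rwa [orderOf_injective _ (inclusion_injective hAM), ← Subgroup.orderOf_coe,
        orderOf_eq_prime (hA.2 a a.2) fun e => ha1 (Subtype.ext e)] at h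
    exact not_isCyclic_of_elem hA hAc (isCyclic_of_injective φ hφ)

/-- BG 16.1. -/
theorem two_sigma (hG : IsMinSimpleOddOrder G) (hM : IsCoatom M) {x : G} (hx : x ∈ sigmaCore M) (hx1 : x ≠ 1)
    (hxM : ¬ centralizer ({x} : Set G) ≤ M) (hN : IsCoatom N) (hxN : centralizer ({x} : Set G) ≤ N)
    [hp : Fact p.Prime] (hpN : p ∈ sigma N) (hpd : p ∣ Nat.card M) : kappa M = ∅ ∧ tau2 M = ∅ := by
  classical
  by_cases hκN : (kappa N).Nonempty
  · obtain ⟨hκ, ⟨E, hE, hEc⟩, -⟩ := frobenius_of_kappa_support hG hM hx hx1 hxM hN hxN hκN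
    exact ⟨hκ, tau2_eq_empty hG hM hE hEc⟩
  rw [Set.not_nonempty_iff_eq_empty] at hκN
  obtain ⟨N', ⟨hN', -⟩, huniq, hnilN, -, -, -, -, hprimes⟩ :=
    Support.support_data hG (hdisj hG) (h30 hG) hM hx hx1 hxM
  obtain rfl := huniq N hN hxN
  clear hN' huniq
  have hnc := Signalizer.not_conj hG hM hx hxM hxN
  obtain ⟨q, hq, hqd⟩ := Nat.exists_prime_and_dvd (fun h => hx1 (orderOf_eq_one_iff.mp h))
  haveI := Fact.mk hq
  have hqM : q ∈ sigma M := PiElem.of_sigmaCore hx q hq hqd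
  have hqN : q ∈ tau2 N := (hprimes q hq hqd).1
  have hpM : p ∉ sigma M := fun h => by
    obtain ⟨g, hg⟩ := hdisj hG M N hM hN p h hpN
    exact hnc g hg
  have hqp : q ≠ p := fun e => hpM (e ▸ hqM)
  obtain ⟨B, hBN, hB, hBc⟩ := elem_of_not_pRankLE hqN.2.2.2
  have hBfree := sigmaCore_inf_centralizer_elem hG hN hqN.2.1 hBN hB hBc
  -- no prime of `σ(N)` is in `τ₂(M)`
  have step2 : ∀ r, r ∈ sigma N → r ∉ tau2 M := by
    intro r hrN hr
    haveI := Fact.mk hr.1
    have hrq : r ≠ q := fun e => hr.2.1 (e ▸ hqM)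
    obtain ⟨A, hAM, hA, hAc⟩ := elem_of_not_pRankLE hr.2.2.2
    have hAfree := sigmaCore_inf_centralizer_elem hG hM hr.2.1 hAM hA hAc
    have hnilM := (S1417.result hG M hM r hr A ⟨hAM, hA, hAc⟩).1
    have h1 : q < r := lt_core hG hM hN hr hrN hnilN hrq.symm hBN hB.2 hBfree
    have h2 : r < q := lt_core hG hN hM hqN hqM hnilM hrq hAM hA.2 hAfree
    omega
  -- `p ∉ κ(M)`
  have step3 : p ∉ kappa M := by
    intro hκ
    obtain ⟨K, hK, -⟩ := SigmaPrimeElem.exists_kappa_hall hG hM (e := 1) M.one_mem fun r hr hd =>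
      absurd (orderOf_one (G := G) ▸ hd) hr.not_dvd_one
    have hpK : p ∣ Nat.card K := by
      have h := hpd
      rw [← relIndex_bot_left, ← relIndex_mul_relIndex ⊥ K M bot_le hK.1, relIndex_bot_left] at h
      exact (hp.out.dvd_mul.mp h).resolve_right (hK.2.2 p hp.out hκ)
    have hK1 : K ≠ ⊥ := fun e => hp.out.not_dvd_one (by rw [e, card_bot] at hpK; exact hpK)
    obtain ⟨Ns, h⟩ := exists_pair hG hM hK hK1
    have hpNs : p ∈ sigma Ns := OddLocal.piCoreOf_isPi (sigma Ns) Ns p hp.out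
      (hpK.trans (card_dvd_of_le h.K_le_coreN))
    obtain ⟨g, hg⟩ := hdisj hG N Ns hN h.coatomN p hpN hpNs
    obtain ⟨v, hv, hv1⟩ := (bot_or_exists_ne_one _).resolve_left (h.symm hG).K_ne
    obtain ⟨t, ht, htd⟩ := Nat.exists_prime_and_dvd (fun e => hv1 (orderOf_eq_one_iff.mp e))
    haveI := Fact.mk ht
    set w := v ^ (orderOf v / t)
    have hwo : orderOf w = t := orderOf_pow_orderOf_div (orderOf_pos v).ne' htd
    have hwJ := (sigmaCore M ⊓ centralizer (K : Set G)).pow_mem hv (orderOf v / t)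
    have hwNs : w ∈ Ns := h.hallN.1 hwJ
    have htκ : t ∈ kappa Ns := h.hallN.2.1 t ht (hwo ▸ Subgroup.orderOf_dvd_natCard _ hwJ)
    obtain ⟨k, hk, hk1⟩ := K.bot_or_exists_ne_one.resolve_left hK1
    have hk' : g⁻¹ * k * g ∈ sigmaCore N := by
      have h1 := conj_mem_sigmaCore hG h.coatomN (h.K_le_coreN hk) g⁻¹
      rwa [inv_inv, map_inv, hg, inv_smul_smul] at h1
    have hw' : g⁻¹ * w * g ∈ N := by
      rw [hg, Coprime.mem_conj_smul] at hwNs; exact hwNs
    have hwk : w * k = k * w := ((mem_centralizer_iff.mp hwJ.2) k hk).symm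
    rcases SigmaPrimeElem.kappa_or_tau2 hG hN (q := t) (fun hs => htκ.2.2.1 (hg ▸ (sigma_conj_iff hG hN g).mpr hs))
      hw' (by rw [show g⁻¹ * w * g = MulAut.conj g⁻¹ w by simp, MulEquiv.orderOf_eq, hwo]) hk'
      (fun e => hk1 (conj_eq_one_iff.mp (show g⁻¹ * k * g⁻¹⁻¹ = 1 by rwa [inv_inv])))
      (by rw [show g⁻¹ * w * g * (g⁻¹ * k * g) = g⁻¹ * (w * k) * g by group, hwk]; group) with h1 | h1
    · rw [hκN] at h1; exact h1
    · obtain ⟨C, hCN, hC, hCc⟩ := elem_of_not_pRankLE h1.2.2.2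
      exact not_isCyclic_of_elem (elem_of_conj g hC) ((Coprime.card_conj_smul _ _).trans hCc)
        (KappaStar.isCyclic_of_kappa htκ (elem_isPGroup (elem_of_conj g hC))
          (hg ▸ pointwise_smul_le_pointwise_smul_iff.mpr hCN))
  -- `τ₂(M) = ∅`
  obtain ⟨⟨u, huM⟩, huo⟩ := exists_prime_orderOf_dvd_card' (G := M) p hpd
  rw [Subgroup.orderOf_mk] at huo
  have hUp : IsPGroup p (zpowers u) := IsPGroup.of_card (n := 1) (by rw [Nat.card_zpowers, huo, pow_one])
  have hu1 : u ≠ 1 := fun e => hp.out.ne_one (by rw [← huo, e, orderOf_one])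
  have hfreeu : sigmaCore M ⊓ centralizer ((zpowers u : Subgroup G) : Set G) = ⊥ := by
    rw [centralizer_zpowers, eq_bot_iff]
    rintro y ⟨hy, hyu⟩
    rw [mem_bot]
    by_contra hy1
    rcases SigmaPrimeElem.kappa_or_tau2 hG hM hpM huM huo hy hy1 (mem_centralizer_singleton_iff.mp hyu).symm
      with h | h
    · exact step3 h
    · exact step2 p hpN h
  have step4 : tau2 M = ∅ := by
    rw [Set.eq_empty_iff_forall_notMem]
    intro r hr
    haveI := Fact.mk hr.1
    have hrN : r ∉ sigma N := fun h => step2 r h hr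
    obtain ⟨E, hE, huE⟩ := exists_compl_ge hG hM hpM hUp (zpowers_le.mpr huM)
    obtain ⟨A, hAE, hA, hAc⟩ := exists_elem_compl hG hM hE hr
    have hAn := (le_normalizer_compl hG hM hE hr.2.1 hAE hA hAc).1
    have hAfree := sigmaCore_inf_centralizer_elem hG hM hr.2.1 (hAE.trans hE.1) hA hAc
    have hnilM := (S1417.result hG M hM r hr A ⟨hAE.trans hE.1, hA, hAc⟩).1
    obtain ⟨a, ha, ha1, hau⟩ : ∃ a ∈ A, a ≠ 1 ∧ a * u = u * a := by
      by_contra! h
      have hfpf : ∀ e ∈ zpowers u, e ≠ 1 → ∀ a ∈ A, e * a = a * e → a = 1 := by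
        intro e he he1 a ha hc
        by_contra ha1
        refine h a ha ha1 ?_
        have heu : zpowers e = zpowers u := eq_of_le_of_card_ge (zpowers_le.mpr he) (by
          rw [Nat.card_zpowers u, huo, Nat.card_zpowers e, ((Nat.dvd_prime hp.out).mp
            (huo ▸ Nat.card_zpowers u ▸ Subgroup.orderOf_dvd_natCard _ he)).resolve_left
              fun e' => he1 (orderOf_eq_one_iff.mp e')])
        obtain ⟨i, hi⟩ := mem_zpowers_iff.mp (heu.ge (mem_zpowers u))
        rw [← hi]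
        exact (Commute.zpow_right (show Commute a e from hc.symm) i).eq
      have hUE : A ⊔ zpowers u ≤ E := sup_le hAE huE
      haveI := solvable_of_ne_top hG hM.1
      have hform := Wielandt.formula A (zpowers u) (zpowers_ne_bot.mpr hu1)
        (fun e he a ha => (mem_normalizer_iff.mp (hAn (huE he)) a).mp ha) hfpf _ (sigmaCore M) rfl
        (Coprime.isSolvable_of_le (map_subtype_le _) inferInstance)
        (hUE.trans (hE.1.trans (OddLocal.le_normalizer_piCoreOf (sigma M) M)))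
        (Nat.coprime_of_dvd fun t ht h1 h2 => by
          haveI := Fact.mk ht
          exact compl_not_sigma hG hM hE (h2.trans (card_dvd_of_le hUE))
            (OddLocal.piCoreOf_isPi (sigma M) M t ht h1))
      have hsup : sigmaCore M ⊓ centralizer ((A ⊔ zpowers u : Subgroup G) : Set G) = ⊥ :=
        le_bot_iff.mp (hAfree ▸ inf_le_inf_left _ (centralizer_le (SetLike.coe_subset_coe.mpr le_sup_left)))
      rw [hsup, hfreeu, hAfree, card_bot, one_pow, one_mul, one_mul] at hform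
      exact hx1 (by rw [(sigmaCore M).eq_bot_of_card_eq hform, mem_bot] at hx; exact hx)
    have hao : orderOf a = r := orderOf_eq_prime (hA.2 a ha) ha1
    obtain ⟨g, hg⟩ := exists_conj_le_sigmaCore hG hN (zpowers_ne_bot.mpr hu1) fun t ht hd =>
      isPGroup_ne_dvd hUp ht hd ▸ hpN
    set u₀ := g * u * g⁻¹
    have hu₀ : u₀ ∈ sigmaCore N := hg ⟨u, mem_zpowers u, rfl⟩
    have hu₀o : orderOf u₀ = p := by
      rw [show u₀ = MulAut.conj g u from rfl, MulEquiv.orderOf_eq, huo]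
    have hu₀1 : u₀ ≠ 1 := fun e => hp.out.ne_one (by rw [← hu₀o, e, orderOf_one])
    by_cases hCu : centralizer ({u₀} : Set G) ≤ N
    · have hc : (g * a * g⁻¹) * u₀ = u₀ * (g * a * g⁻¹) :=
        show MulAut.conj g a * MulAut.conj g u = MulAut.conj g u * MulAut.conj g a by rw [← map_mul, hau, map_mul]
      rcases SigmaPrimeElem.kappa_or_tau2 hG hN hrN (hCu (mem_centralizer_singleton_iff.mpr hc))
        (by rw [show g * a * g⁻¹ = MulAut.conj g a from rfl, MulEquiv.orderOf_eq, hao]) hu₀ hu₀1 hc with h1 | h1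
      · rw [hκN] at h1; exact h1
      · obtain ⟨L, hL, hLσ⟩ := SigmaPrimeElem.exists_sigma_over_tau2 hG hN h1
        obtain ⟨c, hc⟩ := hdisj hG M L hM hL q hqM (hLσ q hqN)
        exact hr.2.1 ((sigma_conj_iff hG hM c).mp (hc ▸ hLσ r h1))
    · obtain ⟨L, ⟨hL, -⟩, -, -, -, -, -, -, hLp⟩ :=
        Support.support_data hG (hdisj hG) (h30 hG) hN hu₀ hu₀1 hCu
      have hpL : p ∈ tau2 L := (hLp p hp.out hu₀o.symm.dvd).1
      have h1 : q < p := lt_core hG hL hN hpL hpN hnilN hqp hBN hB.2 hBfree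
      have h2 : p < q := lt_core hG hN hM hqN hqM hnilM hqp.symm (zpowers_le.mpr huM) (fun b hb =>
        orderOf_dvd_iff_pow_eq_one.mp (huo ▸ Nat.card_zpowers u ▸ Subgroup.orderOf_dvd_natCard _ hb)) hfreeu
      omega
  refine ⟨Set.not_nonempty_iff_eq_empty.mp fun hκ => ?_, step4⟩
  -- `κ(M) = ∅`
  obtain ⟨K, hK, -⟩ := SigmaPrimeElem.exists_kappa_hall hG hM (e := 1) M.one_mem fun r hr hd =>
    absurd (orderOf_one (G := G) ▸ hd) hr.not_dvd_one
  have hK1 : K ≠ ⊥ := by
    obtain ⟨t, ht⟩ := hκ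
    exact fun e => hK.2.2 t ht.1 ht (by rw [e, relIndex_bot_left]; exact ht.2.1)
  obtain ⟨U, hKU⟩ := Decomposition.exists_decomposition hG hM (kappa_hall_cyclic hG hM hK) hK
  have hUH := Decomposition.hall_U hG hM hKU
  have hpU : p ∣ Nat.card U := by
    have h := hpd
    rw [← relIndex_bot_left, ← relIndex_mul_relIndex ⊥ U M bot_le hUH.1, relIndex_bot_left] at h
    exact (hp.out.dvd_mul.mp h).resolve_right (hUH.2.2 p hp.out ⟨hp.out, step3, hpM⟩)
  have hU1 : U ≠ ⊥ := fun e => hp.out.not_dvd_one (by rw [e, card_bot] at hpU; exact hpU)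
  obtain ⟨Ns, h⟩ := exists_pair hG hM hK hK1
  obtain ⟨R⟩ : Nonempty (Sylow p U) := inferInstance
  set R' := (R : Subgroup U).map U.subtype
  have hR1 : R' ≠ ⊥ := by
    rw [ne_eq, map_eq_bot_iff_of_injective _ U.subtype_injective]
    exact R.ne_bot_of_dvd_card hpU
  obtain ⟨H, hH, hNR⟩ := exists_coatom_ge (minSimple_normalizer_ne_top hG hR1
    (pgroup_ne_top hG (R.2.map U.subtype)))
  obtain ⟨-, hUσ, -, -, hKF, hF⟩ := type_p2_main hG hM hKU hK1 hU1 h hpU R hH hNR
  set F := H ⊓ Ns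
  have hpH : p ∈ sigma H := OddLocal.piCoreOf_isPi (sigma H) H p hp.out (hpU.trans (card_dvd_of_le hUσ))
  obtain ⟨g, hg⟩ := hdisj hG N H hN hH p hpN hpH
  have hqH : q ∉ sigma H := fun hs => hqN.2.1 ((sigma_conj_iff hG hN g).mp (hg ▸ hs))
  obtain ⟨m, -, hmB⟩ := exists_conj_le_compl hG hH hF hqH (elem_isPGroup (elem_of_conj g hB))
    (hg ▸ pointwise_smul_le_pointwise_smul_iff.mpr hBN)
  set B' := MulAut.conj m • MulAut.conj g • B
  have hB' : IsElementaryAbelian q B' := elem_of_conj m (elem_of_conj g hB)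
  have hB'c : Nat.card B' = q ^ 2 :=
    (Coprime.card_conj_smul _ _).trans ((Coprime.card_conj_smul _ _).trans hBc)
  have hB'F : B' ≤ fittingOf F := le_fittingOf_of_normal hmB
    (le_normalizer_compl hG hH hF hqH hmB hB' hB'c).1 (nilpotent_of_isMulCommutative hB'.1)
  have hnilF : Group.IsNilpotent ↥(fittingOf F) := by
    haveI := solvable_of_ne_top hG (ne_top_of_le hH (inf_le_left : F ≤ H))
    haveI : Group.IsNilpotent ↥(fittingSubgroup ↥F) := Hall.fittingSubgroup_isNilpotent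
    exact Group.nilpotent_of_mulEquiv ((fittingSubgroup ↥F).equivMapOfInjective F.subtype F.subtype_injective)
  have hKC : K ≤ centralizer (B' : Set G) := fun k hk => mem_centralizer_iff.mpr fun b hb => by
    rcases eq_or_ne b 1 with rfl | hb1
    · simp
    refine Hall.CoprimeProduct.Data.commute_of_coprime hnilF (hB'F hb) (hKF hk) ?_
    rw [orderOf_eq_prime (hB'.2 b hb) hb1]
    exact (hq.coprime_iff_not_dvd).mpr fun hd =>
      (hK.2.1 q hq (hd.trans (K.orderOf_dvd_natCard hk))).2.2.1 hqM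
  have hbot := sigmaCore_inf_centralizer_elem hG h.coatomN (h.disjoint_sigma hG q hqM)
    (hmB.trans inf_le_right) hB' hB'c
  exact hK1 (le_bot_iff.mp (hbot ▸ le_inf h.K_le_coreN hKC))

/-- BG 16.1(b). -/
theorem conj_in (hG : IsMinSimpleOddOrder G) (hM : IsCoatom M) {x : G} (hx : x ∈ sigmaCore M) (hx1 : x ≠ 1)
    (hxM : ¬ centralizer ({x} : Set G) ≤ M) (hN : IsCoatom N) (hxN : centralizer ({x} : Set G) ≤ N)
    {y : G} (hy : y ∈ sigmaCore M) (hy1 : y ≠ 1) (hyM : ¬ centralizer ({y} : Set G) ≤ M)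
    {N' : Subgroup G} (hN' : IsCoatom N') (hyN : centralizer ({y} : Set G) ≤ N') {g : G}
    (hg : MulAut.conj g • N' = N) : ∃ m ∈ M, MulAut.conj m • N' = N := by
  classical
  obtain ⟨N₁, -, huniq, -, -, -, -, hF, -⟩ := Support.support_data hG (hdisj hG) (h30 hG) hM hx hx1 hxM
  obtain rfl := huniq N hN hxN
  obtain ⟨N₂, -, huniq', -, -, -, -, hF', -⟩ := Support.support_data hG (hdisj hG) (h30 hG) hM hy hy1 hyM
  obtain rfl := huniq' N' hN' hyN
  obtain ⟨n, hn, hnF⟩ := exists_conj_le_compl' hG hN' hF' (Y := MulAut.conj g⁻¹ • (M ⊓ N))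
    (fun r hr hd hs => by
      haveI := Fact.mk hr
      rw [Coprime.card_conj_smul] at hd
      exact compl_not_sigma hG hN hF hd (hg ▸ (sigma_conj_iff hG hN' g).mpr hs))
    (by rw [map_inv]; exact Subgroup.subset_pointwise_smul_iff.mp (inf_le_right.trans hg.ge))
  set h := n * g⁻¹
  have hxF : x ∈ M ⊓ N :=
    ⟨(map_subtype_le _ : sigmaCore M ≤ M) hx, hxN (mem_centralizer_singleton_iff.mpr rfl)⟩
  have hxh : h * x * h⁻¹ ∈ M := by
    have h1 : MulAut.conj h x ∈ MulAut.conj n • MulAut.conj g⁻¹ • (M ⊓ N) := by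
      rw [smul_smul, ← map_mul]
      exact smul_mem_pointwise_smul _ _ _ hxF
    exact (hnF h1).1
  obtain ⟨m, hm, c, hc, hmc⟩ := SigmaPrimeElem.exists_mul_centralizer hG hM hx hxh
  refine ⟨m⁻¹, M.inv_mem hm, ?_⟩
  have hgn : g = c⁻¹ * m⁻¹ * n := by
    rw [← mul_inv_rev, ← hmc]; simp [h]
  have h1 : MulAut.conj c⁻¹ • MulAut.conj m⁻¹ • N' = N := by
    rw [smul_smul, ← map_mul]
    conv_lhs => rw [← Coprime.conj_smul_eq_self (le_normalizer hn)]
    rw [smul_smul, ← map_mul, ← hgn]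
    exact hg
  rwa [← Coprime.conj_smul_eq_self (le_normalizer (N.inv_mem (hxN hc))), smul_left_cancel_iff] at h1

end Cfsg.Agent.Lib.OddLocal.TwoSigma
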